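import Cfsg.Agent.Lib.AutOmega.Basic
import Cfsg.Agent.Lib.Classical.QuadOmega.Normal

/-!
The orthogonal space of a hyperbolic pair in a quadratic space.
-/

set_option autoImplicit false

namespace Cfsg.Agent.Lib.MinIndexO

open QuadraticMap hiding proj
open Cfsg.Agent.Lib.Classical.Quad Cfsg.Agent.Lib.Classical.QuadOmega
open Cfsg.Agent.Lib.AutOmegaOdd (G G_ext G_mul G_one G_inv G_inv' G_Q G_B sg sg_apply sg_add sg_zero
  sg_self sg_neg sg_smul sg_conj sg_fix sg_fix_self sg_swap Fr InW proj proj_mem decomp B_proj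
  sg_e_fix sg_e_f sg_e_inj)
open Cfsg.Agent.Lib.AutOmega (W_pair W_partner W_nondeg W_induction)

universe u v

variable {F : Type u} [Field F] {V : Type v} [AddCommGroup V] [Module F V] {Q : QuadraticForm F V}

/-- The orthogonal space of a pair. -/
def WQ (Q : QuadraticForm F V) (e f : V) : Submodule F V where
  carrier := {x | InW Q e f x}
  add_mem' := fun hx hy => InW.add hx hy
  zero_mem' := InW.zero e f
  smul_mem' := fun a _ hx => InW.smul hx a

theorem mem_WQ {e f x : V} : x ∈ WQ Q e f ↔ InW Q e f x := Iff.rfl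

/-- The restricted form. -/
noncomputable abbrev QW (Q : QuadraticForm F V) (e f : V) : QuadraticForm F (WQ Q e f) :=
  Q.comp (WQ Q e f).subtype

theorem QW_apply {e f : V} (x : WQ Q e f) : QW Q e f x = Q (x : V) := rfl

theorem polar_QW {e f : V} (x y : WQ Q e f) : polar (QW Q e f) x y = polar Q (x : V) y := by
  simp [polar]

variable [Fintype F] [Finite V] {e f : V}

theorem finrank_WQ (hG : Good Q) (HP : Fr Q e f) :
    Module.finrank F (WQ Q e f) + 2 = Module.finrank F V := by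
  let L : V →ₗ[F] F × F := ((polarBilin Q).flip e).prod ((polarBilin Q).flip f)
  have hker : LinearMap.ker L = WQ Q e f := by
    ext x
    simp only [L, LinearMap.mem_ker, LinearMap.prod_apply, LinearMap.flip_apply, Function.prod_apply,
      Prod.mk_eq_zero, polarBilin_apply_apply, mem_WQ]
    exact ⟨fun h => ⟨h.1, h.2⟩, fun h => ⟨h.xe, h.xf⟩⟩
  have hsurj : LinearMap.range L = ⊤ := by
    rw [eq_top_iff]
    intro c _
    refine ⟨c.2 • e + c.1 • f, ?_⟩
    simp [L, polar_add_left, polar_smul_left, polar_self_sing HP.ee, polar_self_sing HP.ff,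
      HP.ef, HP.fe]
  have h := L.finrank_range_add_finrank_ker
  rw [hsurj, finrank_top, Module.finrank_prod, Module.finrank_self, hker] at h
  omega

theorem good_QW (hG : Good Q) (HP : Fr Q e f) (hd : 7 ≤ Module.finrank F V) : Good (QW Q e f) := by
  haveI : FiniteDimensional F V := Module.Finite.of_finite
  have hdim := finrank_WQ hG HP
  refine ⟨fun x hx => ?_, fun a b c d => ?_, ?_⟩
  · by_contra h0
    obtain ⟨w, hw, h1⟩ := W_nondeg hG HP (mem_WQ.1 x.2) (fun h => h0 (Subtype.ext h))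
    have h := hx ⟨w, hw⟩
    rw [polar_QW, h1] at h
    exact one_ne_zero h
  · by_contra! h
    have hle : (⊤ : Submodule F (WQ Q e f)) ≤ Submodule.span F ({a, b, c, d} : Set (WQ Q e f)) :=
      fun v _ => h v
    have h1 := Submodule.finrank_mono hle
    rw [finrank_top] at h1
    have h2 : Module.finrank F (Submodule.span F ({a, b, c, d} : Set (WQ Q e f))) ≤ 4 := by
      classical
      refine le_trans (finrank_span_le_card _) ?_
      simp only [Set.toFinset_insert, Set.toFinset_singleton]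
      exact Finset.card_le_four
    omega
  · obtain ⟨a, b, ha, hb, Hab⟩ := W_pair hG HP
    let L : WQ Q e f →ₗ[F] F × F :=
      (((polarBilin Q).flip a).comp (WQ Q e f).subtype).prod
        (((polarBilin Q).flip b).comp (WQ Q e f).subtype)
    set U := (LinearMap.ker L).map (WQ Q e f).subtype
    have hU : ∀ x, x ∈ U ↔ InW Q e f x ∧ InW Q a b x := by
      intro x
      simp only [U, L, Submodule.mem_map, LinearMap.mem_ker, LinearMap.prod_apply, Function.prod_apply,
        Prod.mk_eq_zero, LinearMap.comp_apply, LinearMap.flip_apply, polarBilin_apply_apply,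
        Submodule.subtype_apply]
      exact ⟨by rintro ⟨y, ⟨h1, h2⟩, rfl⟩; exact ⟨mem_WQ.1 y.2, h1, h2⟩,
        fun h => ⟨⟨x, h.1⟩, ⟨h.2.xe, h.2.xf⟩, rfl⟩⟩
    have h1 := L.finrank_range_add_finrank_ker
    have h2 := Submodule.finrank_le (LinearMap.range L)
    rw [Module.finrank_prod, Module.finrank_self] at h2
    have h3 : Module.finrank F U = Module.finrank F (LinearMap.ker L) :=
      Submodule.finrank_map_subtype_eq _ _
    have hnd : Nd (Q.comp U.subtype) := fun x hx => by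
      by_contra h0
      obtain ⟨hxW, hxab⟩ := (hU _).1 x.2
      obtain ⟨w, hw, h1⟩ := W_nondeg hG HP hxW (fun h => h0 (Subtype.ext h))
      have hw' : proj Q a b w ∈ U :=
        (hU _).2 ⟨(hw.sub (ha.smul _)).sub (hb.smul _), proj_mem Hab w⟩
      have h : polar Q (x : V) (proj Q a b w) = 0 := by simpa [polar] using hx ⟨_, hw'⟩
      rw [B_proj hxab, h1] at h
      exact one_ne_zero h
    obtain ⟨s, hs0, hs⟩ := hnd.exists_singular_three (by omega)
    obtain ⟨hsW, hsab⟩ := (hU _).1 s.2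
    obtain ⟨t, ht, htW⟩ : ∃ t : V, Fr Q (s : V) t ∧ InW Q e f t ∧ InW Q a b t := by
      obtain ⟨w, hw, h1⟩ := W_nondeg hG HP hsW (fun h => hs0 (Subtype.ext h))
      set w' := proj Q a b w with hw'
      have hw'W : InW Q e f w' := (hw.sub (ha.smul _)).sub (hb.smul _)
      have h1' : polar Q (s : V) w' = 1 := by rw [hw', B_proj hsab, h1]
      obtain ⟨y, hy, hsy, hy'⟩ := exists_sing_of_pairing (x := (s : V)) hs h1'
      refine ⟨y, ⟨hs, hy, hsy⟩, ⟨?_, ?_⟩, ⟨?_, ?_⟩⟩
      · rw [polar_comm, hy' _ hsW.ex, hw'W.ex]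
      · rw [polar_comm, hy' _ hsW.fx, hw'W.fx]
      · rw [polar_comm, hy' _ hsab.ex, (proj_mem Hab w).ex]
      · rw [polar_comm, hy' _ hsab.fx, (proj_mem Hab w).fx]
    refine ⟨⟨a, ha⟩, ⟨b, hb⟩, ⟨s, hsW⟩, ⟨t, htW.1⟩, Hab.ee, Hab.ff, hs, ht.ff, ?_⟩
    simp only [polar_QW]
    exact ⟨Hab.ef, ht.ef, hsab.ex, htW.2.ex, hsab.fx, htW.2.fx⟩

omit [Fintype F] [Finite V] in
/-- Isometries of the orthogonal space in the Siegel group extend. -/
theorem exists_lift (HP : Fr Q e f) {t : isoG (QW Q e f)} (ht : t ∈ siegelGroup (QW Q e f)) :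
    ∃ g : G Q, g.1.1 e = e ∧ g.1.1 f = f ∧ ∀ x : WQ Q e f, g.1.1 (x : V) = (t.1 x : V) := by
  induction ht using Subgroup.closure_induction with
  | mem z hz =>
    obtain ⟨x, u, hx, hu, rfl⟩ := hz
    rw [QW_apply] at hx
    have hu' : polar Q (x : V) u = 0 := by rwa [polar_QW] at hu
    refine ⟨sg Q x u, sg_fix hx hu' (mem_WQ.1 x.2).ex (mem_WQ.1 u.2).ex,
      sg_fix hx hu' (mem_WQ.1 x.2).fx (mem_WQ.1 u.2).fx, fun v => ?_⟩
    rw [sg_apply hx hu', sie_apply (Q := QW Q e f) hx (by rw [polar_QW]; exact hu')]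
    simp only [Submodule.coe_sub, Submodule.coe_add, Submodule.coe_smul, polar_QW, QW_apply]
  | one => exact ⟨1, rfl, rfl, fun x => rfl⟩
  | mul a b _ _ ha hb =>
    obtain ⟨g, hg1, hg2, hg3⟩ := ha
    obtain ⟨h, hh1, hh2, hh3⟩ := hb
    exact ⟨g * h, by rw [G_mul, hh1, hg1], by rw [G_mul, hh2, hg2], fun x => by
      rw [G_mul, hh3, hg3]; rfl⟩
  | inv a _ ha =>
    obtain ⟨g, hg1, hg2, hg3⟩ := ha
    refine ⟨g⁻¹, ?_, ?_, fun x => ?_⟩
    · conv_lhs => rw [← hg1, G_inv]
    · conv_lhs => rw [← hg2, G_inv]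
    · obtain ⟨y, rfl⟩ : ∃ y, a.1 y = x := a.1.surjective x
      rw [← hg3, G_inv]
      congr 1
      exact (LinearEquiv.symm_apply_apply a.1 y).symm

/-- The orbits of vectors with given value. -/
theorem trans_level (hG : Good Q) (HP : Fr Q e f) (hd : 7 ≤ Module.finrank F V) {x y : WQ Q e f}
    (hx : x ≠ 0) (hy : y ≠ 0) (h : Q (x : V) = Q (y : V)) :
    ∃ g : G Q, g.1.1 e = e ∧ g.1.1 f = f ∧ g.1.1 (x : V) = (y : V) := by
  have hW := good_QW hG HP hd
  have key : ∃ t ∈ siegelGroup (QW Q e f), t.1 x = y := by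
    by_cases h0 : Q (x : V) = 0
    · exact hW.exists_map_sing hx hy h0 (by rw [QW_apply, ← h, h0])
    · obtain ⟨a, b, ha, hb, Hab⟩ := W_pair hG HP
      have he : QW Q e f ⟨a, ha⟩ = 0 := Hab.ee
      have hf' : QW Q e f ⟨b, hb⟩ = 0 := Hab.ff
      have hef : polar (QW Q e f) ⟨a, ha⟩ ⟨b, hb⟩ = 1 := by rw [polar_QW]; exact Hab.ef
      obtain ⟨t1, ht1, h1⟩ := hW.exists_map_nonsing he hf' hef (w := x) h0
      obtain ⟨t2, ht2, h2⟩ := hW.exists_map_nonsing he hf' hef (w := y) (by rwa [QW_apply, ← h])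
      refine ⟨t2 * t1⁻¹, mul_mem ht2 (inv_mem ht1), ?_⟩
      show t2.1 (t1.1.symm x) = y
      have e1 : t1.1.symm x = QW Q e f x • (⟨a, ha⟩ : WQ Q e f) + ⟨b, hb⟩ :=
        (LinearEquiv.symm_apply_eq _).2 h1.symm
      rw [e1, show QW Q e f x = QW Q e f y from h, h2]
  obtain ⟨t, ht, htx⟩ := key
  obtain ⟨g, h1, h2, h3⟩ := exists_lift HP ht
  exact ⟨g, h1, h2, by rw [h3, htx]⟩

end Cfsg.Agent.Lib.MinIndexO
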