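import Cfsg.Agent.Lib.MinIndexO.Proper
import Cfsg.Agent.Lib.Classical.QuadOmega.SingularApply

/-!
Counting when some radical has a regular orbit.
-/

set_option autoImplicit false

namespace Cfsg.Agent.Lib.MinIndexO

open QuadraticMap hiding proj
open Cfsg.Agent.Lib.Classical.Quad Cfsg.Agent.Lib.Classical.QuadOmega
open Cfsg.Agent.Lib.AutOmegaOdd (G G_ext G_mul G_one G_inv G_inv' G_Q G_B sg sg_apply sg_add sg_zero
  sg_self sg_neg sg_smul sg_conj sg_fix sg_fix_self sg_swap Fr InW proj proj_mem decomp B_proj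
  sg_e_fix sg_e_f sg_e_inj)
open Cfsg.Agent.Lib.AutOmega (W_pair W_partner W_nondeg W_induction)
open Cfsg.Agent.Lib.MinIndexSU (psi psi_one)
open scoped commutatorElement

universe u v w

attribute [local instance] _root_.Classical.propDecidable

variable {F : Type u} [Field F] [Fintype F] {V : Type v} [AddCommGroup V] [Module F V] [Fintype V]
  {Q : QuadraticForm F V} {e f : V}

/-! ### Singular vectors -/

/-- The nonzero singular vectors with a property. -/
noncomputable def singP (Q : QuadraticForm F V) (P : V → Prop) : Finset V :=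
  Finset.univ.filter fun x => x ≠ 0 ∧ Q x = 0 ∧ P x

theorem mem_singP {P : V → Prop} {x : V} : x ∈ singP Q P ↔ x ≠ 0 ∧ Q x = 0 ∧ P x := by simp [singP]

/-- The nonzero singular vectors of the orthogonal space. -/
noncomputable def Lset (Q : QuadraticForm F V) (e f : V) : Finset (WQ Q e f) := (lev Q e f 0).erase 0

theorem mem_Lset {u : WQ Q e f} : u ∈ Lset Q e f ↔ u ≠ 0 ∧ Q (u : V) = 0 := by
  simp [Lset, lev]

omit [Fintype F] in
theorem card_lev_zero (e f : V) : (lev Q e f 0).card = (Lset Q e f).card + 1 := by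
  rw [Lset, Finset.card_erase_add_one]
  simp [lev]

/-- A point of the affine part. -/
def pt (Q : QuadraticForm F V) (e f w : V) : V := f + w - Q w • e

theorem card_singP (HP : Fr Q e f) (P : V → Prop)
    (hP : ∀ (c : F) (x : V), c ≠ 0 → (P (c • x) ↔ P x)) :
    (singP Q P).card = ((Lset Q e f).filter fun u : WQ Q e f => P (u : V)).card +
      (Fintype.card F - 1) * (((lev Q e f 0).filter fun r : WQ Q e f => P (e + (r : V))).card +
        (Finset.univ.filter fun w : WQ Q e f => P (pt Q e f (w : V))).card) := by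
  rw [← Finset.card_filter_add_card_filter_not (s := singP Q P) (fun x : V => polar Q x e = 0),
    mul_add, ← add_assoc]
  congr 1
  · -- the part orthogonal to `e`
    set T := (((Finset.univ : Finset F) ×ˢ (lev Q e f 0)).filter fun p : F × WQ Q e f =>
      (p.1 ≠ 0 ∨ p.2 ≠ 0) ∧ P (p.1 • e + (p.2 : V)))
    have h1 : ((singP Q P).filter fun x => polar Q x e = 0).card = T.card := by
      refine Finset.card_bij' (fun x _ => (polar Q x f, (⟨proj Q e f x, proj_mem HP x⟩ : WQ Q e f)))
        (fun p _ => p.1 • e + (p.2 : V)) ?_ ?_ ?_ ?_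
      · intro x hx
        obtain ⟨hx, hxe⟩ := Finset.mem_filter.1 hx
        obtain ⟨hx0, hQx, hPx⟩ := (Finset.mem_filter.1 hx).2
        have hx' : x = polar Q x f • e + proj Q e f x := by
          conv_lhs => rw [decomp (Q := Q) e f x, hxe, zero_smul, add_zero]
        refine Finset.mem_filter.2 ⟨Finset.mem_product.2 ⟨Finset.mem_univ _,
          Finset.mem_filter.2 ⟨Finset.mem_univ _, ?_⟩⟩, ?_, by rw [← hx']; exact hPx⟩
        · have := (recompose HP (proj_mem HP x) (polar Q x f) 0).2.2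
          rw [zero_smul, add_zero, ← hx', hQx, mul_zero, zero_add] at this
          exact this.symm
        · by_contra! h
          obtain ⟨h1, h2⟩ := h
          exact hx0 (by rw [hx', show polar Q x f = 0 from h1, show proj Q e f x = 0 from congrArg Subtype.val h2]; simp)
      · intro p hp
        obtain ⟨hp1, hp0, hpP⟩ := Finset.mem_filter.1 hp
        obtain ⟨h2, h3, h4⟩ := recompose HP (mem_WQ.1 p.2.2) p.1 0
        simp only [zero_smul, add_zero] at h2 h3 h4
        refine Finset.mem_filter.2 ⟨Finset.mem_filter.2 ⟨Finset.mem_univ _, fun h0 => ?_, ?_, hpP⟩, h3⟩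
        · rw [h0, polar_zero_left] at h2
          rw [← h2, zero_smul, zero_add] at h0
          exact hp0.elim (fun h => h h2.symm) fun h => h (Subtype.ext h0)
        · rw [h4, (Finset.mem_filter.1 (Finset.mem_product.1 hp1).2).2]; simp
      · intro x hx
        obtain ⟨-, hxe⟩ := Finset.mem_filter.1 hx
        conv_rhs => rw [decomp (Q := Q) e f x, hxe, zero_smul, add_zero]
      · intro p _
        obtain ⟨h2, h3, -⟩ := recompose HP (mem_WQ.1 p.2.2) p.1 0
        simp only [zero_smul, add_zero] at h2 h3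
        refine Prod.ext h2 (Subtype.ext ?_)
        show proj Q e f _ = (p.2 : V)
        rw [proj, h2, h3, zero_smul, sub_zero, add_sub_cancel_left]
    rw [h1, Finset.card_filter, Finset.sum_product, ← Finset.add_sum_erase _ _ (Finset.mem_univ (0 : F))]
    simp only [← Finset.card_filter]
    congr 1
    · refine congrArg Finset.card ?_
      ext r
      simp only [Finset.mem_filter, mem_Lset, lev, Finset.mem_univ, true_and, ne_eq, not_true_eq_false,
        false_or, zero_smul, zero_add]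
      tauto
    · have h3 : ∀ α ∈ (Finset.univ : Finset F).erase 0, ((lev Q e f 0).filter fun r : WQ Q e f =>
          (α ≠ 0 ∨ r ≠ 0) ∧ P (α • e + (r : V))).card =
          ((lev Q e f 0).filter fun r : WQ Q e f => P (e + (r : V))).card := by
        intro α hα
        have hα0 := (Finset.mem_erase.1 hα).1
        refine Finset.card_bij' (fun r _ => α⁻¹ • r) (fun r _ => α • r) ?_ ?_
          (fun r _ => smul_inv_smul₀ hα0 r) (fun r _ => inv_smul_smul₀ hα0 r)
        · intro r hr
          obtain ⟨hr0, -, hrP⟩ := Finset.mem_filter.1 hr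
          refine Finset.mem_filter.2 ⟨Finset.mem_filter.2 ⟨Finset.mem_univ _, ?_⟩, ?_⟩
          · rw [Submodule.coe_smul, QuadraticMap.map_smul, (Finset.mem_filter.1 hr0).2, smul_zero]
          · rw [← hP α _ hα0, Submodule.coe_smul, smul_add, smul_inv_smul₀ hα0]; exact hrP
        · intro r hr
          obtain ⟨hr0, hrP⟩ := Finset.mem_filter.1 hr
          refine Finset.mem_filter.2 ⟨Finset.mem_filter.2 ⟨Finset.mem_univ _, ?_⟩, Or.inl hα0, ?_⟩
          · rw [Submodule.coe_smul, QuadraticMap.map_smul, (Finset.mem_filter.1 hr0).2, smul_zero]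
          · rw [Submodule.coe_smul, ← smul_add, hP α _ hα0]; exact hrP
      rw [Finset.sum_congr rfl h3, Finset.sum_const, Finset.card_erase_of_mem (Finset.mem_univ _),
        Finset.card_univ, smul_eq_mul]
  · rw [← Finset.card_univ, ← Finset.card_erase_of_mem (Finset.mem_univ (0 : F)),
      ← Finset.card_product]
    refine Finset.card_bij'
      (fun x _ => (polar Q x e, (⟨proj Q e f ((polar Q x e)⁻¹ • x), proj_mem HP _⟩ : WQ Q e f)))
      (fun p _ => p.1 • pt Q e f (p.2 : V)) ?_ ?_ ?_ ?_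
    · intro x hx
      obtain ⟨hx, hxe⟩ := Finset.mem_filter.1 hx
      obtain ⟨-, hQx, hPx⟩ := (Finset.mem_filter.1 hx).2
      refine Finset.mem_product.2 ⟨Finset.mem_erase.2 ⟨hxe, Finset.mem_univ _⟩,
        Finset.mem_filter.2 ⟨Finset.mem_univ _, ?_⟩⟩
      set y := (polar Q x e)⁻¹ • x
      have hye : polar Q y e = 1 := by rw [polar_smul_left, smul_eq_mul, inv_mul_cancel₀ hxe]
      have hyd : y = polar Q y f • e + f + proj Q e f y := by
        conv_lhs => rw [decomp (Q := Q) e f y, hye, one_smul]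
      have h0 := (recompose HP (proj_mem HP y) (polar Q y f) 1).2.2
      rw [one_smul, ← hyd, show Q y = 0 by rw [QuadraticMap.map_smul, hQx, smul_zero], mul_one,
        eq_comm, ← eq_neg_iff_add_eq_zero] at h0
      show P (pt Q e f (proj Q e f y))
      rw [show pt Q e f (proj Q e f y) = y by
        conv_rhs => rw [hyd, h0]
        rw [pt]; module, hP _ _ (inv_ne_zero hxe)]
      exact hPx
    · intro p hp
      obtain ⟨hp1, hp2⟩ := Finset.mem_product.1 hp
      have hp0 := (Finset.mem_erase.1 hp1).1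
      have hw := mem_WQ.1 p.2.2
      have hs : sg Q e (p.2 : V) = sg Q e (p.2 : V) := rfl
      have hq : Q (pt Q e f (p.2 : V)) = 0 := by rw [pt, ← sg_e_f HP hw, G_Q, HP.ff]
      have hpe : polar Q (p.1 • pt Q e f (p.2 : V)) e = p.1 := by
        simp [pt, polar_smul_left, polar_sub_left, polar_add_left, HP.fe, hw.xe,
          polar_self_sing HP.ee]
      refine Finset.mem_filter.2 ⟨Finset.mem_filter.2 ⟨Finset.mem_univ _, fun h0 => hp0 ?_,
        by rw [QuadraticMap.map_smul, hq, smul_zero], (hP _ _ hp0).2 (Finset.mem_filter.1 hp2).2⟩,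
        by rw [hpe]; exact hp0⟩
      rw [← hpe, h0, polar_zero_left]
    · intro x hx
      obtain ⟨hx, hxe⟩ := Finset.mem_filter.1 hx
      obtain ⟨-, hQx, -⟩ := (Finset.mem_filter.1 hx).2
      show polar Q x e • pt Q e f (proj Q e f ((polar Q x e)⁻¹ • x)) = x
      set y := (polar Q x e)⁻¹ • x with hy
      have hye : polar Q y e = 1 := by rw [polar_smul_left, smul_eq_mul, inv_mul_cancel₀ hxe]
      have hyd : y = polar Q y f • e + f + proj Q e f y := by
        conv_lhs => rw [decomp (Q := Q) e f y, hye, one_smul]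
      have h0 := (recompose HP (proj_mem HP y) (polar Q y f) 1).2.2
      rw [one_smul, ← hyd, show Q y = 0 by rw [QuadraticMap.map_smul, hQx, smul_zero], mul_one,
        eq_comm, ← eq_neg_iff_add_eq_zero] at h0
      rw [show pt Q e f (proj Q e f y) = y by
        conv_rhs => rw [hyd, h0]
        rw [pt]; module, hy, smul_inv_smul₀ hxe]
    · intro p hp
      have hp0 := (Finset.mem_erase.1 (Finset.mem_product.1 hp).1).1
      have hw := mem_WQ.1 p.2.2
      have hpe : polar Q (p.1 • pt Q e f (p.2 : V)) e = p.1 := by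
        simp [pt, polar_smul_left, polar_sub_left, polar_add_left, HP.fe, hw.xe,
          polar_self_sing HP.ee]
      refine Prod.ext hpe (Subtype.ext ?_)
      show proj Q e f _ = (p.2 : V)
      rw [hpe, inv_smul_smul₀ hp0]
      simp [proj, pt, polar_sub_left, polar_add_left, polar_smul_left, HP.ef, HP.fe, hw.xe, hw.xf,
        polar_self_sing HP.ee, polar_self_sing HP.ff]

theorem card_sing (HP : Fr Q e f) :
    (singP Q fun _ => True).card = (Lset Q e f).card +
      (Fintype.card F - 1) * ((Lset Q e f).card + 1 + Fintype.card (WQ Q e f)) := by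
  rw [card_singP HP _ (fun _ _ _ => Iff.rfl)]
  simp only [Finset.filter_true, Finset.card_univ, card_lev_zero]

/-- The singular vectors orthogonal to a singular vector. -/
theorem card_sing_perp (HP : Fr Q e f) :
    (singP Q fun x => polar Q x e = 0).card =
      (Lset Q e f).card + (Fintype.card F - 1) * ((Lset Q e f).card + 1) := by
  rw [card_singP HP (fun x => polar Q x e = 0) fun c x hc => by
    rw [polar_smul_left, smul_eq_mul, mul_eq_zero, or_iff_right hc]]
  rw [Finset.filter_true_of_mem fun (u : WQ Q e f) _ => (mem_WQ.1 u.2).xe,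
    Finset.filter_true_of_mem (s := lev Q e f 0) fun (r : WQ Q e f) _ => by
      rw [polar_add_left, polar_self_sing HP.ee, (mem_WQ.1 r.2).xe, add_zero],
    Finset.filter_false_of_mem (s := Finset.univ) fun w _ => by
      simp [pt, polar_sub_left, polar_add_left, polar_smul_left, HP.fe, (mem_WQ.1 w.2).xe,
        polar_self_sing HP.ee],
    Finset.card_empty, add_zero, card_lev_zero]

/-! ### Regular points -/

variable {Ω : Type w} [MulAction (G Q) Ω]

variable (Q) in
/-- The radical at a vector acts regularly at a point. -/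
def Free (ω : Ω) (x : V) : Prop := ∀ u, polar Q x u = 0 → sg Q x u • ω = ω → sg Q x u = 1

theorem free_scalar (ω : Ω) {x : V} (hx : Q x = 0) {c : F} (hc : c ≠ 0) :
    Free Q ω (c • x) ↔ Free Q ω x := by
  have key : ∀ {y : V} {d : F}, Q y = 0 → d ≠ 0 → Free Q ω y → Free Q ω (d • y) := by
    intro y d hy hd h u hu
    rw [polar_smul_left, smul_eq_mul, mul_eq_zero, or_iff_right hd] at hu
    rw [sg_smul hy hu]
    exact h _ (by rw [polar_smul_right, hu, smul_zero])
  refine ⟨fun h => ?_, key hx hc⟩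
  have := key (d := c⁻¹) (by rw [QuadraticMap.map_smul, hx, smul_zero]) (inv_ne_zero hc) h
  rwa [inv_smul_smul₀ hc] at this

theorem free_smul {ω : Ω} {x : V} (hx : Q x = 0) (g : G Q) (h : Free Q ω x) :
    Free Q (g • ω) (g.1.1 x) := by
  intro u hu hfix
  obtain ⟨u', rfl⟩ : ∃ u', g.1.1 u' = u := g.1.1.surjective u
  rw [G_B] at hu
  rw [← sg_conj hx hu g, mul_smul, mul_smul, inv_smul_smul, smul_left_cancel_iff] at hfix
  rw [← sg_conj hx hu g, h u' hu hfix, mul_one, mul_inv_cancel]

theorem free_smul_iff {ω : Ω} {x : V} (hx : Q x = 0) (g : G Q) :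
    Free Q (g • ω) (g.1.1 x) ↔ Free Q ω x := by
  refine ⟨fun h => ?_, free_smul hx g⟩
  have := free_smul (by rw [G_Q, hx]) g⁻¹ h
  rwa [inv_smul_smul, G_inv] at this

theorem free_iff (HP : Fr Q e f) (ω : Ω) :
    Free Q ω e ↔ ∀ w : WQ Q e f, sg Q e (w : V) • ω = ω → w = 0 := by
  constructor
  · intro h w hw
    exact Subtype.ext (sg_e_inj HP (mem_WQ.1 w.2) (InW.zero e f)
      (show sg Q e (w : V) = sg Q e 0 by rw [h _ (mem_WQ.1 w.2).ex hw, sg_zero HP.ee]))
  · intro h u hu hfix
    rw [sg_proj HP hu] at hfix ⊢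
    have h0 := congrArg Subtype.val (h ⟨_, proj_mem HP u⟩ hfix)
    rw [show proj Q e f u = 0 from h0, sg_zero HP.ee]

theorem free_of_AnnW (hG : Good Q) (HP : Fr Q e f) {ω : Ω} (h : AnnW HP ω = Finset.univ) :
    Free Q ω e := by
  refine (free_iff HP ω).2 fun w hw => ?_
  by_contra h0
  obtain ⟨v, hv, h1⟩ := W_nondeg hG HP (mem_WQ.1 w.2) (fun h' => h0 (Subtype.ext h'))
  have h2 := mem_AnnW.1 (show (⟨v, hv⟩ : WQ Q e f) ∈ AnnW HP ω from h ▸ Finset.mem_univ _) w hw
  rw [kapW_apply] at h2
  change psi F (polar Q v (w : V)) = 1 at h2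
  rw [polar_comm, h1] at h2
  exact psi_one h2

theorem card_orbW_free (HP : Fr Q e f) {ω : Ω} (h : Free Q ω e) :
    (orbW HP ω).card = Fintype.card (WQ Q e f) := by
  have hinj : Function.Injective fun a : WQ Q e f => sg Q e (a : V) • ω := fun a b hab => ?_
  · rw [show orbW HP ω = (Finset.univ : Finset (WQ Q e f)).image (fun a : WQ Q e f => sg Q e (a : V) • ω) by
      ext y; simp [mem_orbW], Finset.card_image_of_injective _ hinj, Finset.card_univ]
  refine sub_eq_zero.1 ((free_iff HP ω).1 h (a - b) ?_)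
  rw [Submodule.coe_sub, sub_eq_add_neg, add_comm,
    sg_add HP.ee (by rw [polar_neg_right, (mem_WQ.1 b.2).ex, neg_zero]) (mem_WQ.1 a.2).ex, mul_smul,
    sg_neg HP.ee (mem_WQ.1 b.2).ex]
  exact inv_smul_eq_iff.2 hab

theorem free_orb (HP : Fr Q e f) {ω y : Ω} (h : Free Q ω e) (hy : y ∈ orbW HP ω) : Free Q y e := by
  obtain ⟨w, rfl⟩ := mem_orbW.1 hy
  have := free_smul HP.ee (sg Q e (w : V)) h
  rwa [sg_fix_self HP.ee (mem_WQ.1 w.2).ex] at this

/-- The regular points of a vector. -/
noncomputable def freeF (Q : QuadraticForm F V) (Ω : Type w) [MulAction (G Q) Ω] [Fintype Ω]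
    (x : V) : Finset Ω :=
  Finset.univ.filter fun ω => Free Q ω x

theorem mem_freeF [Fintype Ω] {x : V} {ω : Ω} : ω ∈ freeF Q Ω x ↔ Free Q ω x := by simp [freeF]

theorem card_freeF_eq [Fintype Ω] (hG : Good Q) {x y : V} (hx : Q x = 0) (hx0 : x ≠ 0)
    (hy : Q y = 0) (hy0 : y ≠ 0) : (freeF Q Ω x).card = (freeF Q Ω y).card := by
  obtain ⟨s, hs, hsx⟩ := hG.exists_map_sing hx0 hy0 hx hy
  set g : G Q := ⟨s, hs⟩
  refine Finset.card_bij' (fun ω _ => g • ω) (fun ω _ => g⁻¹ • ω) ?_ ?_
    (fun ω _ => inv_smul_smul g ω) (fun ω _ => smul_inv_smul g ω)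
  · intro ω hω
    have := free_smul hx g (mem_freeF.1 hω)
    rw [show g.1.1 x = y from hsx] at this
    exact mem_freeF.2 this
  · intro ω hω
    refine mem_freeF.2 ((free_smul_iff hx g).1 ?_)
    rw [smul_inv_smul, show g.1.1 x = y from hsx]
    exact mem_freeF.1 hω

/-! ### The torus -/

theorem exists_tor (hG : Good Q) (HP : Fr Q e f) (h4 : 4 ≤ Fintype.card F) :
    ∃ (h : G Q) (l : F), l ≠ 1 ∧ IsLv Q e f h l ∧ ∀ x, InW Q e f x → h.1.1 x = x := by
  obtain ⟨c, hc⟩ : ∃ c : F, c ∉ ({0, 1, -1} : Finset F) := by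
    by_contra! h
    have := Finset.card_le_card (fun x _ => h x : (Finset.univ : Finset F) ⊆ {0, 1, -1})
    rw [Finset.card_univ] at this
    have := this.trans Finset.card_le_three
    omega
  simp only [Finset.mem_insert, Finset.mem_singleton, not_or] at hc
  obtain ⟨hc0, hc1, hc2⟩ := hc
  have hef : polar Q e f ≠ 0 := by rw [HP.ef]; exact one_ne_zero
  obtain ⟨-, -, hQs, hsf⟩ := refl_swap HP.ee HP.ff hef
  have hs0 : Q (e - f) ≠ 0 := by rw [hQs]; exact neg_ne_zero.2 hef
  set s := refl Q (e - f) with hs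
  have hse : s.1 e = f := by
    conv_lhs => rw [← hsf]
    exact refl_refl hs0 f
  set P := pairScale Q e f c with hPd
  have hPe : P.1 e = c • e := by
    rw [hPd, pairScale_apply HP.ee HP.ff HP.ef hc0, HP.ef, polar_self_sing HP.ee]; module
  have hPf : P.1 f = c⁻¹ • f := by
    rw [hPd, pairScale_apply HP.ee HP.ff HP.ef hc0, HP.fe, polar_self_sing HP.ff]; module
  have hPi : ∀ x y, P.1 x = y → (P⁻¹).1 y = x := fun x y h => by
    rw [← h]; exact LinearEquiv.symm_apply_apply P.1 x
  have hPie : (P⁻¹).1 e = c⁻¹ • e := hPi _ _ (by rw [_root_.map_smul, hPe, inv_smul_smul₀ hc0])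
  have hPif : (P⁻¹).1 f = c • f := hPi _ _ (by rw [_root_.map_smul, hPf, smul_inv_smul₀ hc0])
  have hmem : ⁅P, s⁆ ∈ siegelGroup Q := by
    rw [← commutator_eq hG, commutator_def]
    exact Subgroup.commutator_mem_commutator (Subgroup.mem_top _) (Subgroup.mem_top _)
  have happ : ∀ x, (⁅P, s⁆).1 x = P.1 (s.1 ((P⁻¹).1 (s.1 x))) := fun x => by
    rw [commutatorElement_def, hs, refl_inv hs0]; rfl
  refine ⟨⟨⁅P, s⁆, hmem⟩, c * c, ?_, ⟨mul_ne_zero hc0 hc0, ?_, ?_⟩, fun x hx => ?_⟩
  · intro h
    rcases mul_self_eq_one_iff.1 h with h | h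
    exacts [hc1 h, hc2 h]
  · rw [happ, hse, hPif, _root_.map_smul, hsf, _root_.map_smul, hPe, smul_smul]
  · rw [happ, hsf, hPie, _root_.map_smul, hse, _root_.map_smul, hPf, smul_smul, mul_inv]
  · have hsx : s.1 x = x := refl_apply_perp hs0 (by rw [polar_sub_right, hx.xe, hx.xf, sub_zero])
    have hPx : P.1 x = x := by
      rw [hPd, pairScale_apply HP.ee HP.ff HP.ef hc0, hx.xe, hx.xf]; module
    rw [happ, hsx, hPi x x hPx, hsx, hPx]

/-- The point of a regular orbit fixed by the stabiliser of the pair. -/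
theorem exists_fixed [Fintype Ω] (hG : Good Q) (HP : Fr Q e f) (h4 : 4 ≤ Fintype.card F) {ω : Ω}
    (hω : Free Q ω e) (huniq : ∀ y, Free Q y e → y ∈ orbW HP ω) :
    ∃ v : WQ Q e f, ∀ (g : G Q) (c : F), IsLv Q e f g c →
      g • (sg Q e (v : V) • ω) = sg Q e (v : V) • ω := by
  obtain ⟨h, l, hl1, hh, hhW⟩ := exists_tor hG HP h4
  have hperm : ∀ {g : G Q} {c : F}, IsLv Q e f g c → ∀ {y : Ω}, Free Q y e → Free Q (g • y) e := by
    intro g c hg y hy
    have := free_smul HP.ee g hy
    rwa [hg.2.1, free_scalar _ HP.ee hg.1] at this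
  obtain ⟨v, hv⟩ := mem_orbW.1 (huniq _ (hperm hh hω))
  set w : WQ Q e f := (1 - l)⁻¹ • v
  have hhw : h • (sg Q e (w : V) • ω) = sg Q e (w : V) • ω := by
    rw [← mul_smul, IsLv.conj HP hh (mem_WQ.1 w.2), mul_smul, ← hv, ← mul_smul,
      hhW _ (mem_WQ.1 w.2), ← sg_add HP.ee ((mem_WQ.1 w.2).smul _).ex (mem_WQ.1 v.2).ex]
    congr 2
    simp only [w, Submodule.coe_smul]
    have hl := sub_ne_zero.2 (Ne.symm hl1)
    match_scalars
    field_simp
    ring
  refine ⟨w, fun g c hg => ?_⟩
  set ω' := sg Q e (w : V) • ω with hω'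
  have hω'free : Free Q ω' e := free_orb HP hω (mem_orbW.2 ⟨w, rfl⟩)
  obtain ⟨u1, hu1⟩ := mem_orbW.1 (huniq _ (hperm hg hω'free))
  set u : WQ Q e f := u1 - w
  have hu : g • ω' = sg Q e (u : V) • ω' := by
    rw [hω', ← mul_smul, ← mul_smul, ← sg_add HP.ee (mem_WQ.1 u.2).ex (mem_WQ.1 w.2).ex]
    rw [mul_smul]
    simp only [u, Submodule.coe_sub, sub_add_cancel]
    exact hu1.symm
  have hcomm : h * g = g * h := by
    refine G_ext fun x => ?_
    rw [G_mul, G_mul, decomp (Q := Q) e f x]
    simp only [map_add, _root_.map_smul, hg.2.1, hg.2.2, hh.2.1, hh.2.2, hhW _ (proj_mem HP x),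
      hhW _ (hg.mem (proj_mem HP x)), smul_smul, mul_comm, mul_left_comm]
  have h1 : h • (g • ω') = g • ω' := by rw [← mul_smul, hcomm, mul_smul, hhw]
  rw [hu, ← mul_smul, IsLv.conj HP hh (mem_WQ.1 u.2), mul_smul, hhw, hhW _ (mem_WQ.1 u.2)] at h1
  have h2 : (l • u - u : WQ Q e f) = 0 := by
    refine (free_iff HP ω').1 hω'free _ ?_
    rw [Submodule.coe_sub, Submodule.coe_smul, sub_eq_add_neg, add_comm,
      sg_add HP.ee (by rw [polar_neg_right, (mem_WQ.1 u.2).ex, neg_zero]) ((mem_WQ.1 u.2).smul _).ex,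
      mul_smul, sg_neg HP.ee (mem_WQ.1 u.2).ex, inv_smul_eq_iff]
    exact h1
  rw [show l • u - u = (l - 1) • u by rw [sub_smul, one_smul], smul_eq_zero,
    or_iff_right (sub_ne_zero.2 hl1)] at h2
  rw [hu, h2, Submodule.coe_zero, sg_zero HP.ee, one_smul]

/-! ### Points without free radical -/

variable (Q) in
/-- The singular vectors whose radical meets the stabiliser. -/
noncomputable def bad (ω : Ω) : Finset V := singP Q fun x => ¬Free Q ω x

theorem mem_bad {ω : Ω} {x : V} : x ∈ bad Q ω ↔ x ≠ 0 ∧ Q x = 0 ∧ ¬Free Q ω x := by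
  simp [bad, singP]

theorem fixed_singular (hG : Good Q) (HP : Fr Q e f) (hd : 7 ≤ Module.finrank F V) {ω : Ω}
    (hfix : ∀ (g : G Q) (c : F), IsLv Q e f g c → g • ω = ω) {u : WQ Q e f} (hu : u ∈ Lset Q e f) :
    ¬Free Q ω (u : V) := by
  obtain ⟨hu0, hQu⟩ := mem_Lset.1 hu
  have huW := mem_WQ.1 u.2
  obtain ⟨t, ht, Hut⟩ := W_partner hG HP huW hQu (fun h => hu0 (Subtype.ext h))
  obtain ⟨y, w, hy, -, hyu, hyt, hwu, -, hyw⟩ := exists_two_perp hG HP hd huW ht
  have huy : polar Q (u : V) y = 0 := by rw [polar_comm]; exact hyu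
  intro h
  have h1 := h y huy (hfix _ 1 (isLv_sg HP huW hy hQu huy))
  have h2 := congrArg (fun g : G Q => g.1.1 t) h1
  simp only [sg_apply hQu huy, G_one, polar_comm Q t (u : V), Hut.ef, one_smul, polar_comm Q t y,
    hyt, zero_smul, sub_zero, mul_one] at h2
  have h3 : y = Q y • (u : V) := by
    linear_combination (norm := module) h2
  refine hyw ?_
  rw [h3, polar_smul_left, polar_comm, hwu, smul_zero]

/-- Pairs of orthogonal singular vectors carry the same number. -/
theorem Lset_card_eq {e' f' : V} (HP : Fr Q e f) (HP' : Fr Q e' f')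
    (hX : Fintype.card (WQ Q e' f') = Fintype.card (WQ Q e f)) :
    (Lset Q e' f').card = (Lset Q e f).card := by
  have h := (card_sing (Q := Q) HP').symm.trans (card_sing (Q := Q) HP)
  rw [hX] at h
  rcases Nat.lt_trichotomy (Lset Q e' f').card (Lset Q e f).card with h' | h' | h'
  · have := Nat.mul_le_mul_left (Fintype.card F - 1) h'.le
    simp only [Nat.mul_add] at h
    omega
  · exact h'
  · have := Nat.mul_le_mul_left (Fintype.card F - 1) h'.le
    simp only [Nat.mul_add] at h
    omega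

end Cfsg.Agent.Lib.MinIndexO
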