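import Cfsg.Agent.Lib.MinIndexO.Plus

/-!
Eight dimensions of plus type with at least four scalars.

If an action is smaller than the number of singular points, then at every point each radical is
either trivial or has the annihilator of a plane. A point fixed by some radical is fixed by
exactly the radicals of a maximal totally singular subspace, and double counting contradicts the
bound. Otherwise a torus fixing a point gives a totally singular subspace which is too large.
-/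

set_option autoImplicit false

namespace Cfsg.Agent.Lib.MinIndexO

open QuadraticMap hiding proj
open Cfsg.Agent.Lib.Classical.Quad Cfsg.Agent.Lib.Classical.QuadOmega
open Cfsg.Agent.Lib.AutOmegaOdd (G G_ext G_mul G_one G_inv G_inv' G_Q G_B sg sg_apply sg_add sg_zero
  sg_self sg_neg sg_smul sg_conj sg_fix sg_fix_self sg_swap Fr InW proj proj_mem decomp B_proj
  sg_e_fix sg_e_f sg_e_inj)
open Cfsg.Agent.Lib.AutOmega (W_pair W_partner W_nondeg W_induction)
open Cfsg.Agent.Lib.MinIndexSU (psi psi_one psi_sub)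

universe u v w

attribute [local instance] _root_.Classical.propDecidable

variable {F : Type u} [Field F] [Fintype F] {V : Type v} [AddCommGroup V] [Module F V] [Fintype V]
  {Q : QuadraticForm F V} {e f : V} {Ω : Type w} [MulAction (G Q) Ω]

variable (Q) in
/-- The radical at a vector fixes a point. -/
def FixR (ω : Ω) (x : V) : Prop := ∀ u, polar Q x u = 0 → sg Q x u • ω = ω

theorem fixR_smul {ω : Ω} {x : V} (hx : Q x = 0) (g : G Q) (h : FixR Q ω x) :
    FixR Q (g • ω) (g.1.1 x) := by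
  intro u hu
  obtain ⟨u', rfl⟩ : ∃ u', g.1.1 u' = u := g.1.1.surjective u
  rw [G_B] at hu
  rw [← sg_conj hx hu g, mul_smul, mul_smul, inv_smul_smul, h u' hu]

theorem fixR_scalar {ω : Ω} {x : V} (hx : Q x = 0) (c : F) (h : FixR Q ω x) :
    FixR Q ω (c • x) := by
  intro u hu
  rcases eq_or_ne c 0 with rfl | hc
  · rw [zero_smul, show sg Q (0 : V) u = 1 from Subtype.ext (sie_zero_left u), one_smul]
  rw [polar_smul_left, smul_eq_mul, mul_eq_zero, or_iff_right hc] at hu
  rw [sg_smul hx hu]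
  exact h _ (by rw [polar_smul_right, hu, smul_zero])

theorem fixR_of_W (HP : Fr Q e f) {ω : Ω} (h : ∀ w, InW Q e f w → sg Q e w • ω = ω) :
    FixR Q ω e := fun u hu => by
  rw [sg_proj HP hu]; exact h _ (proj_mem HP u)

/-- Annihilators move with the frame. -/
theorem AnnW_map (HP : Fr Q e f) (g : G Q) {e' f' : V} (HP' : Fr Q e' f') (he : g.1.1 e = e')
    (hf : g.1.1 f = f') {ω : Ω} {v : WQ Q e f} (hv : v ∈ AnnW HP ω) :
    ∃ h : InW Q e' f' (g.1.1 (v : V)), (⟨_, h⟩ : WQ Q e' f') ∈ AnnW HP' (g • ω) := by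
  subst he hf
  have hW : ∀ {x : V}, InW Q e f x → InW Q (g.1.1 e) (g.1.1 f) (g.1.1 x) := fun hx =>
    ⟨by rw [G_B]; exact hx.xe, by rw [G_B]; exact hx.xf⟩
  refine ⟨hW (mem_WQ.1 v.2), mem_AnnW.2 fun k hk => ?_⟩
  have hk' : InW Q e f ((g⁻¹).1.1 (k : V)) :=
    ⟨(congrArg (polar Q _) (G_inv g e)).symm.trans ((G_B g⁻¹ _ _).trans (mem_WQ.1 k.2).xe),
      (congrArg (polar Q _) (G_inv g f)).symm.trans ((G_B g⁻¹ _ _).trans (mem_WQ.1 k.2).xf)⟩
  have hfix : (⟨_, hk'⟩ : WQ Q e f) ∈ Kst HP ω := by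
    have h1 := mem_Kst.1 hk
    rw [← G_inv' g (k : V), ← sg_conj HP.ee hk'.ex g, mul_smul, mul_smul, inv_smul_smul,
      smul_left_cancel_iff] at h1
    exact h1
  have h := mem_AnnW.1 hv _ hfix
  rw [kapW_apply] at h ⊢
  convert h using 2
  show polar Q (g.1.1 (v : V)) k = polar Q (v : V) ((g⁻¹).1.1 (k : V))
  rw [← G_B g (v : V) ((g⁻¹).1.1 (k : V)), G_inv']

theorem map_Tsp' (HP : Fr Q e f) (g : G Q) {e' f' : V} (HP' : Fr Q e' f') (he : g.1.1 e = e')
    (hf : g.1.1 f = f') (ω : Ω) :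
    (Tsp HP ω).map (g.1.1 : V →ₗ[F] V) ≤ Tsp HP' (g • ω) := by
  rw [Tsp, Submodule.map_span, Submodule.span_le]
  rintro _ ⟨_, ⟨v, hv, rfl⟩, rfl⟩
  obtain ⟨h, hm⟩ := AnnW_map HP g HP' he hf hv
  exact Submodule.subset_span ⟨_, hm, rfl⟩

theorem exists_frame_map (hG : Good Q) {e' f' : V} (HP : Fr Q e f) (HP' : Fr Q e' f') :
    ∃ g : G Q, g.1.1 e = e' ∧ g.1.1 f = f' := by
  obtain ⟨s, hs, hsx⟩ := hG.exists_map_sing HP.e_ne HP'.e_ne HP.ee HP'.ee
  set g0 : G Q := ⟨s, hs⟩
  set f1 := g0.1.1 f with hf1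
  have he : g0.1.1 e = e' := hsx
  have h1 : polar Q f1 e' = 1 := by rw [hf1, ← he, G_B, HP.fe]
  have hQ1 : Q f1 = 0 := by rw [hf1, G_Q, HP.ff]
  set w := proj Q e' f' f1
  have hw : InW Q e' f' w := proj_mem HP' f1
  have hd := decomp (Q := Q) e' f' f1
  rw [h1, one_smul] at hd
  have hα : polar Q f1 f' = -(Q w) := by
    have h2 := hQ1
    rw [hd, QuadraticMap.map_add ⇑Q, pair_nonsing HP'.ee HP'.ff HP'.ef, polar_add_left,
      polar_smul_left, hw.ex, hw.fx] at h2
    simp at h2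
    linear_combination h2
  refine ⟨(sg Q e' w)⁻¹ * g0, ?_, ?_⟩
  · rw [G_mul, he]
    conv_rhs => rw [← G_inv (sg Q e' w) e', sg_fix_self HP'.ee hw.ex]
  · rw [G_mul, ← hf1]
    conv_rhs => rw [← G_inv (sg Q e' w) f', sg_e_f HP' hw]
    congr 1
    rw [hd, hα]
    module

/-- A totally singular subspace of half dimension contains what is orthogonal to it. -/
theorem mem_of_perp (hG : Good Q) {S : Submodule F V} (hts : TSing Q S)
    (hdim : 2 * Module.finrank F S = Module.finrank F V) {z : V}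
    (hz : ∀ x ∈ S, polar Q z x = 0) : z ∈ S := by
  have h1 := finrank_perpS hG.nd S
  have hle : S ≤ perpS Q S := fun x hx => mem_perpS.2 fun y hy => hts.polar_eq hx hy
  rw [Submodule.eq_of_le_of_finrank_le hle (by omega)]
  exact mem_perpS.2 hz

theorem tsing_sup_e (HP : Fr Q e f) {S : Submodule F V} (hS : S ≤ WQ Q e f) (hts : TSing Q S) :
    TSing Q (S ⊔ Submodule.span F {e}) ∧
      Module.finrank F (S ⊔ Submodule.span F {e} : Submodule F V) = Module.finrank F S + 1 := by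
  refine ⟨fun x hx => ?_, ?_⟩
  · obtain ⟨s, hs, r, hr, rfl⟩ := Submodule.mem_sup.1 hx
    obtain ⟨β, rfl⟩ := Submodule.mem_span_singleton.1 hr
    rw [QuadraticMap.map_add ⇑Q, QuadraticMap.map_smul, hts s hs, HP.ee, polar_smul_right,
      (mem_WQ.1 (hS hs)).xe]
    simp
  · have he : e ∉ S := fun h => one_ne_zero (HP.ef.symm.trans (mem_WQ.1 (hS h)).xf)
    have hlt : S < S ⊔ Submodule.span F {e} := lt_of_le_of_ne le_sup_left fun h => he (h ▸
      Submodule.mem_sup_right (Submodule.mem_span_singleton_self e))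
    have h1 := Submodule.finrank_lt_finrank_of_lt hlt
    have h2 := Submodule.finrank_add_le_finrank_add_finrank S (Submodule.span F {e})
    rw [finrank_span_singleton HP.e_ne] at h2
    omega

/-- Radicals at two opposite points generate. -/
theorem fix_all_of_opp (hG : Good Q) (HP : Fr Q e f) {ω : Ω} (he : FixR Q ω e) (hf : FixR Q ω f)
    (x u : V) (hx : x ≠ 0) (hQx : Q x = 0) (hxu : polar Q x u = 0) : sg Q x u • ω = ω := by
  have hWb : ∀ b, InW Q e f b → Q b = 0 → b ≠ 0 → FixR Q ω b := by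
    intro b hb hQb hb0 y hy
    have key : ∀ a, InW Q e f a → polar Q a b = 0 → sg Q b a • ω = ω := by
      intro a ha hab
      obtain ⟨ga, hga⟩ : ∃ g, g = sg Q e (-a) := ⟨_, rfl⟩
      have hfa : sg Q e (-a) • ω = ω := he _ (by rw [polar_neg_right, ha.ex, neg_zero])
      have hfb : sg Q f b • ω = ω := hf b hb.fx
      have hab' : polar Q (-a) b = 0 := by rw [polar_neg_left, hab, neg_zero]
      have hh : (sg Q e (-a) * sg Q f b * (sg Q e (-a))⁻¹ * (sg Q f b)⁻¹) • ω = ω := by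
        rw [mul_smul, mul_smul, mul_smul, inv_smul_eq_iff.2 hfb.symm, inv_smul_eq_iff.2 hfa.symm,
          hfb, hfa]
      have hna := ha.neg
      set a' := -a with ha'
      have hba : polar Q b a' = 0 := by rw [polar_comm, hab']
      have hgab : (sg Q e a').1.1 b = b := sg_fix HP.ee hna.ex hb.xe hba
      have e1 : sg Q e a' * sg Q f b * (sg Q e a')⁻¹ = sg Q (f + a' - Q a' • e) b := by
        rw [sg_conj HP.ff hb.fx, hgab, sg_e_f HP hna]
      set f1 := f + a' - Q a' • e with hf1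
      have hf1Q : Q f1 = 0 := by rw [hf1, ← sg_e_f HP hna, G_Q, HP.ff]
      have hf1b : polar Q f1 b = 0 := by
        rw [hf1, polar_sub_left, polar_add_left, polar_smul_left, hb.fx, hab', hb.ex]; simp
      have e2 : sg Q e a' * sg Q f b * (sg Q e a')⁻¹ * (sg Q f b)⁻¹ =
          sg Q b (-a') * sg Q e (-(Q a') • b) := by
        rw [e1, sg_swap hf1Q hQb hf1b, sg_swap HP.ff hQb hb.fx, ← sg_neg hQb
          (by rw [polar_neg_right, hb.xf, neg_zero]), ← sg_add hQb
          (by rw [polar_neg_right, polar_comm, hf1b, neg_zero])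
          (by rw [neg_neg, hb.xf]),
          show -f1 + - -f = -a' + Q a' • e by rw [hf1]; abel,
          sg_add hQb (by rw [polar_neg_right, hba, neg_zero])
            (by rw [polar_smul_right, hb.xe, smul_zero]),
          sg_swap hQb (s := Q a' • e) (by rw [QuadraticMap.map_smul, HP.ee, smul_zero])
            (by rw [polar_smul_right, hb.xe, smul_zero]),
          sg_smul HP.ee (by rw [polar_neg_right, hb.ex, neg_zero]), smul_neg, ← neg_smul]
      rw [e2, mul_smul, he _ (by rw [polar_smul_right, hb.ex, smul_zero])] at hh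
      rwa [ha', neg_neg] at hh
    have hbe : ∀ c : F, sg Q b (c • e) • ω = ω := fun c => by
      rw [sg_swap hQb (s := c • e) (by rw [QuadraticMap.map_smul, HP.ee, smul_zero])
        (by rw [polar_smul_right, hb.xe, smul_zero]),
        sg_smul HP.ee (by rw [polar_neg_right, hb.ex, neg_zero])]
      exact he _ (by rw [polar_smul_right, polar_neg_right, hb.ex, neg_zero, smul_zero])
    have hbf : ∀ c : F, sg Q b (c • f) • ω = ω := fun c => by
      rw [sg_swap hQb (s := c • f) (by rw [QuadraticMap.map_smul, HP.ff, smul_zero])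
        (by rw [polar_smul_right, hb.xf, smul_zero]),
        sg_smul HP.ff (by rw [polar_neg_right, hb.fx, neg_zero])]
      exact hf _ (by rw [polar_smul_right, polar_neg_right, hb.fx, neg_zero, smul_zero])
    have hw := proj_mem HP y
    rw [decomp (Q := Q) e f y] at hy ⊢
    have hbw : polar Q b (proj Q e f y) = 0 := by
      simpa [polar_add_right, polar_smul_right, hb.xe, hb.xf] using hy
    rw [sg_add hQb (by simp [polar_add_right, polar_smul_right, hb.xe, hb.xf]) hbw, mul_smul,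
      key _ hw (by rw [polar_comm, hbw]), sg_add hQb (by simp [polar_smul_right, hb.xe])
        (by simp [polar_smul_right, hb.xf]), mul_smul, hbf, hbe]
  have hconj : ∀ (g : G Q) (y : V), Q y = 0 → g • ω = ω → FixR Q ω y → FixR Q ω (g.1.1 y) :=
    fun g y hy hg h => by
      have := fixR_smul hy g h
      rwa [hg] at this
  set α := polar Q x f
  set β := polar Q x e
  set w := proj Q e f x
  have hd : x = α • e + β • f + w := decomp (Q := Q) e f x
  have hw : InW Q e f w := proj_mem HP x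
  have hQw : α * β + Q w = 0 := by
    have h2 := hQx
    rw [hd, QuadraticMap.map_add ⇑Q, QuadraticMap.map_add ⇑Q, QuadraticMap.map_smul,
      QuadraticMap.map_smul, HP.ee, HP.ff, polar_add_left] at h2
    simpa [polar_smul_left, polar_smul_right, hw.ex, hw.fx, HP.ef, mul_comm] using h2
  refine (show FixR Q ω x from ?_) u hxu
  rcases eq_or_ne β 0 with hβ | hβ
  · rcases eq_or_ne α 0 with hα | hα
    · rw [hd, hα, hβ, zero_smul, zero_smul, zero_add, zero_add]
      refine hWb w hw (by rw [hα, zero_mul, zero_add] at hQw; exact hQw) fun h0 => hx ?_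
      rw [hd, hα, hβ, h0]; simp
    · have hw' := hw.symm.smul α⁻¹
      have he' := sg_e_f HP.symm hw'
      have hQ' : Q (α⁻¹ • w) = 0 := by
        rw [hβ, mul_zero, zero_add] at hQw
        rw [QuadraticMap.map_smul, hQw, smul_zero]
      rw [hQ', zero_smul, sub_zero] at he'
      have h := fixR_scalar (by rw [G_Q, HP.ee]) α
        (hconj (sg Q f (α⁻¹ • w)) e HP.ee (hf _ hw'.ex) he)
      rw [he', smul_add, smul_inv_smul₀ hα] at h
      rw [hd, hβ, zero_smul, add_zero]
      exact h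
  · have hw' := hw.smul β⁻¹
    have he' := sg_e_f HP hw'
    have h := fixR_scalar (by rw [G_Q, HP.ff]) β
      (hconj (sg Q e (β⁻¹ • w)) f HP.ff (he _ hw'.ex) hf)
    rw [he', QuadraticMap.map_smul, smul_sub, smul_add, smul_inv_smul₀ hβ, smul_smul,
      show β * (β⁻¹ * β⁻¹) • Q w = -α by
        rw [smul_eq_mul, show Q w = -(α * β) by linear_combination hQw]; field_simp,
      neg_smul, sub_neg_eq_add] at h
    rw [hd]
    convert h using 1
    abel

/-- Two classes of translates are disjoint. -/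
theorem two_sums (hG : Good Q) (HP : Fr Q e f) [Fintype Ω] {ω₀ ω : Ω}
    (hne : AnnW HP ω ∉ TsetW HP ω₀) :
    (∑ B ∈ TsetW HP ω₀, B.card) + ∑ B ∈ TsetW HP ω, B.card ≤ Fintype.card Ω := by
  have hfib : ∀ z : Ω, ∑ B ∈ TsetW HP z, B.card ≤
      (Finset.univ.filter fun y : Ω => AnnW HP y ∈ TsetW HP z).card := fun z => by
    rw [Finset.card_eq_sum_card_fiberwise
      (s := Finset.univ.filter fun y : Ω => AnnW HP y ∈ TsetW HP z) (f := fun y => AnnW HP y)
      (t := TsetW HP z) fun y hy => (Finset.mem_filter.1 hy).2]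
    refine Finset.sum_le_sum fun B hB => ?_
    obtain ⟨g, c, hg, rfl⟩ := mem_TsetW.1 hB
    rw [← card_orbW hG HP (g • z)]
    refine Finset.card_le_card fun y hy => ?_
    have hA := AnnW_orb HP hy
    exact Finset.mem_filter.2 ⟨Finset.mem_filter.2 ⟨Finset.mem_univ _, by rw [hA]; exact hB⟩, hA⟩
  refine (Nat.add_le_add (hfib ω₀) (hfib ω)).trans ?_
  rw [← Finset.card_union_of_disjoint]
  · exact Finset.card_le_univ _
  rw [Finset.disjoint_left]
  intro y hy hy'
  obtain ⟨g, c, hg, hgy⟩ := mem_TsetW.1 (Finset.mem_filter.1 hy).2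
  obtain ⟨g', c', hg', hgy'⟩ := mem_TsetW.1 (Finset.mem_filter.1 hy').2
  refine hne (mem_TsetW.2 ⟨g'⁻¹ * g, c'⁻¹ * c, hg'.inv.mul hg, ?_⟩)
  rw [mul_smul, AnnW_smul HP hg'.inv, hgy, ← hgy', ← AnnW_smul HP hg'.inv, inv_smul_smul]

/-- A plane annihilator below the bound. -/
theorem mts_exact (hG : Good Q) (HP : Fr Q e f) (hd : Module.finrank F V = 8) {q t : ℕ}
    (hq : Fintype.card F = q) (ht : t = (q + 1) * (q ^ 2 + 1))
    (hL : (Lset Q e f).card = (q ^ 3 - 1) * (q ^ 2 + 1)) [Fintype Ω]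
    (hM : Fintype.card Ω < t * (q ^ 3 + 1)) {ω : Ω} (hts : TSing Q (Tsp HP ω))
    (h3 : 3 ≤ Module.finrank F (Tsp HP ω)) :
    Module.finrank F (Tsp HP ω) = 3 ∧ (AnnW HP ω).card = q ^ 3 ∧
      t * q ^ 3 ≤ ∑ B ∈ TsetW HP ω, B.card ∧
      ∀ w : WQ Q e f, sg Q e (w : V) • ω = ω ↔ (w : V) ∈ Tsp HP ω := by
  have hdim : Module.finrank F (Tsp HP ω) = 3 := by
    have := half_of hG HP (Tsp_le HP ω) hts
    omega
  have hq2 : 2 ≤ q := hq ▸ Fintype.one_lt_card
  set A : AddSubgroup (AnnS HP ω) :=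
    { carrier := {x | (x : WQ Q e f) ∈ AnnW HP ω}
      add_mem' := fun hx hy => add_mem_AnnW hx hy
      zero_mem' := zero_mem_AnnW HP ω
      neg_mem' := fun hx => neg_mem_AnnW hx }
  have hcS : Nat.card (AnnS HP ω) = q ^ 3 := by
    rw [Nat.card_eq_fintype_card, Module.card_eq_pow_finrank (K := F), finrank_AnnS, hdim, hq]
  have hcA : Nat.card A = (AnnW HP ω).card := by
    rw [← Nat.card_eq_finsetCard]
    exact Nat.card_congr ⟨fun x => ⟨x.1.1, x.2⟩, fun x => ⟨⟨x.1, AnnW_le HP ω x.1 x.2⟩, x.2⟩,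
      fun x => rfl, fun x => rfl⟩
  have hdvd : (AnnW HP ω).card ∣ q ^ 3 := by rw [← hcA, ← hcS]; exact A.card_addSubgroup_dvd_card
  obtain ⟨u, hu, hu0⟩ : ∃ u ∈ AnnW HP ω, u ≠ 0 := by
    by_contra! h
    have hbot : Tsp HP ω = ⊥ := by
      rw [Tsp, Submodule.span_eq_bot]
      rintro _ ⟨v, hv, rfl⟩
      show (v : V) = 0
      rw [h v hv, Submodule.coe_zero]
    rw [hbot, finrank_bot] at hdim
    omega
  obtain ⟨T, hT, hmem, h1, -⟩ := mts_translates hG HP hu hu0 hts h3
  have hc := mts_cover hG HP (by omega) hu hu0 hts hT hmem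
  have hsum : ∑ B ∈ TsetW HP ω, B.card = (TsetW HP ω).card * (AnnW HP ω).card := by
    rw [Finset.sum_congr rfl fun B hB => (translates_card HP hB).1, Finset.sum_const, smul_eq_mul]
  have hle := (sum_le_card hG HP ω)
  rw [hsum] at hc hle ⊢
  rw [hq] at h1
  have h2 := Nat.mul_le_mul_right (Lset Q e f).card h1
  have he : (q + 1) * (Lset Q e f).card = t * (q ^ 3 - 1) := by rw [hL, ht]; ring
  obtain ⟨a, ha⟩ : ∃ a, a = (AnnW HP ω).card := ⟨_, rfl⟩
  obtain ⟨n, hn⟩ : ∃ n, n = (TsetW HP ω).card := ⟨_, rfl⟩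
  rw [← ha, ← hn] at hc hle
  rw [← ha] at hdvd
  rw [← ha, ← hn]
  have hlow : t * (q ^ 3 - 1) + n ≤ n * a := by omega
  obtain ⟨P, hP⟩ : ∃ P, q ^ 3 = P + 1 :=
    ⟨q ^ 3 - 1, (Nat.sub_add_cancel (Nat.one_le_pow _ _ (by omega))).symm⟩
  rw [hP, Nat.add_sub_cancel] at hlow
  rw [hP] at hdvd hM ⊢
  have ht0 : 0 < t := by rw [ht]; positivity
  have hP7 : 7 ≤ P := by
    have : 2 ^ 3 ≤ q ^ 3 := Nat.pow_le_pow_left hq2 3
    omega
  have haP : a = P + 1 := by
    obtain ⟨m, hm⟩ := hdvd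
    rcases m with _ | _ | m
    · omega
    · omega
    exfalso
    have ha1 : 2 * a ≤ P + 1 := by rw [hm]; nlinarith
    rcases Nat.eq_zero_or_pos a with h0 | h0
    · rw [h0] at hlow; nlinarith
    obtain ⟨i, rfl⟩ : ∃ i, a = i + 1 := ⟨a - 1, by omega⟩
    have h4 : t * P ≤ n * i := by nlinarith
    have h5 : 2 * t ≤ n := by
      by_contra h
      push Not at h
      nlinarith [Nat.mul_le_mul_right i h.le]
    nlinarith
  refine ⟨hdim, haP, ?_, fun w => ?_⟩
  · rw [haP]
    refine Nat.mul_le_mul_right _ ?_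
    rw [haP] at hlow
    by_contra h
    push Not at h
    nlinarith
  have hall : ∀ z ∈ Tsp HP ω, ∃ y ∈ AnnW HP ω, ((y : WQ Q e f) : V) = z := by
    intro z hz
    have htop : A = ⊤ := AddSubgroup.eq_top_of_card_eq _ (by rw [hcA, hcS, ← ha, haP, hP])
    refine ⟨⟨z, Tsp_le HP ω hz⟩, ?_, rfl⟩
    exact (htop ▸ AddSubgroup.mem_top (⟨⟨z, Tsp_le HP ω hz⟩, hz⟩ : AnnS HP ω) : _ ∈ A)
  obtain ⟨hts', hdim'⟩ := tsing_sup_e HP (Tsp_le HP ω) hts
  constructor
  · intro hw
    have hperp : ∀ z ∈ Tsp HP ω, polar Q z (w : V) = 0 := by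
      intro z hz
      by_contra hne
      obtain ⟨y, hy, hyz⟩ := hall _ (Submodule.smul_mem _ (polar Q z (w : V))⁻¹ hz)
      have h := mem_AnnW.1 hy w (mem_Kst.2 hw)
      rw [kapW_apply, hyz, polar_smul_left, smul_eq_mul, inv_mul_cancel₀ hne] at h
      exact psi_one h
    have hmem : (w : V) ∈ Tsp HP ω ⊔ Submodule.span F {e} := by
      refine mem_of_perp hG hts' (by omega) fun x hx => ?_
      obtain ⟨s, hs, r, hr, rfl⟩ := Submodule.mem_sup.1 hx
      obtain ⟨β, rfl⟩ := Submodule.mem_span_singleton.1 hr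
      rw [polar_add_right, polar_smul_right, polar_comm, hperp s hs, (mem_WQ.1 w.2).xe, smul_zero,
        add_zero]
    obtain ⟨s, hs, r, hr, hsr⟩ := Submodule.mem_sup.1 hmem
    obtain ⟨β, rfl⟩ := Submodule.mem_span_singleton.1 hr
    have h := congrArg (fun x => polar Q x f) hsr
    simp only [polar_add_left, polar_smul_left, (mem_WQ.1 (Tsp_le HP ω hs)).xf, HP.ef,
      (mem_WQ.1 w.2).xf, zero_add, smul_eq_mul, mul_one] at h
    rwa [← hsr, h, zero_smul, add_zero]
  · intro hw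
    exact fix_of_perp hG HP (mem_WQ.1 w.2) fun s hs => hts.polar_eq hw hs

/-- Each radical is trivial at a point or has the annihilator of a plane. -/
theorem eight_dich (hG : Good Q) (hd : Module.finrank F V = 8) {q t : ℕ}
    (hq : Fintype.card F = q) (h4 : 4 ≤ q) (ht : t = (q + 1) * (q ^ 2 + 1))
    (hL : ∀ e f : V, Fr Q e f → (Lset Q e f).card = (q ^ 3 - 1) * (q ^ 2 + 1)) [Fintype Ω]
    (hM : Fintype.card Ω < t * (q ^ 3 + 1))
    (hex : ∃ (e f : V) (HP : Fr Q e f) (ω : Ω),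
      TSing Q (Tsp HP ω) ∧ 3 ≤ Module.finrank F (Tsp HP ω))
    (HP : Fr Q e f) :
    ∃ ω₀ : Ω, t * q ^ 3 ≤ ∑ B ∈ TsetW HP ω₀, B.card ∧ ∀ ω : Ω,
      (AnnW HP ω ∈ TsetW HP ω₀ ∧ TSing Q (Tsp HP ω) ∧ Module.finrank F (Tsp HP ω) = 3 ∧
        (AnnW HP ω).card = q ^ 3) ∨
      (AnnW HP ω ∉ TsetW HP ω₀ ∧ FixR Q ω e) := by
  obtain ⟨e₁, f₁, H₁, ω₁, hts₁, h3₁⟩ := hex
  obtain ⟨g, hge, hgf⟩ := exists_frame_map hG H₁ HP
  have hgi : (g⁻¹).1.1 e = e₁ ∧ (g⁻¹).1.1 f = f₁ :=
    ⟨by rw [← hge, G_inv], by rw [← hgf, G_inv]⟩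
  have hm := map_Tsp' H₁ g HP hge hgf ω₁
  have hm' := map_Tsp' HP g⁻¹ H₁ hgi.1 hgi.2 (g • ω₁)
  rw [inv_smul_smul] at hm'
  have hts₀ : TSing Q (Tsp HP (g • ω₁)) := fun x hx => by
    rw [← G_Q g⁻¹ x]
    exact hts₁ _ (hm' ⟨x, hx, rfl⟩)
  have h3₀ : 3 ≤ Module.finrank F (Tsp HP (g • ω₁)) := by
    have h := Submodule.finrank_mono hm
    rw [LinearEquiv.finrank_map_eq] at h
    omega
  obtain ⟨hdim, hA, hsum, -⟩ := mts_exact hG HP hd hq ht (hL e f HP) hM hts₀ h3₀
  refine ⟨g • ω₁, hsum, fun ω => ?_⟩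
  by_cases hin : AnnW HP ω ∈ TsetW HP (g • ω₁)
  · left
    obtain ⟨h, c, hh, hhA⟩ := mem_TsetW.1 hin
    have hTS : Tsp HP ω ≤ (Tsp HP (g • ω₁)).map (h.1.1 : V →ₗ[F] V) := by
      refine Submodule.span_le.2 ?_
      rintro _ ⟨v, hv, rfl⟩
      rw [Finset.mem_coe, ← hhA, AnnW_smul HP hh] at hv
      obtain ⟨v0, hv0, rfl⟩ := Finset.mem_image.1 hv
      exact ⟨c⁻¹ • (v0 : V), Submodule.smul_mem _ _ (Submodule.subset_span ⟨v0, hv0, rfl⟩),
        by rw [_root_.map_smul]; rfl⟩
    have hts : TSing Q (Tsp HP ω) := fun x hx => by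
      obtain ⟨y, hy, rfl⟩ := hTS hx
      exact (G_Q h y).trans (hts₀ y hy)
    have hcard : (AnnW HP ω).card = q ^ 3 := by
      rw [(translates_card HP hin).1, hA]
    refine ⟨hin, hts, le_antisymm ?_ ?_, hcard⟩
    · have := half_of hG HP (Tsp_le HP ω) hts
      omega
    · have h1 := card_AnnW_le HP ω
      rw [hcard, hq] at h1
      exact (Nat.pow_le_pow_iff_right (by omega)).1 h1
  · right
    refine ⟨hin, fixR_of_W HP fun w hw => ?_⟩
    by_cases hA0 : ∀ v ∈ AnnW HP ω, v = (0 : WQ Q e f)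
    · exact mem_Kst.1 (mem_Kst_of_perp hG HP (w := ⟨w, hw⟩) fun v hv => by
        rw [hA0 v hv, kapW_apply]; simp)
    push Not at hA0
    exfalso
    obtain ⟨u, hu, hu0⟩ := hA0
    have h2 := two_sums hG HP hin
    have horb : (orbV u).card ≤ ∑ B ∈ TsetW HP ω, B.card := by
      have h := cover HP (orbV_trans hG HP (by omega) hu0) (T := {AnnW HP ω})
        (fun B hB => mem_TsetW.2 ⟨1, 1, IsLv.one, by rw [one_smul, Finset.mem_singleton.1 hB]⟩)
        (fun B hB => by rw [Finset.mem_singleton.1 hB]; exact hu)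
      simpa using h
    obtain ⟨Z, -, hX, -, -, -, hlow, -⟩ := numbers hG HP (by omega)
    rw [hq] at hX hlow
    have hZ : Z = q ^ 2 := by
      have := finrank_WQ hG HP
      rw [Module.card_eq_pow_finrank (K := F), hq,
        show Module.finrank F (WQ Q e f) = 4 + 2 by omega, pow_add] at hX
      exact (Nat.eq_of_mul_eq_mul_left (pow_pos (by omega) 4) hX).symm
    have hlo : q * (q ^ 2 - 1) * Z ≤ (orbV u).card + 1 := by
      by_cases h : Q (u : V) = 0
      · rw [orbV_sing h, ← card_lev_zero]; exact hlow 0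
      · exact ((hlow _).trans (orbV_ns h)).trans (Nat.le_succ _)
    rw [hZ] at hlo
    obtain ⟨j, rfl⟩ : ∃ j, q = j + 4 := ⟨q - 4, by omega⟩
    obtain ⟨r, hr⟩ : ∃ r, (j + 4) ^ 2 = r + 16 := ⟨(j + 4) ^ 2 - 16,
      (Nat.sub_add_cancel (by nlinarith)).symm⟩
    rw [hr, show r + 16 - 1 = r + 15 by omega] at hlo
    rw [hr] at ht
    have h5 : t + 1 < (j + 4) * (r + 15) * (r + 16) := by rw [ht]; nlinarith
    nlinarith

/-- The degree of an action with a plane annihilator. -/
theorem min_degree_eight (hG : Good Q) (hd : Module.finrank F V = 8) {q t : ℕ}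
    (hq : Fintype.card F = q) (h4 : 4 ≤ q) (ht : t = (q + 1) * (q ^ 2 + 1))
    (hL : ∀ e f : V, Fr Q e f → (Lset Q e f).card = (q ^ 3 - 1) * (q ^ 2 + 1))
    [Fintype Ω] [MulAction.IsPretransitive (G Q) Ω] [Nontrivial Ω]
    (hex : ∃ (e f : V) (HP : Fr Q e f) (ω : Ω),
      TSing Q (Tsp HP ω) ∧ 3 ≤ Module.finrank F (Tsp HP ω)) :
    t * (q ^ 3 + 1) ≤ Fintype.card Ω := by
  by_contra hM
  push Not at hM
  have hdich := fun {e f : V} (HP : Fr Q e f) => eight_dich hG hd hq h4 ht hL hM hex HP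
  have hqt : (q - 1) * t = q ^ 4 - 1 := by
    obtain ⟨j, rfl⟩ : ∃ j, q = j + 1 := ⟨q - 1, by omega⟩
    rw [ht, Nat.add_sub_cancel]
    have : (j + 1) ^ 4 = j * ((j + 1 + 1) * ((j + 1) ^ 2 + 1)) + 1 := by ring
    omega
  by_cases hfix : ∃ (ω : Ω) (x : V), x ≠ 0 ∧ Q x = 0 ∧ FixR Q ω x
  · -- fixed sets are maximal totally singular subspaces
    obtain ⟨ω₀, x₀, hx₀, hQx₀, hf₀⟩ := hfix
    have hnofull : ∀ (ω : Ω) {e f : V}, Fr Q e f → FixR Q ω e → ¬FixR Q ω f := by
      intro ω e f HP he hf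
      obtain ⟨a, b, hab⟩ := exists_pair_ne Ω
      have h : ∀ z : Ω, z = ω := fun z => by
        obtain ⟨g, rfl⟩ := MulAction.exists_smul_eq (G Q) ω z
        exact fixed_all (fix_all_of_opp hG HP he hf) g
      exact hab ((h a).trans (h b).symm)
    set Φ : Ω → Finset V := fun ω => singP Q fun x => FixR Q ω x with hΦ
    have horth : ∀ {ω : Ω} {x y : V}, x ∈ Φ ω → y ∈ Φ ω → polar Q x y = 0 := by
      intro ω x y hx hy
      obtain ⟨-, hQx, hfx⟩ := mem_singP.1 hx
      obtain ⟨-, hQy, hfy⟩ := mem_singP.1 hy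
      by_contra hne
      exact hnofull ω (f := (polar Q x y)⁻¹ • y)
        ⟨hQx, by rw [QuadraticMap.map_smul, hQy, smul_zero],
          by rw [polar_smul_right, smul_eq_mul, inv_mul_cancel₀ hne]⟩ hfx (fixR_scalar hQy _ hfy)
    -- the plane at an opposite point
    have hplane : ∀ (ω : Ω) {x y : V} (H : Fr Q x y), x ∈ Φ ω →
        TSing Q (Tsp H.symm ω) ∧ Module.finrank F (Tsp H.symm ω) = 3 ∧
          ∀ z ∈ Tsp H.symm ω, x + z ∈ Φ ω := by
      intro ω x y H hx
      obtain ⟨hx0, hQx, hfx⟩ := mem_singP.1 hx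
      obtain ⟨ω', -, hc⟩ := hdich H.symm
      rcases hc ω with ⟨-, hts, hdim, -⟩ | ⟨-, hfy⟩
      swap
      · exact absurd hfy (hnofull ω H hfx)
      refine ⟨hts, hdim, fun z hz => ?_⟩
      have hzW := mem_WQ.1 (Tsp_le H.symm ω hz)
      have hgz : sg Q y z • ω = ω :=
        fix_of_perp hG H.symm hzW fun s hs => hts.polar_eq hz hs
      have h := fixR_smul hQx (sg Q y z) hfx
      rw [hgz, sg_e_f H.symm hzW, hts z hz, zero_smul, sub_zero] at h
      exact mem_singP.2 ⟨fun h0 => one_ne_zero (show (1 : F) = 0 by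
        have := congrArg (fun v => polar Q v y) h0
        simpa [polar_add_left, H.ef, hzW.xe] using this),
        by rw [QuadraticMap.map_add ⇑Q, hQx, hts z hz, polar_comm, hzW.xf]; simp, h⟩
    have hcardΦ : ∀ ω : Ω, (Φ ω).card = q ^ 4 - 1 := by
      intro ω
      obtain ⟨g, hg⟩ := MulAction.exists_smul_eq (G Q) ω₀ ω
      set x := g.1.1 x₀
      have hx : x ∈ Φ ω := mem_singP.2 ⟨fun h => hx₀ (g.1.1.map_eq_zero_iff.1 h),
        by rw [G_Q, hQx₀], hg ▸ fixR_smul hQx₀ g hf₀⟩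
      obtain ⟨hx0, hQx, hfx⟩ := mem_singP.1 hx
      obtain ⟨y, hy, hxy⟩ := hG.exists_partner hx0 hQx
      have H : Fr Q x y := ⟨hQx, hy, hxy⟩
      obtain ⟨hts, hdim, hadd⟩ := hplane ω H hx
      have hSW : Tsp H.symm ω ≤ WQ Q x y := fun z hz => (mem_WQ.1 (Tsp_le H.symm ω hz)).symm
      obtain ⟨htsS, hdimS⟩ := tsing_sup_e H hSW hts
      set S := Tsp H.symm ω ⊔ Submodule.span F {x}
      have hxS : x ∈ S := Submodule.mem_sup_right (Submodule.mem_span_singleton_self x)
      have hsubS : ∀ z ∈ Φ ω, z ∈ S := by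
        intro z hz
        refine mem_of_perp hG htsS (by omega) fun s hs => ?_
        obtain ⟨a, ha, r, hr, rfl⟩ := Submodule.mem_sup.1 hs
        obtain ⟨β, rfl⟩ := Submodule.mem_span_singleton.1 hr
        have h1 := horth hz hx
        have h2 := horth hz (hadd a ha)
        rw [polar_add_right, h1, zero_add] at h2
        rw [polar_add_right, polar_smul_right, h1, h2, smul_zero, add_zero]
      have heq : Φ ω = (allS S).erase 0 := by
        refine Finset.Subset.antisymm (fun z hz => Finset.mem_erase.2 ⟨(mem_singP.1 hz).1,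
          Finset.mem_filter.2 ⟨Finset.mem_univ _, hsubS z hz⟩⟩) fun z hz => ?_
        obtain ⟨hz0, hz'⟩ := Finset.mem_erase.1 hz
        have hzS := (Finset.mem_filter.1 hz').2
        obtain ⟨a, ha, r, hr, rfl⟩ := Submodule.mem_sup.1 hzS
        obtain ⟨α, rfl⟩ := Submodule.mem_span_singleton.1 hr
        rcases eq_or_ne a 0 with rfl | ha0
        · rw [zero_add] at hz0 hzS ⊢
          exact mem_singP.2 ⟨hz0, htsS _ hzS, fixR_scalar hQx _ hfx⟩
        obtain ⟨w, hw, haw⟩ := W_nondeg hG H (mem_WQ.1 (hSW ha)) ha0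
        set w' := (1 - α) • w
        have hw' : InW Q x y w' := hw.smul _
        set f2 := y + w' - Q w' • x with hf2
        have H2 : Fr Q x f2 := ⟨hQx, by rw [hf2, ← sg_e_f H hw', G_Q, H.ff], by
          rw [hf2, polar_sub_right, polar_add_right, hw'.ex, polar_smul_right, H.ef,
            polar_self_sing hQx]; simp⟩
        obtain ⟨hts2, hdim2, hadd2⟩ := hplane ω H2 hx
        have hT2S : Tsp H2.symm ω ≤ S := fun v hv => by
          have := sub_mem (hsubS _ (hadd2 v hv)) hxS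
          rwa [add_sub_cancel_left] at this
        have hle : S ⊓ WQ Q x f2 ≤ Tsp H2.symm ω := by
          refine le_of_eq (Submodule.eq_of_le_of_finrank_le
            (le_inf hT2S fun v hv => (mem_WQ.1 (Tsp_le H2.symm ω hv)).symm) ?_).symm
          have hlt : S ⊓ WQ Q x f2 < S := lt_of_le_of_ne inf_le_left fun h => one_ne_zero
            (show (1 : F) = 0 by
              rw [← H2.ef]; exact (mem_WQ.1 (inf_eq_left.1 h hxS)).xf)
          have := Submodule.finrank_lt_finrank_of_lt hlt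
          omega
        have hmem : a + α • x - x ∈ S ⊓ WQ Q x f2 := by
          refine ⟨sub_mem hzS hxS, mem_WQ.2 ⟨htsS.polar_eq (sub_mem hzS hxS) hxS, ?_⟩⟩
          have haW := mem_WQ.1 (hSW ha)
          rw [polar_sub_left, polar_add_left, polar_smul_left, H2.ef, hf2, polar_sub_right,
            polar_add_right, polar_smul_right, polar_smul_right, haW.xe, haW.xf, haw]
          simp
        have := hadd2 _ (hle hmem)
        rwa [add_sub_cancel] at this
      rw [heq, Finset.card_erase_of_mem (by simp [allS]), allS, ← Fintype.card_subtype,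
        Module.card_eq_pow_finrank (K := F), hq]
      congr 2
      omega
    obtain ⟨y₀, hy₀, hxy₀⟩ := hG.exists_partner hx₀ hQx₀
    set J : V → Finset Ω := fun x => Finset.univ.filter fun z : Ω => FixR Q z x
    have hJ : ∀ x ∈ singP Q (fun _ => True), (J x).card = (J x₀).card := by
      intro x hx
      obtain ⟨hx0, hQx, -⟩ := mem_singP.1 hx
      obtain ⟨s, hs, hsx⟩ := hG.exists_map_sing hx₀ hx0 hQx₀ hQx
      set g : G Q := ⟨s, hs⟩
      symm
      refine Finset.card_bij' (fun z _ => g • z) (fun z _ => g⁻¹ • z) (fun z hz => ?_)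
        (fun z hz => ?_) (fun z _ => inv_smul_smul g z) (fun z _ => smul_inv_smul g z)
      · refine Finset.mem_filter.2 ⟨Finset.mem_univ _, ?_⟩
        have := fixR_smul hQx₀ g (Finset.mem_filter.1 hz).2
        rwa [show g.1.1 x₀ = x from hsx] at this
      · refine Finset.mem_filter.2 ⟨Finset.mem_univ _, ?_⟩
        have := fixR_smul hQx g⁻¹ (Finset.mem_filter.1 hz).2
        rwa [show (g⁻¹).1.1 x = x₀ by rw [← show g.1.1 x₀ = x from hsx, G_inv]] at this
    have hcount : Fintype.card Ω * (q ^ 4 - 1) =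
        (singP Q fun _ => True).card * (J x₀).card := by
      have h1 : ∀ z : Ω, ((singP Q fun _ => True).filter fun x => FixR Q z x).card = q ^ 4 - 1 :=
        fun z => by
          rw [← hcardΦ z]
          congr 1
          ext x; simp [hΦ, singP, and_assoc]
      calc Fintype.card Ω * (q ^ 4 - 1) =
            ∑ z : Ω, ((singP Q fun _ => True).filter fun x => FixR Q z x).card := by
            simp only [h1, Finset.sum_const, Finset.card_univ, smul_eq_mul]
        _ = ∑ x ∈ singP Q (fun _ => True), (J x).card := by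
            simp only [J, Finset.card_filter]; exact Finset.sum_comm
        _ = _ := by rw [Finset.sum_congr rfl hJ, Finset.sum_const, smul_eq_mul]
    -- fixed points miss the planes
    have H₀ : Fr Q x₀ y₀ := ⟨hQx₀, hy₀, hxy₀⟩
    obtain ⟨ω', hsum', hc⟩ := hdich H₀
    have hJle : (J x₀).card + t * q ^ 3 ≤ Fintype.card Ω := by
      refine (Nat.add_le_add_left hsum' _).trans ?_
      rw [← Finset.card_univ]
      have hR : ∑ B ∈ TsetW H₀ ω', B.card ≤
          (Finset.univ.filter fun y : Ω => AnnW H₀ y ∈ TsetW H₀ ω').card := by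
        rw [Finset.card_eq_sum_card_fiberwise
          (s := Finset.univ.filter fun y : Ω => AnnW H₀ y ∈ TsetW H₀ ω')
          (f := fun y => AnnW H₀ y) (t := TsetW H₀ ω') fun y hy => (Finset.mem_filter.1 hy).2]
        refine Finset.sum_le_sum fun B hB => ?_
        obtain ⟨g, c, hg, rfl⟩ := mem_TsetW.1 hB
        rw [← card_orbW hG H₀ (g • ω')]
        refine Finset.card_le_card fun y hy => ?_
        have hA := AnnW_orb H₀ hy
        exact Finset.mem_filter.2 ⟨Finset.mem_filter.2 ⟨Finset.mem_univ _, by rw [hA]; exact hB⟩,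
          hA⟩
      refine (Nat.add_le_add_left hR _).trans ?_
      rw [← Finset.card_union_of_disjoint]
      · exact Finset.card_le_univ _
      rw [Finset.disjoint_left]
      intro z hz hz'
      rcases hc z with ⟨-, hts, hdim, hcard⟩ | ⟨hnin, -⟩
      · have hfz := (Finset.mem_filter.1 hz).2
        obtain ⟨v, hv, hv0⟩ : ∃ v ∈ AnnW H₀ z, v ≠ 0 := Finset.exists_mem_ne
          (by rw [hcard]; exact Nat.one_lt_pow (by norm_num) (by omega)) 0
        obtain ⟨w, hw, hvw⟩ := W_nondeg hG H₀ (mem_WQ.1 v.2) fun h => hv0 (Subtype.ext h)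
        have h := mem_AnnW.1 hv ⟨w, hw⟩ (mem_Kst.2 (hfz w hw.ex))
        rw [kapW_apply] at h
        exact psi_one (hvw ▸ h)
      · exact hnin (Finset.mem_filter.1 hz').2
    rw [card_sing H₀, hL x₀ y₀ H₀, Module.card_eq_pow_finrank (K := F) (V := WQ Q x₀ y₀),
      show Module.finrank F (WQ Q x₀ y₀) = 6 by have := finrank_WQ hG H₀; omega, hq] at hcount
    obtain ⟨j, hj⟩ : ∃ j, q = j + 1 := ⟨q - 1, by omega⟩
    have hN : (q ^ 3 - 1) * (q ^ 2 + 1) + (q - 1) * ((q ^ 3 - 1) * (q ^ 2 + 1) + 1 + q ^ 6) =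
        (q ^ 4 - 1) * (q ^ 3 + 1) := by
      rw [hj, Nat.add_sub_cancel]
      rw [show (j + 1) ^ 3 - 1 = j ^ 3 + 3 * j ^ 2 + 3 * j by
        rw [show (j + 1) ^ 3 = j ^ 3 + 3 * j ^ 2 + 3 * j + 1 by ring, Nat.add_sub_cancel],
        show (j + 1) ^ 4 - 1 = j ^ 4 + 4 * j ^ 3 + 6 * j ^ 2 + 4 * j by
        rw [show (j + 1) ^ 4 = j ^ 4 + 4 * j ^ 3 + 6 * j ^ 2 + 4 * j + 1 by ring,
          Nat.add_sub_cancel]]
      ring
    rw [hN, mul_comm (Fintype.card Ω), mul_assoc] at hcount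
    have hM' : Fintype.card Ω = (q ^ 3 + 1) * (J x₀).card :=
      Nat.eq_of_mul_eq_mul_left (Nat.sub_pos_of_lt (Nat.one_lt_pow (by norm_num) (by omega))) hcount
    rw [hM'] at hJle hM
    have hq3 : 0 < q ^ 3 := pow_pos (by omega) 3
    nlinarith
  push Not at hfix
  have hmts : ∀ (ω : Ω) {e f : V} (HP : Fr Q e f), TSing Q (Tsp HP ω) ∧
      Module.finrank F (Tsp HP ω) = 3 ∧
      ∀ w, InW Q e f w → sg Q e w • ω = ω → w ∈ Tsp HP ω := by
    intro ω e f HP
    obtain ⟨ω', -, hc⟩ := hdich HP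
    rcases hc ω with ⟨-, hts, hdim, -⟩ | ⟨-, hfx⟩
    · exact ⟨hts, hdim, fun w hw h =>
        ((mts_exact hG HP hd hq ht (hL e f HP) hM hts hdim.ge).2.2.2 ⟨w, hw⟩).1 h⟩
    · exact absurd hfx (hfix ω e HP.e_ne HP.ee)
  obtain ⟨e, f, -, -, he, hf, -, -, hef, -⟩ := hG.two
  have HP : Fr Q e f := ⟨he, hf, hef⟩
  -- a torus fixing a point
  obtain ⟨ω₀, hsum, hc⟩ := hdich HP
  obtain ⟨h, l, hl1, hh, hhW⟩ := exists_tor hG HP (hq ▸ h4)
  obtain ⟨hts, hdim, -⟩ := hmts ω₀ HP
  obtain ⟨-, hA, -, -⟩ := mts_exact hG HP hd hq ht (hL e f HP) hM hts hdim.ge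
  have hl0 : l ≠ 0 := hh.1
  have hsame : AnnW HP (h • ω₀) = AnnW HP ω₀ := by
    rw [AnnW_smul HP hh]
    refine Finset.eq_of_subset_of_card_le (Finset.image_subset_iff.2 fun v hv => ?_)
      (by rw [Finset.card_image_of_injective _ (psiW_injective hh)])
    have htop : ∀ x ∈ AnnS HP ω₀, x ∈ AnnW HP ω₀ := fun x hx => by
      have hsub : AnnW HP ω₀ = Finset.univ.filter fun x => x ∈ AnnS HP ω₀ :=
        Finset.eq_of_subset_of_card_le
          (fun x hx => Finset.mem_filter.2 ⟨Finset.mem_univ _, AnnW_le HP ω₀ x hx⟩)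
          (by rw [← Fintype.card_subtype, Module.card_eq_pow_finrank (K := F), finrank_AnnS, hdim,
            hA, hq])
      rw [hsub]; exact Finset.mem_filter.2 ⟨Finset.mem_univ _, hx⟩
    refine htop _ ?_
    show (psiW hh v : V) ∈ Tsp HP ω₀
    rw [psiW_val, hhW _ (mem_WQ.1 v.2)]
    exact Submodule.smul_mem _ _ (Submodule.subset_span ⟨v, hv, rfl⟩)
  obtain ⟨s, hs⟩ : ∃ s : WQ Q e f, sg Q e (s : V) • ω₀ = h • ω₀ := by
    by_contra hno
    -- two orbits over each translate
    have hfib : ∀ B ∈ TsetW HP ω₀,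
        2 * q ^ 3 ≤ (Finset.univ.filter fun y : Ω => AnnW HP y = B).card := by
      intro B hB
      obtain ⟨g, c, hg, rfl⟩ := mem_TsetW.1 hB
      have hbase : 2 * q ^ 3 ≤
          (Finset.univ.filter fun y : Ω => AnnW HP y = AnnW HP ω₀).card := by
        have hdisj : Disjoint (orbW HP ω₀) (orbW HP (h • ω₀)) := by
          rw [Finset.disjoint_left]
          intro z hz hz'
          obtain ⟨a, ha⟩ := mem_orbW.1 hz
          obtain ⟨b, hb⟩ := mem_orbW.1 hz'
          refine hno ⟨-b + a, ?_⟩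
          rw [Submodule.coe_add, sg_add HP.ee (mem_WQ.1 (-b).2).ex (mem_WQ.1 a.2).ex, mul_smul, ha,
            Submodule.coe_neg, sg_neg HP.ee (mem_WQ.1 b.2).ex, inv_smul_eq_iff, hb]
        have h2 : (orbW HP ω₀ ∪ orbW HP (h • ω₀)).card ≤ _ := Finset.card_le_card
          (t := Finset.univ.filter fun y : Ω => AnnW HP y = AnnW HP ω₀) fun y hy => by
            refine Finset.mem_filter.2 ⟨Finset.mem_univ _, ?_⟩
            rcases Finset.mem_union.1 hy with hy | hy
            · exact AnnW_orb HP hy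
            · rw [AnnW_orb HP hy, hsame]
        rw [Finset.card_union_of_disjoint hdisj, card_orbW hG, card_orbW hG, hsame, hA] at h2
        omega
      refine hbase.trans (Finset.card_le_card_of_injOn (fun y => g • y) (fun y hy => ?_)
        (MulAction.injective g).injOn)
      refine Finset.mem_filter.2 ⟨Finset.mem_univ _, ?_⟩
      rw [AnnW_smul HP hg, AnnW_smul HP hg, (Finset.mem_filter.1 hy).2]
    have hn : t ≤ (TsetW HP ω₀).card := by
      rw [Finset.sum_congr rfl fun B hB => (translates_card HP hB).1, Finset.sum_const,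
        smul_eq_mul, hA] at hsum
      exact Nat.le_of_mul_le_mul_right hsum (pow_pos (by omega) 3)
    have hbig : ∑ B ∈ TsetW HP ω₀, (Finset.univ.filter fun y : Ω => AnnW HP y = B).card ≤
        Fintype.card Ω := by
      rw [← Finset.card_biUnion fun B _ C _ hne => ?_]
      · exact Finset.card_le_univ _
      rw [Function.onFun, Finset.disjoint_left]
      intro y hy hy'
      exact hne ((Finset.mem_filter.1 hy).2.symm.trans (Finset.mem_filter.1 hy').2)
    have h3 := (Finset.card_nsmul_le_sum _ _ _ hfib).trans hbig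
    rw [smul_eq_mul] at h3
    have h1q : 1 < q ^ 3 := Nat.one_lt_pow (by norm_num) (by omega)
    nlinarith
  set w : WQ Q e f := (1 - l)⁻¹ • s
  set ω := sg Q e (w : V) • ω₀ with hω
  have hhω : h • ω = ω := by
    rw [hω, ← mul_smul, IsLv.conj HP hh (mem_WQ.1 w.2), mul_smul, ← hs, ← mul_smul,
      hhW _ (mem_WQ.1 w.2), ← sg_add HP.ee ((mem_WQ.1 w.2).smul _).ex (mem_WQ.1 s.2).ex]
    congr 2
    simp only [w, Submodule.coe_smul]
    have hl := sub_ne_zero.2 (Ne.symm hl1)
    match_scalars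
    field_simp
    ring
  obtain ⟨htsY, hdimY, hY⟩ := hmts ω HP
  obtain ⟨htsY', hdimY', hY'⟩ := hmts ω HP.symm
  -- a singular vector outside both planes
  obtain ⟨x, hxW, hQx, hx0, hxY, hxY'⟩ : ∃ x, InW Q e f x ∧ Q x = 0 ∧ x ≠ 0 ∧
      x ∉ Tsp HP ω ∧ x ∉ Tsp HP.symm ω := by
    by_contra! hall
    have hsub : (Lset Q e f).card ≤ (allS (Tsp HP ω) ∪ allS (Tsp HP.symm ω)).card := by
      refine Finset.card_le_card_of_injOn (fun u => (u : V)) (fun u hu => ?_)
        Subtype.val_injective.injOn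
      obtain ⟨hu0, hQu⟩ := mem_Lset.1 hu
      simp only [Finset.coe_union, Set.mem_union, Finset.mem_coe, allS, Finset.mem_filter,
        Finset.mem_univ, true_and]
      by_cases hmem : (u : V) ∈ Tsp HP ω
      · exact Or.inl hmem
      · exact Or.inr (hall _ (mem_WQ.1 u.2) hQu (fun h0 => hu0 (Subtype.ext h0)) hmem)
    have h2 := hsub.trans (Finset.card_union_le _ _)
    rw [allS, allS, ← Fintype.card_subtype, ← Fintype.card_subtype,
      Module.card_eq_pow_finrank (K := F) (V := Tsp HP ω),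
      Module.card_eq_pow_finrank (K := F) (V := Tsp HP.symm ω), hdimY, hdimY', hL e f HP, hq] at h2
    obtain ⟨r, hr⟩ : ∃ r, q ^ 3 = r + 8 := ⟨q ^ 3 - 8, by
      have := Nat.pow_le_pow_left (show 2 ≤ q by omega) 3; omega⟩
    rw [hr, show r + 8 - 1 = r + 7 by omega] at h2
    have h16 : 4 ≤ q ^ 2 + 1 := by nlinarith
    nlinarith [Nat.mul_le_mul_left (r + 7) h16]
  obtain ⟨y, hyW, Hxy⟩ := W_partner hG HP hxW hQx hx0
  obtain ⟨htsX, hdimX, hX⟩ := hmts ω Hxy
  have hhT : ∀ u ∈ Tsp Hxy ω, h.1.1 u ∈ Tsp Hxy ω := by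
    intro u hu
    have hm := map_Tsp' Hxy h Hxy (hhW x hxW) (hhW y hyW) ω
    rw [hhω] at hm
    exact hm ⟨u, hu, rfl⟩
  have hdec : ∀ u, h.1.1 u =
      (polar Q u f * l) • e + (polar Q u e * l⁻¹) • f + proj Q e f u := by
    intro u
    conv_lhs => rw [decomp (Q := Q) e f u]
    rw [map_add, map_add, _root_.map_smul, _root_.map_smul, hh.2.1, hh.2.2,
      hhW _ (proj_mem HP u), smul_smul, smul_smul]
  have hle : Tsp Hxy ω ≤ WQ Q e f := by
    intro u hu
    set a := polar Q u f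
    set b := polar Q u e
    have h1 : (a * (l - 1)) • e + (b * (l⁻¹ - 1)) • f ∈ Tsp Hxy ω := by
      have h2 := sub_mem (hhT u hu) hu
      have hd2 : u = a • e + b • f + proj Q e f u := decomp (Q := Q) e f u
      have heq : h.1.1 u - u = (a * (l - 1)) • e + (b * (l⁻¹ - 1)) • f := by
        rw [hdec u]
        linear_combination (norm := module) -hd2
      rwa [heq] at h2
    have hnote : ∀ {z : V}, Q z = 0 → InW Q x y z → ∀ c : F, c • z ∈ Tsp Hxy ω →
        sg Q x (c • z) • ω = ω := fun _ _ c hc =>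
      fix_of_perp hG Hxy (mem_WQ.1 (Tsp_le Hxy ω hc)) fun s hs => htsX.polar_eq hc hs
    have hexe : InW Q x y e := ⟨hxW.ex, hyW.ex⟩
    have hexf : InW Q x y f := ⟨hxW.fx, hyW.fx⟩
    have hnoe : ∀ c : F, c • e ∈ Tsp Hxy ω → c = 0 := by
      intro c hc
      by_contra hc0
      have := hnote HP.ee hexe c hc
      rw [sg_swap hQx (s := c • e) (by rw [QuadraticMap.map_smul, HP.ee, smul_zero])
        (by rw [polar_smul_right, hxW.xe, smul_zero]),
        sg_smul HP.ee (by rw [polar_neg_right, hxW.ex, neg_zero]), smul_neg, ← neg_smul] at this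
      have hm := hY _ (hxW.smul _) this
      exact hxY (by simpa [smul_smul, hc0] using Submodule.smul_mem _ (-c)⁻¹ hm)
    have hnof : ∀ c : F, c • f ∈ Tsp Hxy ω → c = 0 := by
      intro c hc
      by_contra hc0
      have := hnote HP.ff hexf c hc
      rw [sg_swap hQx (s := c • f) (by rw [QuadraticMap.map_smul, HP.ff, smul_zero])
        (by rw [polar_smul_right, hxW.xf, smul_zero]),
        sg_smul HP.ff (by rw [polar_neg_right, hxW.fx, neg_zero]), smul_neg, ← neg_smul] at this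
      have hm := hY' _ (hxW.symm.smul _) this
      exact hxY' (by simpa [smul_smul, hc0] using Submodule.smul_mem _ (-c)⁻¹ hm)
    have hl1' : l⁻¹ - 1 ≠ 0 := sub_ne_zero.2 fun h0 => hl1 (inv_eq_one.1 h0)
    have hQ := htsX _ h1
    rw [QuadraticMap.map_add ⇑Q, QuadraticMap.map_smul, QuadraticMap.map_smul, HP.ee, HP.ff,
      smul_zero, smul_zero, zero_add, zero_add, polar_smul_left, polar_smul_right, HP.ef] at hQ
    simp only [smul_eq_mul, mul_one, mul_eq_zero, sub_ne_zero.2 hl1, hl1', or_false] at hQ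
    rcases hQ with ha | hb
    · have hb : b = 0 := by
        have := hnof (b * (l⁻¹ - 1)) (by simpa [ha] using h1)
        simpa [hl1'] using this
      exact mem_WQ.2 ⟨hb, ha⟩
    · have ha : a = 0 := by
        have := hnoe (a * (l - 1)) (by simpa [hb] using h1)
        simpa [sub_ne_zero.2 hl1] using this
      exact mem_WQ.2 ⟨hb, ha⟩
  obtain ⟨htsS, hdimS⟩ := tsing_sup_e Hxy (Tsp_le Hxy ω) htsX
  have hbig := half_of hG HP (sup_le hle ((Submodule.span_singleton_le_iff_mem _ _).2 (mem_WQ.2 hxW))) htsS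
  omega

end Cfsg.Agent.Lib.MinIndexO
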