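import Cfsg.Agent.Lib.MinIndexO.Count

/-!
No action is regular on every radical.
-/

set_option autoImplicit false

namespace Cfsg.Agent.Lib.MinIndexO

open QuadraticMap hiding proj
open Cfsg.Agent.Lib.Classical.Quad Cfsg.Agent.Lib.Classical.QuadOmega
open Cfsg.Agent.Lib.AutOmegaOdd (G G_ext G_mul G_one G_inv G_inv' G_Q G_B sg sg_apply sg_add sg_zero
  sg_self sg_neg sg_smul sg_conj sg_fix sg_fix_self sg_swap Fr InW proj proj_mem decomp B_proj
  sg_e_fix sg_e_f sg_e_inj)
open Cfsg.Agent.Lib.AutOmega (W_pair W_partner W_nondeg W_induction)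
open scoped commutatorElement

universe u v w

attribute [local instance] _root_.Classical.propDecidable

variable {F : Type u} [Field F] [Fintype F] {V : Type v} [AddCommGroup V] [Module F V] [Fintype V]
  {Q : QuadraticForm F V}

/-- Three mutually orthogonal pairs. -/
structure Fr3 (Q : QuadraticForm F V) (e f u u' b b' : V) : Prop where
  p1 : Fr Q e f
  p2 : Fr Q u u'
  p3 : Fr Q b b'
  u1 : InW Q e f u
  u1' : InW Q e f u'
  b1 : InW Q e f b
  b1' : InW Q e f b'
  b2 : InW Q u u' b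
  b2' : InW Q u u' b'

/-- Orthogonal to the three pairs. -/
def InD (Q : QuadraticForm F V) (e f u u' b b' x : V) : Prop :=
  InW Q e f x ∧ InW Q u u' x ∧ InW Q b b' x

variable {e f u u' b b' : V}

theorem InW.projW {a a' x : V} (ha : InW Q e f a) (ha' : InW Q e f a') (hx : InW Q e f x) :
    InW Q e f (proj Q a a' x) := (hx.sub (ha.smul _)).sub (ha'.smul _)

theorem exists_D_partner (hG : Good Q) (H : Fr3 Q e f u u' b b') {x : V}
    (hx : InD Q e f u u' b b' x) (hx0 : x ≠ 0) :
    ∃ w, InD Q e f u u' b b' w ∧ polar Q x w = 1 := by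
  obtain ⟨w, hw⟩ := hG.exists_one hx0
  refine ⟨proj Q b b' (proj Q u u' (proj Q e f w)), ⟨?_, ?_, proj_mem H.p3 _⟩, ?_⟩
  · exact InW.projW H.b1 H.b1' (InW.projW H.u1 H.u1' (proj_mem H.p1 w))
  · exact InW.projW H.b2 H.b2' (proj_mem H.p2 _)
  · rw [B_proj hx.2.2, B_proj hx.2.1, B_proj hx.1, hw]

omit [Fintype F] [Fintype V] in
theorem range_eight {a₁ a₂ a₃ a₄ a₅ a₆ a₇ a₈ x : V} {S : Submodule F V}
    (hx : x ∈ perpS Q S) (hS : S = Submodule.span F (Set.range ![a₁, a₂, a₃, a₄, a₅, a₆, a₇, a₈])) :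
    polar Q x a₁ = 0 ∧ polar Q x a₂ = 0 ∧ polar Q x a₃ = 0 ∧ polar Q x a₄ = 0 ∧ polar Q x a₅ = 0 ∧
      polar Q x a₆ = 0 ∧ polar Q x a₇ = 0 ∧ polar Q x a₈ = 0 := by
  subst hS
  have h := fun i => mem_perpS.1 hx _ (Submodule.subset_span (Set.mem_range_self i))
  exact ⟨h 0, h 1, h 2, h 3, h 4, h 5, h 6, h 7⟩

/-- A nonzero vector of the space orthogonal to a given one. -/
theorem exists_D_perp (hG : Good Q) (hd : 8 ≤ Module.finrank F V) (H : Fr3 Q e f u u' b b') (y : V) :
    ∃ x, InD Q e f u u' b b' x ∧ polar Q x y = 0 ∧ x ≠ 0 := by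
  set S := Submodule.span F (Set.range ![e, f, u, u', b, b', y]) with hS
  have h1 := finrank_perpS hG.nd S
  have h2 : Module.finrank F S ≤ 7 := (finrank_range_le_card _).trans (by simp)
  obtain ⟨x, hx, hx0⟩ := Submodule.exists_mem_ne_zero_of_ne_bot (p := perpS Q S) fun h => by
    rw [h, finrank_bot] at h1; omega
  have h := fun i => mem_perpS.1 hx _ (Submodule.subset_span (Set.mem_range_self i))
  exact ⟨x, ⟨⟨h 0, h 1⟩, ⟨h 2, h 3⟩, ⟨h 4, h 5⟩⟩, h 6, hx0⟩

/-- A nonsingular vector orthogonal to a further pair. -/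
theorem exists_D_ns (hG : Good Q) (hd : 8 ≤ Module.finrank F V)
    (hspare : 9 ≤ Module.finrank F V ∨
      ∀ S : Submodule F V, TSing Q S → 2 * Module.finrank F S < Module.finrank F V)
    (H : Fr3 Q e f u u' b b') {p p' : V} (Hp : Fr Q p p') (hp : InD Q e f u u' b b' p)
    (hp' : InD Q e f u u' b b' p') :
    ∃ c, InD Q e f u u' b b' c ∧ InW Q p p' c ∧ Q c ≠ 0 := by
  have h9 : 9 ≤ Module.finrank F V := by
    refine hspare.elim id fun hmax => ?_
    have hli : LinearIndependent F ![e, u, b, p] := by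
      rw [Fintype.linearIndependent_iff]
      intro g hg
      simp only [Fin.sum_univ_four, Matrix.cons_val_zero, Matrix.cons_val_one, Matrix.cons_val] at hg
      have k : ∀ z, polar Q (g 0 • e + g 1 • u + g 2 • b + g 3 • p) z = 0 := fun z => by
        rw [hg]; exact polar_zero_left Q z
      have e0 : g 0 = 0 := by
        simpa [polar_add_left, polar_smul_left, H.p1.ef, H.u1.xf, H.b1.xf, hp.1.xf] using k f
      have e1 : g 1 = 0 := by
        simpa [polar_add_left, polar_smul_left, H.u1'.ex, H.p2.ef, H.b2.xf, hp.2.1.xf] using k u'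
      have e2 : g 2 = 0 := by
        simpa [polar_add_left, polar_smul_left, H.b1'.ex, H.b2'.ex, H.p3.ef, hp.2.2.xf] using k b'
      have e3 : g 3 = 0 := by
        simpa [polar_add_left, polar_smul_left, hp'.1.ex, hp'.2.1.ex, hp'.2.2.ex, Hp.ef] using k p'
      intro i; fin_cases i <;> assumption
    have h := finrank_span_eq_card hli
    rw [Fintype.card_fin] at h
    have hts : TSing Q (Submodule.span F (Set.range ![e, u, b, p])) := by
      intro x hx
      obtain ⟨g, rfl⟩ := (Submodule.mem_span_range_iff_exists_fun F).1 hx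
      simp [Fin.sum_univ_four, QuadraticMap.map_add ⇑Q, QuadraticMap.map_smul, polar_add_left,
        polar_smul_left, polar_smul_right, H.p1.ee, H.p2.ee, H.p3.ee, Hp.ee, H.u1.ex, H.b1.ex,
        hp.1.ex, H.b2.ex, hp.2.1.ex, hp.2.2.ex]
    have := hmax _ hts
    omega
  set S := Submodule.span F (Set.range ![e, f, u, u', b, b', p, p']) with hS
  have h1 := finrank_perpS hG.nd S
  have h2 : Module.finrank F S ≤ 8 := (finrank_range_le_card _).trans (by simp)
  obtain ⟨x, hx, hx0⟩ := Submodule.exists_mem_ne_zero_of_ne_bot (p := perpS Q S) fun h => by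
    rw [h, finrank_bot] at h1; omega
  obtain ⟨x1, x2, x3, x4, x5, x6, x7, x8⟩ := range_eight hx hS
  have hxD : InD Q e f u u' b b' x := ⟨⟨x1, x2⟩, ⟨x3, x4⟩, ⟨x5, x6⟩⟩
  have hxp : InW Q p p' x := ⟨x7, x8⟩
  obtain ⟨w, hw, hxw⟩ := exists_D_partner hG H hxD hx0
  set w' := proj Q p p' w
  have hwD : InD Q e f u u' b b' w' :=
    ⟨InW.projW hp.1 hp'.1 hw.1, InW.projW hp.2.1 hp'.2.1 hw.2.1,
      InW.projW hp.2.2 hp'.2.2 hw.2.2⟩
  have hxw' : polar Q x w' = 1 := by rw [B_proj hxp, hxw]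
  by_cases hq : Q x = 0
  · by_cases hq' : Q w' = 0
    · refine ⟨x + w', ⟨hxD.1.add hwD.1, hxD.2.1.add hwD.2.1, hxD.2.2.add hwD.2.2⟩,
        hxp.add (proj_mem Hp w), ?_⟩
      rw [QuadraticMap.map_add ⇑Q, hq, hq', hxw']; simp
    · exact ⟨w', hwD, proj_mem Hp w, hq'⟩
  · exact ⟨x, hxD, hxp, hq⟩

omit [Fintype F] [Fintype V] in
theorem InD.add' {x y : V} (hx : InD Q e f u u' b b' x) (hy : InD Q e f u u' b b' y) :
    InD Q e f u u' b b' (x + y) := ⟨hx.1.add hy.1, hx.2.1.add hy.2.1, hx.2.2.add hy.2.2⟩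

omit [Fintype F] [Fintype V] in
theorem InD.smul' {x : V} (hx : InD Q e f u u' b b' x) (c : F) :
    InD Q e f u u' b b' (c • x) := ⟨hx.1.smul c, hx.2.1.smul c, hx.2.2.smul c⟩

omit [Fintype F] [Fintype V] in
theorem InD.sub' {x y : V} (hx : InD Q e f u u' b b' x) (hy : InD Q e f u u' b b' y) :
    InD Q e f u u' b b' (x - y) := ⟨hx.1.sub hy.1, hx.2.1.sub hy.2.1, hx.2.2.sub hy.2.2⟩

/-- Another vector with the same value. -/
theorem exists_companion (hG : Good Q) (hd : 8 ≤ Module.finrank F V)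
    (hspare : 9 ≤ Module.finrank F V ∨
      ∀ S : Submodule F V, TSing Q S → 2 * Module.finrank F S < Module.finrank F V)
    (H : Fr3 Q e f u u' b b') {a : V} (ha : InD Q e f u u' b b' a) (ha0 : Q a ≠ 0) :
    ∃ a', InD Q e f u u' b b' a' ∧ Q a' = Q a ∧ ∀ s : F, a' ≠ s • a := by
  obtain ⟨w0, hw0, haw⟩ := exists_D_partner hG H ha (fun h => ha0 (by rw [h, map_zero]))
  obtain ⟨w, hw, haw', hwns⟩ : ∃ w, InD Q e f u u' b b' w ∧ polar Q a w = 1 ∧
      ∀ s : F, w ≠ s • a := by
    by_cases hm : ∃ s : F, w0 = s • a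
    · obtain ⟨x, hx, hxa, hx0⟩ := exists_D_perp hG hd H a
      refine ⟨w0 + x, hw0.add' hx, by rw [polar_add_right, haw, polar_comm Q a x, hxa, add_zero],
        fun s hs => ?_⟩
      obtain ⟨r, rfl⟩ := hm
      have hx' : x = (s - r) • a := by rw [sub_smul, ← hs, add_sub_cancel_left]
      rw [polar_smul_right, smul_eq_mul] at haw
      rw [hx', polar_smul_left, smul_eq_mul, mul_eq_zero] at hxa
      rcases hxa with h | h
      · exact hx0 (by rw [hx', h, zero_smul])
      · rw [h, mul_zero] at haw; exact zero_ne_one haw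
    · push Not at hm
      exact ⟨w0, hw0, haw, hm⟩
  obtain ⟨v, hv, hav, hv0, hvns⟩ : ∃ v, InD Q e f u u' b b' v ∧ polar Q a v = 1 ∧ Q v ≠ 0 ∧
      ∀ s : F, v ≠ s • a := by
    by_cases hq : Q w = 0
    · set t := a - Q a • w
      have hwa : polar Q w a = 1 := by rw [polar_comm, haw']
      have hwt : polar Q w t = 1 := by
        rw [polar_sub_right, polar_smul_right, polar_self_sing hq, hwa]; simp
      have ht : Q t = 0 := by
        rw [show t = a + (-(Q a)) • w by rw [neg_smul, ← sub_eq_add_neg],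
          QuadraticMap.map_add ⇑Q, QuadraticMap.map_smul, hq, polar_smul_right, haw']
        simp
      obtain ⟨c, hc, hcp, hc0⟩ := exists_D_ns hG hd hspare H ⟨hq, ht, hwt⟩ hw
        (ha.sub' (hw.smul' _))
      have hac : polar Q a c = 0 := by
        rw [show a = t + Q a • w from (sub_add_cancel _ _).symm, polar_add_left, polar_smul_left,
          polar_comm Q t c, hcp.xf, polar_comm Q w c, hcp.xe, smul_zero, add_zero]
      refine ⟨w + c, hw.add' hc, by rw [polar_add_right, haw', hac, add_zero], ?_, fun s hs => ?_⟩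
      · rw [QuadraticMap.map_add ⇑Q, hq, polar_comm Q w c, hcp.xe]; simpa using hc0
      · have hs0 : s = 0 := by
          have h1 := congrArg (fun z => polar Q w z) hs
          simp only [polar_add_right, polar_smul_right, polar_self_sing hq, polar_comm Q w c,
            hcp.xe, hwa, smul_eq_mul, mul_one, add_zero] at h1
          exact h1.symm
        rw [hs0, zero_smul] at hs
        refine hc0 ?_
        rw [eq_neg_of_add_eq_zero_right hs, QuadraticMap.map_neg, hq]
    · exact ⟨w, hw, haw', hq, hwns⟩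
  refine ⟨(refl Q v).1 a, ?_, iso_Q _ a, fun s hs => ?_⟩
  · rw [refl_apply hv0]; exact ha.sub' (hv.smul' _)
  · rw [refl_apply hv0, hav, sub_eq_iff_eq_add] at hs
    refine hvns (Q v * (1 - s)) ?_
    have h1 : (1 / Q v) • v = (1 - s) • a := by
      rw [sub_smul, one_smul]; exact eq_sub_of_add_eq' hs.symm
    calc v = Q v • ((1 / Q v) • v) := by
          rw [smul_smul, mul_one_div, div_self hv0, one_smul]
      _ = _ := by rw [h1, smul_smul]

/-- Two reflections with equal values lie in the group. -/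
theorem refl_mul_mem (hG : Good Q) (HP : Fr Q e f) {a₁ a₂ : V} (h0 : Q a₁ ≠ 0)
    (h : Q a₁ = Q a₂) : refl Q a₁ * refl Q a₂ ∈ siegelGroup Q := by
  obtain ⟨t1, ht1, e1⟩ := hG.exists_map_nonsing HP.ee HP.ff HP.ef h0
  obtain ⟨t2, ht2, e2⟩ := hG.exists_map_nonsing HP.ee HP.ff HP.ef (w := a₂) (by rwa [← h])
  set t := t2 * t1⁻¹
  have ht : t.1 a₁ = a₂ := by
    show t2.1 (t1.1.symm a₁) = a₂
    rw [show t1.1.symm a₁ = Q a₁ • e + f from (LinearEquiv.symm_apply_eq _).2 e1.symm, h, e2]
  have hcomm : refl Q a₁ * refl Q a₂ = ⁅refl Q a₁, t⁆ := by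
    rw [commutatorElement_def, refl_inv h0, ← ht, ← refl_conj h0 t]
    group
  rw [hcomm, ← commutator_eq hG, commutator_def]
  exact Subgroup.commutator_mem_commutator (Subgroup.mem_top _) (Subgroup.mem_top _)

variable {Ω : Type w} [MulAction (G Q) Ω]

/-- An action in which every radical is regular and transitive does not exist. -/
theorem exclude (hG : Good Q) (hd : 8 ≤ Module.finrank F V)
    (hspare : 9 ≤ Module.finrank F V ∨
      ∀ S : Submodule F V, TSing Q S → 2 * Module.finrank F S < Module.finrank F V)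
    (HP : Fr Q e f) (ω : Ω) (hfree : ∀ x, x ≠ 0 → Q x = 0 → Free Q ω x)
    (htr : ∀ y : Ω, ∃ s : WQ Q e f, sg Q e (s : V) • ω = y) : False := by
  obtain ⟨u, u', hu1, hu1', Hu⟩ := W_pair hG HP
  have HW : Fr (QW Q e f) (⟨u, hu1⟩ : WQ Q e f) ⟨u', hu1'⟩ :=
    ⟨Hu.ee, Hu.ff, by rw [polar_QW]; exact Hu.ef⟩
  obtain ⟨⟨b, hb1⟩, ⟨b', hb1'⟩, hb, hb', Hb⟩ := W_pair (good_QW hG HP (by omega)) HW
  have hb2 : InW Q u u' b := ⟨by simpa [polar_QW] using hb.xe, by simpa [polar_QW] using hb.xf⟩
  have hb2' : InW Q u u' b' := ⟨by simpa [polar_QW] using hb'.xe, by simpa [polar_QW] using hb'.xf⟩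
  have HB : Fr Q b b' := ⟨Hb.ee, Hb.ff, by simpa [polar_QW] using Hb.ef⟩
  have H : Fr3 Q e f u u' b b' := ⟨HP, Hu, HB, hu1, hu1', hb1, hb1', hb2, hb2'⟩
  have hu0 : u ≠ 0 := Hu.e_ne
  have hfe := hfree e HP.e_ne HP.ee
  have huniq : ∀ {s t : WQ Q e f}, sg Q e (s : V) • ω = sg Q e (t : V) • ω → s = t := by
    intro s t h
    refine sub_eq_zero.1 ((free_iff HP ω).1 hfe (s - t) ?_)
    rw [Submodule.coe_sub, sub_eq_add_neg, add_comm,
      sg_add HP.ee (by rw [polar_neg_right, (mem_WQ.1 t.2).ex, neg_zero]) (mem_WQ.1 s.2).ex,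
      mul_smul, sg_neg HP.ee (mem_WQ.1 t.2).ex]
    exact inv_smul_eq_iff.2 h
  have hu_e : polar Q u e = 0 := hu1.xe
  -- the vector attached to a transvection
  have hphi : ∀ y, InW Q e f y → polar Q u y = 0 →
      ∃ w : WQ Q e f, (sg Q e (w : V) * sg Q u y) • ω = ω := by
    intro y _ _
    obtain ⟨s, hs⟩ := htr (sg Q u y • ω)
    refine ⟨-s, ?_⟩
    rw [mul_smul, ← hs, Submodule.coe_neg, sg_neg HP.ee (mem_WQ.1 s.2).ex, inv_smul_smul]
  have hphi_uniq : ∀ {y : V} {w w' : WQ Q e f}, (sg Q e (w : V) * sg Q u y) • ω = ω →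
      (sg Q e (w' : V) * sg Q u y) • ω = ω → w = w' := by
    intro y w w' h h'
    rw [mul_smul] at h h'
    have key : ∀ z : WQ Q e f, sg Q e (z : V) • (sg Q u y • ω) = ω →
        sg Q u y • ω = sg Q e ((-z : WQ Q e f) : V) • ω := fun z hz => by
      rw [Submodule.coe_neg, sg_neg HP.ee (mem_WQ.1 z.2).ex, eq_inv_smul_iff]
      exact hz
    exact neg_injective (huniq ((key w h).symm.trans (key w' h')))
  choose φ hφ using hphi
  -- moving past a transvection
  have hpast : ∀ {y : V} (hy : InW Q e f y) (huy : polar Q u y = 0) (w : WQ Q e f),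
      sg Q u y * sg Q e (w : V) = sg Q e ((sg Q u y).1.1 (w : V)) * sg Q u y := by
    intro y hy huy w
    rw [← mul_inv_eq_iff_eq_mul, sg_conj HP.ee (mem_WQ.1 w.2).ex,
      sg_fix Hu.ee huy hu1.ex hy.ex]
  have htW : ∀ {y : V} (hy : InW Q e f y) (huy : polar Q u y = 0) (w : WQ Q e f),
      InW Q e f ((sg Q u y).1.1 (w : V)) := fun hy huy w =>
    AutOmega.sg_stab_W Hu.ee huy hu1 hy (mem_WQ.1 w.2)
  have hadd : ∀ {y y' : V} (hy : InW Q e f y) (huy : polar Q u y = 0) (hy' : InW Q e f y')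
      (huy' : polar Q u y' = 0),
      (φ (y + y') (hy.add hy') (by rw [polar_add_right, huy, huy', add_zero]) : V) =
        (φ y hy huy : V) + (sg Q u y).1.1 (φ y' hy' huy' : V) := by
    intro y y' hy huy hy' huy'
    have h : (sg Q e (φ y hy huy : V) * sg Q u y * (sg Q e (φ y' hy' huy' : V) * sg Q u y')) • ω =
        ω := by
      rw [mul_smul, hφ y' hy' huy', hφ y hy huy]
    rw [mul_assoc, ← mul_assoc (sg Q u y), hpast hy huy, mul_assoc (sg Q e ((sg Q u y).1.1 _)),
      ← sg_add Hu.ee huy huy', ← mul_assoc,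
      ← sg_add HP.ee (mem_WQ.1 (φ y hy huy).2).ex (htW hy huy _).ex] at h
    exact congrArg Subtype.val (hphi_uniq (hφ (y + y') (hy.add hy') _)
      (w' := ⟨_, (mem_WQ.1 (φ y hy huy).2).add (htW hy huy (φ y' hy' huy'))⟩) h)
  have hdot : ∀ {y : V} (huy : polar Q u y = 0) (w z : V), polar Q u z = 0 →
      polar Q ((sg Q u y).1.1 w - w) z = polar Q w u * polar Q y z := by
    intro y huy w z hz
    rw [sg_apply Hu.ee huy]
    simp [polar_sub_left, polar_add_left, polar_smul_left, hz]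
  -- the radical component vanishes
  have hub : polar Q u b = 0 := hb2.ex
  have hub' : polar Q u b' = 0 := hb2'.ex
  have hwu : polar Q (φ b hb1 hub : V) u = 0 := by
    obtain ⟨z, hz, -, hz0⟩ := exists_D_perp hG hd H 0
    obtain ⟨y, hy, hzy⟩ := exists_D_partner hG H hz hz0
    have huy : polar Q u y = 0 := hy.2.1.ex
    have h1 := hadd hb1 hub hy.1 huy
    have h2 := hadd hy.1 huy hb1 hub
    have h3 : (φ b hb1 hub : V) + (sg Q u b).1.1 (φ y hy.1 huy : V) =
        (φ y hy.1 huy : V) + (sg Q u y).1.1 (φ b hb1 hub : V) := by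
      rw [← h1, ← h2]; congr 2; exact add_comm b y
    have h4 : polar Q ((sg Q u b).1.1 (φ y hy.1 huy : V) - (φ y hy.1 huy : V)) z =
        polar Q ((sg Q u y).1.1 (φ b hb1 hub : V) - (φ b hb1 hub : V)) z := by
      congr 1
      linear_combination (norm := module) h3
    rw [hdot hub _ _ hz.2.1.ex, hdot huy _ _ hz.2.1.ex, polar_comm Q b z, hz.2.2.xe,
      polar_comm Q y z, hzy, mul_zero, mul_one] at h4
    exact h4.symm
  set w := φ b hb1 hub with hwdef
  have hwW := mem_WQ.1 w.2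
  -- elements fixing the configuration
  have htransfer : ∀ g : G Q, g.1.1 e = e → g.1.1 f = f → g.1.1 u = u → g.1.1 b = b →
      ∀ z, InW Q e f z → polar Q u z = 0 → polar Q b z = 0 →
      polar Q (g.1.1 (w : V) - w) z = 0 := by
    intro g hge hgf hgu hgb z hzW huz hbz
    have hgW : ∀ {x : V}, InW Q e f x → InW Q e f (g.1.1 x) := fun {x} hx =>
      ⟨by rw [← hge, G_B]; exact hx.xe, by rw [← hgf, G_B]; exact hx.xf⟩
    obtain ⟨s, hs⟩ := htr (g • ω)
    have h : (g * (sg Q e (w : V) * sg Q u b)) • ω = g • ω := by rw [mul_smul, hφ b hb1 hub]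
    have hc : g * (sg Q e (w : V) * sg Q u b) = sg Q e (g.1.1 (w : V)) * sg Q u b * g := by
      have k1 : g * sg Q e (w : V) = sg Q e (g.1.1 (w : V)) * g := by
        rw [← mul_inv_eq_iff_eq_mul, sg_conj HP.ee hwW.ex, hge]
      have k2 : g * sg Q u b = sg Q u b * g := by
        rw [← mul_inv_eq_iff_eq_mul, sg_conj Hu.ee hub, hgu, hgb]
      rw [← mul_assoc, k1, mul_assoc, k2, mul_assoc]
    rw [hc, mul_smul, ← hs, ← mul_smul, mul_assoc, hpast hb1 hub, ← mul_assoc,
      ← sg_add HP.ee (hgW hwW).ex (htW hb1 hub s).ex] at h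
    have h' : (sg Q e ((-s : WQ Q e f) : V) * (sg Q e (g.1.1 (w : V) + (sg Q u b).1.1 (s : V)) *
        sg Q u b)) • ω = ω := by
      rw [mul_smul, h, Submodule.coe_neg, sg_neg HP.ee (mem_WQ.1 s.2).ex, inv_smul_smul]
    rw [← mul_assoc, ← sg_add HP.ee (mem_WQ.1 (-s).2).ex ((hgW hwW).add (htW hb1 hub s)).ex] at h'
    have heq := congrArg Subtype.val (hphi_uniq (hφ b hb1 hub)
      (w' := ⟨_, (mem_WQ.1 (-s).2).add ((hgW hwW).add (htW hb1 hub s))⟩) h')
    simp only [Submodule.coe_neg] at heq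
    rw [show g.1.1 (w : V) - w = -((sg Q u b).1.1 (s : V) - s) by
      linear_combination (norm := module) -heq, polar_neg_left, hdot hub _ _ huz, hbz, mul_zero,
      neg_zero]
  have hwb : polar Q (w : V) b = 0 := by
    obtain ⟨z, hz, -, hz0⟩ := exists_D_perp hG hd H 0
    obtain ⟨a, ha, hza⟩ := exists_D_partner hG H hz hz0
    have hba : polar Q b a = 0 := ha.2.2.ex
    have h := htransfer (sg Q b a) (sg_fix HB.ee hba hb1.ex ha.1.ex) (sg_fix HB.ee hba hb1.fx ha.1.fx)
      (sg_fix HB.ee hba (by rw [hub]) ha.2.1.ex) (sg_fix_self HB.ee hba) z hz.1 hz.2.1.ex hz.2.2.ex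
    rw [sg_apply HB.ee hba] at h
    simpa [polar_sub_left, polar_add_left, polar_smul_left, hz.2.2.ex, polar_comm Q a z, hza] using h
  have hns : ∀ a, InD Q e f u u' b b' a → Q a ≠ 0 → polar Q (w : V) a = 0 := by
    intro a ha ha0
    obtain ⟨a', ha', hQ, hind⟩ := exists_companion hG hd hspare H ha ha0
    have ha'0 : Q a' ≠ 0 := by rwa [hQ]
    set r : G Q := ⟨refl Q a * refl Q a', refl_mul_mem hG HP ha0 hQ.symm⟩
    have happ : ∀ x, r.1.1 x = (refl Q a).1 ((refl Q a').1 x) := fun x => rfl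
    have hfix : ∀ x, polar Q x a = 0 → polar Q x a' = 0 → r.1.1 x = x := fun x h1 h2 => by
      rw [happ, refl_apply_perp ha'0 h2, refl_apply_perp ha0 h1]
    set d := r.1.1 (w : V) - w with hdd
    have hd_eq : d = (-(polar Q ((refl Q a').1 (w : V)) a / Q a)) • a +
        (-(polar Q (w : V) a' / Q a')) • a' := by
      rw [hdd, happ, refl_apply ha0, refl_apply ha'0]; module
    have hdD : InD Q e f u u' b b' d := by rw [hd_eq]; exact (ha.smul' _).add' (ha'.smul' _)
    have hd0 : d = 0 := by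
      by_contra hne
      obtain ⟨z, hz, hdz⟩ := exists_D_partner hG H hdD hne
      have h := htransfer r (hfix e ha.1.ex ha'.1.ex) (hfix f ha.1.fx ha'.1.fx)
        (hfix u ha.2.1.ex ha'.2.1.ex) (hfix b ha.2.2.ex ha'.2.2.ex) z hz.1 hz.2.1.ex hz.2.2.ex
      rw [← hdd, hdz] at h
      exact one_ne_zero h
    set k1 := -(polar Q ((refl Q a').1 (w : V)) a / Q a)
    set k2 := -(polar Q (w : V) a' / Q a')
    have hk2 : k2 = 0 := by
      by_contra hk
      refine hind (-k1 / k2) ?_
      have h1 : k1 • a + k2 • a' = 0 := hd_eq.symm.trans hd0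
      calc a' = k2⁻¹ • (k2 • a') := (inv_smul_smul₀ hk a').symm
        _ = _ := by rw [eq_neg_of_add_eq_zero_right h1, smul_neg, smul_smul, neg_div, neg_smul,
              div_eq_inv_mul]
    have hwa' : polar Q (w : V) a' = 0 := by
      have := neg_eq_zero.1 hk2
      exact (div_eq_zero_iff.1 this).resolve_right ha'0
    have hk1 : k1 = 0 := by
      have h1 : k1 • a + k2 • a' = 0 := hd_eq.symm.trans hd0
      rw [hk2, zero_smul, add_zero, smul_eq_zero] at h1
      exact h1.resolve_right fun h => ha0 (by rw [h, map_zero])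
    have := (div_eq_zero_iff.1 (neg_eq_zero.1 hk1)).resolve_right ha0
    rwa [refl_apply_perp ha'0 hwa'] at this
  have hD : ∀ z, InD Q e f u u' b b' z → polar Q (w : V) z = 0 := by
    intro z hz
    by_cases hq : Q z = 0
    · rcases eq_or_ne z 0 with rfl | hz0
      · exact polar_zero_right Q _
      obtain ⟨p, hp, hzp⟩ := exists_D_partner hG H hz hz0
      set t := p - Q p • z
      have ht : Q t = 0 := by
        rw [show t = p + (-(Q p)) • z by rw [neg_smul, ← sub_eq_add_neg],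
          QuadraticMap.map_add ⇑Q, QuadraticMap.map_smul, hq, polar_smul_right, polar_comm Q p z, hzp]
        simp
      have hzt : polar Q z t = 1 := by
        rw [polar_sub_right, polar_smul_right, polar_self_sing hq, hzp]; simp
      obtain ⟨c, hc, hcp, hc0⟩ := exists_D_ns hG hd hspare H ⟨hq, ht, hzt⟩ hz (hp.sub' (hz.smul' _))
      have h1 := hns (z + c) (hz.add' hc) (by
        rw [QuadraticMap.map_add ⇑Q, hq, polar_comm Q z c, hcp.xe]; simpa using hc0)
      rw [polar_add_right, hns c hc hc0, add_zero] at h1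
      exact h1
    · exact hns z hz hq
  -- the vector lies in the plane
  set l := polar Q (w : V) u'
  set k := polar Q (w : V) b'
  have hwspan : (w : V) = l • u + k • b := by
    set x := proj Q b b' (proj Q u u' (w : V)) with hx
    have hwd : (w : V) = l • u + k • b + x := by
      simp only [hx, proj, polar_sub_left, polar_smul_left, hwu, hwb, hb2'.ex, hb2.ex,
        polar_comm Q u' b, polar_comm Q u' b', hb2'.xf, hb2.xf, l, k]
      simp
    have hxD : InD Q e f u u' b b' x :=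
      ⟨InW.projW hb1 hb1' (InW.projW hu1 hu1' hwW), InW.projW hb2 hb2' (proj_mem Hu _),
        proj_mem HB _⟩
    by_cases hx0 : x = 0
    · rw [hwd, hx0, add_zero]
    · exfalso
      obtain ⟨z, hz, hxz⟩ := exists_D_partner hG H hxD hx0
      have := hD z hz
      rw [hwd, polar_add_left, polar_add_left, polar_smul_left, polar_smul_left, hz.2.1.ex,
        hz.2.2.ex, hxz] at this
      simp at this
  set z1 := u + k • e with hz1
  set z2 := b - l • e with hz2
  have hz1Q : Q z1 = 0 := by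
    rw [hz1, QuadraticMap.map_add ⇑Q, QuadraticMap.map_smul, Hu.ee, HP.ee, polar_smul_right, hu_e]
    simp
  have hz12 : polar Q z1 z2 = 0 := by
    simp [hz1, hz2, polar_add_left, polar_sub_right, polar_smul_left, polar_smul_right, hub, hu_e,
      hb1.ex, polar_self_sing HP.ee]
  have hz10 : z1 ≠ 0 := fun h => by
    have := congrArg (fun z => polar Q z u') h
    simp [hz1, polar_add_left, polar_smul_left, Hu.ef, hu1'.ex] at this
  have hz2Q : Q z2 = 0 := by
    rw [hz2, show b - l • e = b + (-l) • e by rw [neg_smul, ← sub_eq_add_neg],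
      QuadraticMap.map_add ⇑Q, QuadraticMap.map_smul, HB.ee, HP.ee, polar_smul_right, hb1.xe]
    simp
  have hkey : sg Q e (w : V) * sg Q u b = sg Q z1 z2 := by
    refine G_ext fun v => ?_
    rw [G_mul, sg_apply Hu.ee hub, sg_apply HP.ee hwW.ex, sg_apply hz1Q hz12, hwspan,
      HB.ee, hz2Q, show Q (l • u + k • b) = 0 by
        rw [QuadraticMap.map_add ⇑Q, QuadraticMap.map_smul, QuadraticMap.map_smul, Hu.ee, HB.ee,
          polar_smul_left, polar_smul_right, hub]; simp]
    simp only [hz1, hz2, polar_add_left, polar_sub_left, polar_add_right, polar_sub_right,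
      polar_smul_left, polar_smul_right, hu1.xe, hb1.xe, hu1.ex, hb1.ex, polar_comm Q b u, hub,
      polar_self_sing Hu.ee, polar_self_sing HB.ee, smul_eq_mul]
    module
  have h1 := hfree z1 hz10 hz1Q z2 hz12 (hkey ▸ hφ b hb1 hub)
  have h2 := congrArg (fun g : G Q => polar Q (g.1.1 u') b') h1
  simp only [sg_apply hz1Q hz12, G_one, hz2Q] at h2
  simp [hz1, hz2, polar_add_left, polar_sub_left, polar_smul_left,
    polar_add_right, polar_sub_right, polar_smul_right, G_one, Hu.fe, hu1'.xe, HB.ef, hb1'.ex,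
    hb2'.ex, hb2.fx] at h2

end Cfsg.Agent.Lib.MinIndexO
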