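import Cfsg.Agent.Lib.MinIndexO.Exclude

/-!
Eight dimensions of plus type over two elements: a fixed-point-free element centralising a
reflection product forces a root element to fix a point.
-/

set_option autoImplicit false

namespace Cfsg.Agent.Lib.MinIndexO

open QuadraticMap hiding proj
open Cfsg.Agent.Lib.Classical.Quad Cfsg.Agent.Lib.Classical.QuadOmega
open Cfsg.Agent.Lib.AutOmegaOdd (G G_ext G_mul G_one G_inv G_inv' G_Q G_B sg sg_apply sg_add sg_zero
  sg_self sg_neg sg_smul sg_conj sg_fix sg_fix_self sg_swap Fr InW proj proj_mem decomp B_proj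
  sg_e_fix sg_e_f sg_e_inj)

universe u v w

attribute [local instance] _root_.Classical.propDecidable

variable {F : Type u} [Field F] [Fintype F] {V : Type v} [AddCommGroup V] [Module F V] [Fintype V]
  {Q : QuadraticForm F V} {e f a b c d p p' : V}
variable {Ω : Type w} [MulAction (G Q) Ω]

/-- An action regular on all radicals does not exist on four mutually orthogonal pairs. -/
theorem exclude_four (hG : Good Q) (h2 : (2 : F) = 0) (HP : Fr Q e f) (H1 : Fr Q a b)
    (H2 : Fr Q c d) (H3 : Fr Q p p') (ha : InW Q e f a) (hb : InW Q e f b) (hc : InW Q e f c)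
    (hd : InW Q e f d) (hp : InW Q e f p) (hp' : InW Q e f p')
    (hac : InW Q c d a) (hbc : InW Q c d b) (hap : InW Q p p' a) (hbp : InW Q p p' b)
    (hcp : InW Q p p' c) (hdp : InW Q p p' d)
    (hspan : ∀ x, InW Q e f x → InW Q a b x → InW Q c d x → InW Q p p' x → x = 0)
    (ω : Ω) (hfree : ∀ (y : Ω) (x : V), x ≠ 0 → Q x = 0 → Free Q y x)
    (htr : ∀ y : Ω, ∃ s : WQ Q e f, sg Q e (s : V) • ω = y) : False := by
  have hself : ∀ x : V, polar Q x x = 0 := fun x => by
    rw [polar_self, two_nsmul, ← two_mul, h2, zero_mul]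
  have hdbl : ∀ x : V, x + x = 0 := fun x => by rw [← two_smul F x, h2, zero_smul]
  have hba : polar Q b a = 1 := by rw [polar_comm, H1.ef]
  have hdc : polar Q d c = 1 := by rw [polar_comm, H2.ef]
  have hpp : polar Q p' p = 1 := by rw [polar_comm, H3.ef]
  have hab := H1.ef
  have hcd := H2.ef
  have hpq := H3.ef
  obtain ⟨hac1, had1⟩ := hac
  obtain ⟨hbc1, hbd1⟩ := hbc
  obtain ⟨hap1, hap2⟩ := hap
  obtain ⟨hbp1, hbp2⟩ := hbp
  obtain ⟨hcp1, hcp2⟩ := hcp
  obtain ⟨hdp1, hdp2⟩ := hdp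
  have hca : polar Q c a = 0 := by rw [polar_comm]; exact hac1
  have hda : polar Q d a = 0 := by rw [polar_comm]; exact had1
  have hcb : polar Q c b = 0 := by rw [polar_comm]; exact hbc1
  have hdb : polar Q d b = 0 := by rw [polar_comm]; exact hbd1
  have hpa : polar Q p a = 0 := by rw [polar_comm]; exact hap1
  have hqa : polar Q p' a = 0 := by rw [polar_comm]; exact hap2
  have hpb : polar Q p b = 0 := by rw [polar_comm]; exact hbp1
  have hqb : polar Q p' b = 0 := by rw [polar_comm]; exact hbp2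
  have hpc : polar Q p c = 0 := by rw [polar_comm]; exact hcp1
  have hqc : polar Q p' c = 0 := by rw [polar_comm]; exact hcp2
  have hpd : polar Q p d = 0 := by rw [polar_comm]; exact hdp1
  have hqd : polar Q p' d = 0 := by rw [polar_comm]; exact hdp2
  set v1 := a + b with hv1
  set v2 := b + c + d with hv2
  set n1 := a + b + c with hn1
  set n2 := c + d with hn2
  have hQ1 : Q v1 = 1 := by
    simp [hv1, QuadraticMap.map_add ⇑Q, H1.ee, H1.ff, hab]
  have hQ2 : Q v2 = 1 := by
    simp [hv2, QuadraticMap.map_add ⇑Q, H1.ff, H2.ee, H2.ff, hcd, polar_add_left, hbc1, hbd1]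
  have hQn1 : Q n1 = 1 := by
    simp [hn1, QuadraticMap.map_add ⇑Q, H1.ee, H1.ff, H2.ee, hab, polar_add_left, hac1, hbc1]
  have hQn2 : Q n2 = 1 := by
    simp [hn2, QuadraticMap.map_add ⇑Q, H2.ee, H2.ff, hcd]
  have hW1 : InW Q e f v1 := ha.add hb
  have hW2 : InW Q e f v2 := (hb.add hc).add hd
  have hWn1 : InW Q e f n1 := (ha.add hb).add hc
  have hWn2 : InW Q e f n2 := hc.add hd
  have h10 : Q v1 ≠ 0 := by rw [hQ1]; exact one_ne_zero
  have h20 : Q v2 ≠ 0 := by rw [hQ2]; exact one_ne_zero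
  have hpn : polar Q p n1 = 0 := by simp [hn1, polar_add_right, hpa, hpb, hpc]
  have hqn : polar Q p' n2 = 0 := by simp [hn2, polar_add_right, hqc, hqd]
  set r : G Q := ⟨refl Q v1 * refl Q v2, refl_mul_mem hG HP h10 (hQ1.trans hQ2.symm)⟩ with hr
  set s := sg Q p n1 with hs
  set t := sg Q p' n2 with ht
  set h := r * s * t with hh
  have hrapp : ∀ x, r.1.1 x = (refl Q v1).1 ((refl Q v2).1 x) := fun x => rfl
  have hrfix : ∀ x, polar Q x v1 = 0 → polar Q x v2 = 0 → r.1.1 x = x := fun x h1 h2' => by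
    rw [hrapp, refl_apply_perp h20 h2', refl_apply_perp h10 h1]
  have happ : ∀ x, h.1.1 x = r.1.1 (s.1.1 (t.1.1 x)) := fun x => by
    rw [hh, G_mul, G_mul]
  -- the element on `W`
  have hinj : ∀ x, InW Q e f x → h.1.1 x = x → x = 0 := by
    intro x hx hfx
    have hpol : ∀ z, polar Q (h.1.1 x) z = polar Q x z := fun z => by rw [hfx]
    have ea := hpol a
    have eb := hpol b
    have ec := hpol c
    have ed := hpol d
    have ep := hpol p
    have eq := hpol p'
    rw [happ, hrapp, ht, sg_apply H3.ff hqn, hs, sg_apply H3.ee hpn, refl_apply h20, refl_apply h10]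
      at ea eb ec ed ep eq
    simp only [hQ1, hQ2, hQn1, hQn2, hn1, hn2, hv1, hv2, div_one, one_mul, polar_add_left,
      polar_add_right, polar_sub_left, polar_sub_right, polar_smul_left, polar_smul_right, hself,
      hab, hba, hcd, hdc, hpq, hpp, hac1, had1, hbc1, hbd1, hap1, hap2, hbp1, hbp2, hcp1, hcp2,
      hdp1, hdp2, hca, hda, hcb, hdb, hpa, hqa, hpb, hqb, hpc, hqc, hpd, hqd, smul_eq_mul,
      mul_zero, mul_one, add_zero, zero_add, sub_zero, zero_sub] at ea eb ec ed ep eq
    refine hspan x hx ?_ ?_ ?_ <;> refine ⟨?_, ?_⟩ <;> grobner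
  have hse : ∀ {x}, polar Q x v1 = 0 → polar Q x v2 = 0 → polar Q x p = 0 → polar Q x p' = 0 →
      polar Q x n1 = 0 → polar Q x n2 = 0 → h.1.1 x = x := by
    intro x h1 h2' h3 h4 h5 h6
    rw [happ, ht, sg_fix H3.ff hqn h4 h6, hs, sg_fix H3.ee hpn h3 h5, hrfix x h1 h2']
  have hhe : h.1.1 e = e := hse hW1.ex hW2.ex hp.ex hp'.ex hWn1.ex hWn2.ex
  have hhf : h.1.1 f = f := hse hW1.fx hW2.fx hp.fx hp'.fx hWn1.fx hWn2.fx
  have hhW : ∀ x : WQ Q e f, InW Q e f (h.1.1 (x : V)) := fun x =>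
    ⟨(congrArg (polar Q _) hhe).symm.trans ((G_B h _ _).trans (mem_WQ.1 x.2).xe),
      (congrArg (polar Q _) hhf).symm.trans ((G_B h _ _).trans (mem_WQ.1 x.2).xf)⟩
  have hconj : ∀ x : WQ Q e f, h * sg Q e (x : V) = sg Q e (h.1.1 (x : V)) * h := by
    intro x
    rw [← mul_inv_eq_iff_eq_mul, sg_conj HP.ee (mem_WQ.1 x.2).ex, hhe]
  set T : WQ Q e f → WQ Q e f := fun x => ⟨h.1.1 (x : V) - x, (hhW x).sub x.2⟩
  have hT : Function.Injective T := by
    intro x y hxy
    have h1 := congrArg (fun z : WQ Q e f => (z : V)) hxy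
    simp only [T] at h1
    refine Subtype.ext (sub_eq_zero.1 (hinj _ ((mem_WQ.1 x.2).sub (mem_WQ.1 y.2)) ?_))
    rw [map_sub]
    linear_combination (norm := module) h1
  obtain ⟨s0, hs0⟩ := htr (h • ω)
  obtain ⟨x0, hx0⟩ := (Finite.injective_iff_surjective.1 hT) (-s0)
  set ω' := sg Q e (x0 : V) • ω with hω'
  have hfix : h • ω' = ω' := by
    rw [hω', ← mul_smul, hconj, mul_smul, ← hs0, ← mul_smul,
      ← sg_add HP.ee (hhW x0).ex (mem_WQ.1 s0.2).ex]
    congr 2
    have := congrArg (fun z : WQ Q e f => (z : V)) hx0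
    simp only [T, Submodule.coe_neg] at this
    linear_combination (norm := module) this
  have huniq : ∀ z, h • z = z → z = ω' := by
    intro z hz
    obtain ⟨r0, rfl⟩ := htr z
    set y : WQ Q e f := r0 - x0
    have hy : sg Q e (y : V) • ω' = sg Q e (r0 : V) • ω := by
      rw [hω', ← mul_smul, ← sg_add HP.ee (mem_WQ.1 y.2).ex (mem_WQ.1 x0.2).ex]
      simp [y]
    rw [← hy, ← mul_smul, hconj, mul_smul, hfix] at hz
    have hy0 : T y = 0 := by
      refine (free_iff HP ω').1 (hfree ω' e HP.e_ne HP.ee) (T y) ?_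
      show sg Q e (h.1.1 (y : V) - y) • ω' = ω'
      rw [sub_eq_add_neg, add_comm,
        sg_add HP.ee (by rw [polar_neg_right, (mem_WQ.1 y.2).ex, neg_zero]) (hhW y).ex, mul_smul,
        sg_neg HP.ee (mem_WQ.1 y.2).ex, inv_smul_eq_iff]
      exact hz
    have hy1 : y = 0 := hT (hy0.trans (Subtype.ext (by simp [T])))
    rw [sub_eq_zero.1 hy1, hω']
  -- commutation
  have hperp : ∀ {x u : V} (hx : Q x = 0) (hxu : polar Q x u = 0), polar Q x v1 = 0 →
      polar Q x v2 = 0 → polar Q u v1 = 0 → polar Q u v2 = 0 → r * sg Q x u = sg Q x u * r := by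
    intro x u hx hxu h1 h2' h3 h4
    rw [← mul_inv_eq_iff_eq_mul, sg_conj hx hxu, hrfix x h1 h2', hrfix u h3 h4]
  have hrs : r * s = s * r := hperp H3.ee hpn (by simp [hv1, polar_add_right, hpa, hpb])
    (by simp [hv2, polar_add_right, hpb, hpc, hpd])
    (by simp [hn1, hv1, polar_add_left, polar_add_right, hself, hab, hba, hca, hcb]; linear_combination h2)
    (by simp [hn1, hv2, polar_add_left, polar_add_right, hself, hab, hac1, had1, hbc1, hbd1, hcb, hcd]
        linear_combination h2)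
  have hrt : r * t = t * r := hperp H3.ff hqn (by simp [hv1, polar_add_right, hqa, hqb])
    (by simp [hv2, polar_add_right, hqb, hqc, hqd])
    (by simp [hn2, hv1, polar_add_left, polar_add_right, hca, hcb, hda, hdb])
    (by simp [hn2, hv2, polar_add_left, polar_add_right, hself, hcb, hdb, hcd, hdc]
        linear_combination h2)
  have hrh : r * h = h * r := by
    rw [hh, mul_assoc r s t, mul_assoc r (s * t) r, mul_assoc s t r, ← hrt, ← mul_assoc s r t,
      ← hrs, mul_assoc r s t]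
  have hrω : r • ω' = ω' := huniq _ (by rw [← mul_smul, ← hrh, mul_smul, hfix])
  have hst : (s * t) • ω' = ω' := by
    have h1 : r • ((s * t) • ω') = r • ω' := by rw [hrω, ← mul_smul, ← mul_assoc, ← hh, hfix]
    exact (MulAction.injective r) h1
  have hss : s * s = 1 := by rw [hs, ← sg_add H3.ee hpn hpn, hdbl, sg_zero H3.ee]
  have htt : t * t = 1 := by rw [ht, ← sg_add H3.ff hqn hqn, hdbl, sg_zero H3.ff]
  have hts : (t * s) • ω' = ω' := by
    have h1 : t * s = (s * t)⁻¹ := by
      rw [mul_inv_rev, inv_eq_of_mul_eq_one_left htt, inv_eq_of_mul_eq_one_left hss]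
    rw [h1, inv_smul_eq_iff, hst]
  have hsω : s • ω' = ω' := huniq _ (by
    rw [← mul_smul, hh, mul_assoc (r * s) t s, mul_smul, hts, hrs, mul_smul, hrω])
  have hone := hfree ω' p H3.e_ne H3.ee n1 hpn hsω
  have h5 := congrArg (fun g : G Q => polar Q (g.1.1 p') b) hone
  simp only [sg_apply H3.ee hpn, G_one] at h5
  simp [hn1, hpp, polar_add_left, polar_sub_left, polar_add_right, hqa, hqb,
    hqc, hpb, hab, hcb, hself, polar_smul_left] at h5

end Cfsg.Agent.Lib.MinIndexO
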