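import Cfsg.Agent.Lib.MinIndexO.Exclude

/-!
Over three elements an element of order four fixes a point together with a root element.
-/

set_option autoImplicit false

namespace Cfsg.Agent.Lib.MinIndexO

open QuadraticMap hiding proj
open Cfsg.Agent.Lib.Classical.Quad Cfsg.Agent.Lib.Classical.QuadOmega
open Cfsg.Agent.Lib.AutOmegaOdd (G G_ext G_mul G_one G_inv G_inv' G_Q G_B sg sg_apply sg_add sg_zero
  sg_self sg_neg sg_smul sg_conj sg_fix sg_fix_self sg_swap Fr InW proj proj_mem decomp B_proj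
  sg_e_fix sg_e_f sg_e_inj)
open Cfsg.Agent.Lib.AutOmega (W_pair W_partner W_nondeg W_induction)

universe u v w

attribute [local instance] _root_.Classical.propDecidable

variable {F : Type u} [Field F] [Fintype F] {V : Type v} [AddCommGroup V] [Module F V] [Fintype V]
  {Q : QuadraticForm F V} {e f : V}

omit [Fintype V] in
theorem three_zero (hq : Fintype.card F = 3) : (3 : F) = 0 := by
  have := FiniteField.cast_card_eq_zero F
  rw [hq] at this
  exact_mod_cast this

variable {Ω : Type w} [MulAction (G Q) Ω]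

/-- An action in which every radical is regular and transitive does not exist over three elements. -/
theorem exclude_three (hG : Good Q) (hd : 7 ≤ Module.finrank F V) (hq : Fintype.card F = 3)
    (HP : Fr Q e f) (ω : Ω) (hfree : ∀ (y : Ω) (x : V), x ≠ 0 → Q x = 0 → Free Q y x)
    (htr : ∀ y : Ω, ∃ s : WQ Q e f, sg Q e (s : V) • ω = y) : False := by
  have h30 := three_zero hq
  have h20 : (2 : F) ≠ 0 := fun h => one_ne_zero (show (1 : F) = 0 by linear_combination h30 - h)
  obtain ⟨a, b, c, d, ha, hb, hc, hd', hab, hcd, hac, had, hbc, hbd⟩ := (good_QW hG HP hd).two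
  simp only [polar_QW, QW_apply] at ha hb hc hd' hab hcd hac had hbc hbd
  have H1 : Fr Q (a : V) b := ⟨ha, hb, hab⟩
  have H2 : Fr Q (c : V) d := ⟨hc, hd', hcd⟩
  have hca : polar Q (c : V) a = 0 := by rw [polar_comm, hac]
  have hcb : polar Q (c : V) b = 0 := by rw [polar_comm, hbc]
  have hda : polar Q (d : V) a = 0 := by rw [polar_comm, had]
  have hdb : polar Q (d : V) b = 0 := by rw [polar_comm, hbd]
  have pabc : InW Q (a : V) b c := ⟨hca, hcb⟩
  have pabd : InW Q (a : V) b d := ⟨hda, hdb⟩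
  have haa := polar_self_sing ha
  have hbb := polar_self_sing hb
  have hcc := polar_self_sing hc
  have hdd := polar_self_sing hd'
  -- a nonsingular vector orthogonal to both pairs
  obtain ⟨z, hz, hz1, hz2, hz0⟩ : ∃ z, InW Q e f z ∧ InW Q (a : V) b z ∧ InW Q (c : V) d z ∧
      Q z ≠ 0 := by
    set S := Submodule.span F (Set.range ![e, f, (a : V), b, c, d])
    have h1 := finrank_perpS hG.nd S
    have h2 : Module.finrank F S ≤ 6 := (finrank_range_le_card _).trans (by simp)
    obtain ⟨x, hx, hx0⟩ := Submodule.exists_mem_ne_zero_of_ne_bot (p := perpS Q S) fun h => by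
      rw [h, finrank_bot] at h1; omega
    have h := fun i => mem_perpS.1 hx _ (Submodule.subset_span (Set.mem_range_self i))
    have hxD : InD Q e f (a : V) b c d x := ⟨⟨h 0, h 1⟩, ⟨h 2, h 3⟩, ⟨h 4, h 5⟩⟩
    have H : Fr3 Q e f (a : V) b c d := ⟨HP, H1, H2, a.2, b.2, c.2, d.2, pabc, pabd⟩
    obtain ⟨w, hw, hxw⟩ := exists_D_partner hG H hxD hx0
    by_cases hq1 : Q x = 0
    · by_cases hq2 : Q w = 0
      · refine ⟨x + w, hxD.1.add hw.1, hxD.2.1.add hw.2.1, hxD.2.2.add hw.2.2, ?_⟩
        rw [QuadraticMap.map_add ⇑Q, hq1, hq2, hxw]; simp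
      · exact ⟨w, hw.1, hw.2.1, hw.2.2, hq2⟩
    · exact ⟨x, hxD.1, hxD.2.1, hxD.2.2, hq1⟩
  set a3 : V := (a : V) + b with ha3
  set a4 : V := (a : V) + b + c + d with ha4
  have hQ3 : Q a3 = 1 := by rw [ha3, QuadraticMap.map_add ⇑Q, ha, hb, hab]; simp
  have hQ4 : Q a4 = -1 := by
    rw [ha4, QuadraticMap.map_add ⇑Q, QuadraticMap.map_add ⇑Q, QuadraticMap.map_add ⇑Q, ha, hb, hc,
      hd', hab]
    simp [polar_add_left, hac, hbc, had, hbd, hcd]
    linear_combination h30
  have hW3 : InW Q e f a3 := (mem_WQ.1 a.2).add (mem_WQ.1 b.2)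
  have hW4 : InW Q e f a4 :=
    (((mem_WQ.1 a.2).add (mem_WQ.1 b.2)).add (mem_WQ.1 c.2)).add (mem_WQ.1 d.2)
  have hef : polar Q e f ≠ 0 := by rw [HP.ef]; exact one_ne_zero
  obtain ⟨hQp, hrp, hQm, hrm⟩ := refl_swap HP.ee HP.ff hef
  rw [HP.ef] at hQp hQm
  have hp0 : Q (e + f) ≠ 0 := by rw [hQp]; exact one_ne_zero
  have hm0 : Q (e - f) ≠ 0 := by rw [hQm]; exact neg_ne_zero.2 one_ne_zero
  have h30' : Q a3 ≠ 0 := by rw [hQ3]; exact one_ne_zero
  have h40' : Q a4 ≠ 0 := by rw [hQ4]; exact neg_ne_zero.2 one_ne_zero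
  set h : G Q := ⟨(refl Q (e - f) * refl Q a4) * (refl Q (e + f) * refl Q a3),
    mul_mem (refl_mul_mem hG HP hm0 (by rw [hQm, hQ4])) (refl_mul_mem hG HP hp0 (by rw [hQp, hQ3]))⟩
  have happ : ∀ v, h.1.1 v =
      (refl Q (e - f)).1 ((refl Q a4).1 ((refl Q (e + f)).1 ((refl Q a3).1 v))) := fun v => rfl
  have hhe : h.1.1 e = -e := by
    have e1 : (refl Q (e + f)).1 e = -f := by
      have h1 := refl_refl hp0 f
      rw [hrp, map_neg, neg_eq_iff_eq_neg] at h1
      exact h1
    rw [happ, refl_apply_perp h30' hW3.ex, e1, map_neg,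
      refl_apply_perp h40' hW4.fx, map_neg, hrm]
  have hsp : ∀ {x : V}, InW Q e f x → polar Q x (e + f) = 0 ∧ polar Q x (e - f) = 0 := fun hx =>
    ⟨by rw [polar_add_right, hx.xe, hx.xf, add_zero], by rw [polar_sub_right, hx.xe, hx.xf, sub_zero]⟩
  have hgW : ∀ {x : V}, InW Q e f x → h.1.1 x = (refl Q a4).1 ((refl Q a3).1 x) ∧
      InW Q e f (h.1.1 x) := by
    intro x hx
    have h1 : InW Q e f ((refl Q a3).1 x) := by
      rw [refl_apply h30']; exact hx.sub (hW3.smul _)
    have h2 : InW Q e f ((refl Q a4).1 ((refl Q a3).1 x)) := by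
      rw [refl_apply h40']; exact h1.sub (hW4.smul _)
    have heq : h.1.1 x = (refl Q a4).1 ((refl Q a3).1 x) := by
      rw [happ, refl_apply_perp hp0 (hsp h1).1, refl_apply_perp hm0 (hsp h2).2]
    exact ⟨heq, heq ▸ h2⟩
  -- the fixed point
  obtain ⟨s0, hs0⟩ := htr (h • ω)
  have hconj : ∀ s : WQ Q e f, h * sg Q e (s : V) = sg Q e (-(h.1.1 (s : V))) * h := by
    intro s
    rw [← mul_inv_eq_iff_eq_mul, sg_conj HP.ee (mem_WQ.1 s.2).ex, hhe, ← neg_one_smul F e,
      sg_smul HP.ee (hgW (mem_WQ.1 s.2)).2.ex, neg_one_smul]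
  set T : WQ Q e f → WQ Q e f := fun s => ⟨-(h.1.1 (s : V)) - s, (hgW (mem_WQ.1 s.2)).2.neg.sub s.2⟩
  have hT : Function.Injective T := by
    intro s t hst
    have h1 := congrArg (fun z : WQ Q e f => (z : V)) hst
    set x := (s : V) - t
    have hxW : InW Q e f x := (mem_WQ.1 s.2).sub (mem_WQ.1 t.2)
    have h2 : h.1.1 x = -x := by
      simp only [T] at h1
      simp only [x, map_sub]
      linear_combination (norm := module) -h1
    rw [(hgW hxW).1, refl_apply h40', refl_apply h30', hQ3, hQ4] at h2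
    simp only [polar_sub_left, polar_smul_left, smul_eq_mul, div_one] at h2
    set α := polar Q x a3
    set β := polar Q x a4
    have h34 : polar Q a3 a4 = -1 := by
      rw [show a4 = a3 + ((c : V) + d) by rw [ha4, ha3]; abel, polar_add_right, polar_self, hQ3,
        show polar Q a3 ((c : V) + d) = 0 by
          simp [ha3, polar_add_left, polar_add_right, hac, had, hbc, hbd]]
      simp; linear_combination h30
    rw [h34] at h2
    have hx2 : x = (-α) • a3 + (-((β + α) / -1)) • (-1 : F) • (-a4) := by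
      have : (2 : F) • x = α • a3 + ((β + α) / -1) • a4 := by
        linear_combination (norm := module) h2
      have h2' : x = (-1 : F) • ((2 : F) • x) := by
        rw [smul_smul, show (-1 : F) * 2 = 1 by linear_combination (-1 : F) * h30, one_smul]
      rw [h2', this]; module
    have ha : α = 0 ∧ β = 0 := by
      have k3 : polar Q x a3 = α := rfl
      have k4 : polar Q x a4 = β := rfl
      have h33 : polar Q a3 a3 = -1 := by
        rw [polar_self, hQ3]; simp; linear_combination h30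
      have h44 : polar Q a4 a4 = 1 := by
        rw [polar_self, hQ4]; simp; linear_combination (-1 : F) * h30
      have h43 : polar Q a4 a3 = -1 := by rw [polar_comm, h34]
      rw [hx2] at k3 k4
      simp only [polar_add_left, polar_smul_left, polar_neg_left, h33, h34, h43, h44,
        smul_eq_mul] at k3 k4
      field_simp at k3 k4
      have hb0 : β = 0 ∨ β ≠ 0 := em _
      constructor <;> grobner
    obtain ⟨hα, hβ⟩ := ha
    rw [hα, hβ] at hx2
    simp at hx2
    exact Subtype.ext (sub_eq_zero.1 hx2)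
  obtain ⟨s, hs⟩ := (Finite.injective_iff_surjective.1 hT) (-s0)
  have hfix : h • (sg Q e (s : V) • ω) = sg Q e (s : V) • ω := by
    have hes : polar Q e (-(h.1.1 (s : V))) = 0 := by
      rw [polar_neg_right, (hgW (mem_WQ.1 s.2)).2.ex, neg_zero]
    rw [← mul_smul, hconj, mul_smul, ← hs0, ← mul_smul, ← sg_add HP.ee hes (mem_WQ.1 s0.2).ex]
    congr 2
    have := congrArg (fun z : WQ Q e f => (z : V)) hs
    simp only [T, Submodule.coe_neg] at this
    linear_combination (norm := module) this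
  set ω' := sg Q e (s : V) • ω
  -- a root element commuting with it
  obtain ⟨u, y, hu, hy, hQu, huy, hu3, hu4, hy3, hy4, hu0, hsep⟩ : ∃ u y, InW Q e f u ∧
      InW Q e f y ∧ Q u = 0 ∧ polar Q u y = 0 ∧ polar Q u a3 = 0 ∧ polar Q u a4 = 0 ∧
      polar Q y a3 = 0 ∧ polar Q y a4 = 0 ∧ u ≠ 0 ∧ ∀ k : F, y ≠ k • u := by
    have hQz : Q z = 1 ∨ Q z = -1 := by
      have h1 := FiniteField.pow_card_sub_one_eq_one (Q z) hz0
      rw [hq] at h1
      exact sq_eq_one_iff.1 h1
    have hzz : polar Q z z = 2 * Q z := by rw [polar_self]; simp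
    rcases hQz with h1 | h1
    · refine ⟨(a : V) - b + z, (c : V) - d, ((mem_WQ.1 a.2).sub (mem_WQ.1 b.2)).add hz,
        (mem_WQ.1 c.2).sub (mem_WQ.1 d.2), ?_, ?_, ?_, ?_, ?_, ?_, ?_, fun k hk => ?_⟩
      · simp [sub_eq_add_neg, QuadraticMap.map_add ⇑Q, QuadraticMap.map_neg, polar_neg_left,
          polar_neg_right, polar_add_left, ha, hb, hab, h1, hz1.ex, hz1.fx]
      · simp [polar_add_left, polar_sub_left, polar_sub_right, hac, had, hbc, hbd, hz2.xe, hz2.xf]
      · simp [ha3, polar_add_left, polar_sub_left, polar_add_right, hab, polar_comm Q (b : V) a,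
          haa, hbb, hz1.xe, hz1.xf]
      · simp [ha4, polar_add_left, polar_sub_left, polar_add_right, hab, polar_comm Q (b : V) a,
          haa, hbb, hz1.xe, hz1.xf, hz2.xe, hz2.xf, hac, had, hbc, hbd]
      · simp [ha3, polar_sub_left, polar_add_right, hca, hcb, hda, hdb]
      · simp [ha4, polar_sub_left, polar_add_right, hca, hcb, hda, hdb, hcd,
          polar_comm Q (d : V) c, hcc, hdd]
      · intro h0
        have := congrArg (fun v => polar Q v (a : V)) h0
        simp [polar_add_left, polar_sub_left, haa, polar_comm Q (b : V) a, hab, hz1.xe] at this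
      · have := congrArg (fun v => polar Q v (c : V)) hk
        simp [polar_add_left, polar_sub_left, polar_smul_left, hcc, polar_comm Q (d : V) c, hcd, hac,
          hbc, hz2.xe] at this
    · refine ⟨(a : V) - b + ((c : V) - d) + z, (a : V) - b - ((c : V) - d),
        (((mem_WQ.1 a.2).sub (mem_WQ.1 b.2)).add ((mem_WQ.1 c.2).sub (mem_WQ.1 d.2))).add hz,
        ((mem_WQ.1 a.2).sub (mem_WQ.1 b.2)).sub ((mem_WQ.1 c.2).sub (mem_WQ.1 d.2)),
        ?_, ?_, ?_, ?_, ?_, ?_, ?_, fun k hk => ?_⟩
      · simp [sub_eq_add_neg, QuadraticMap.map_add ⇑Q, QuadraticMap.map_neg, polar_neg_left,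
          polar_neg_right, polar_add_left, polar_add_right, ha, hb, hc, hd', hab, hcd, hac, had,
          hbc, hbd, h1, hz1.ex, hz1.fx, hz2.ex, hz2.fx]
        linear_combination (-1 : F) * h30
      · simp [polar_add_left, polar_sub_left, polar_sub_right, haa, hbb, hcc, hdd, hab, hcd,
          polar_comm Q (b : V) a, polar_comm Q (d : V) c, hac, had, hbc, hbd, hca, hcb, hda, hdb,
          hz1.xe, hz1.xf, hz2.xe, hz2.xf]
      · simp [ha3, polar_add_left, polar_sub_left, polar_add_right, hab, polar_comm Q (b : V) a,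
          haa, hbb, hz1.xe, hz1.xf, hca, hcb, hda, hdb]
      · simp [ha4, polar_add_left, polar_sub_left, polar_add_right, hab, polar_comm Q (b : V) a,
          haa, hbb, hz1.xe, hz1.xf, hz2.xe, hz2.xf, hac, had, hbc, hbd, hca, hcb, hda, hdb, hcd,
          polar_comm Q (d : V) c, hcc, hdd]
      · simp [ha3, polar_sub_left, polar_add_right, hca, hcb, hda, hdb, hab, polar_comm Q (b : V) a,
          haa, hbb]
      · simp [ha4, polar_sub_left, polar_add_right, hca, hcb, hda, hdb, hcd, hab, hac, had, hbc, hbd,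
          polar_comm Q (b : V) a, polar_comm Q (d : V) c, haa, hbb, hcc, hdd]
      · intro h0
        have := congrArg (fun v => polar Q v (a : V)) h0
        simp [polar_add_left, polar_sub_left, haa, polar_comm Q (b : V) a, hab, hca, hda, hz1.xe] at this
      · have h5 := congrArg (fun v => polar Q v z) hk
        simp [polar_add_left, polar_sub_left, polar_smul_left, hz1.ex, hz1.fx, hz2.ex, hz2.fx,
          hzz, h1, h20] at h5
        have := congrArg (fun v => polar Q v (a : V)) hk
        simp [h5, polar_sub_left, haa, polar_comm Q (b : V) a, hab, hca, hda] at this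
  set t := sg Q u y
  have hperp : ∀ {x : V}, InW Q e f x → polar Q x a3 = 0 → polar Q x a4 = 0 → h.1.1 x = x := by
    intro x hx h1 h2
    rw [(hgW hx).1, refl_apply_perp h30' h1, refl_apply_perp h40' h2]
  have hcomm : h * t = t * h := by
    rw [← mul_inv_eq_iff_eq_mul, sg_conj hQu huy, hperp hu hu3 hu4, hperp hy hy3 hy4]
  obtain ⟨r0, hr0⟩ := htr (t • ω')
  set r : WQ Q e f := r0 - s
  have hr : sg Q e (r : V) • ω' = t • ω' := by
    rw [← hr0, ← mul_smul, ← sg_add HP.ee (mem_WQ.1 r.2).ex (mem_WQ.1 s.2).ex]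
    simp [r]
  have hrfix : h • (sg Q e (r : V) • ω') = sg Q e (r : V) • ω' := by
    rw [hr, ← mul_smul, hcomm, mul_smul, hfix]
  rw [← mul_smul, hconj, mul_smul, hfix] at hrfix
  have hr1 : T r = 0 := by
    refine (free_iff HP ω').1 (hfree ω' e HP.e_ne HP.ee) (T r) ?_
    show sg Q e (-(h.1.1 (r : V)) - r) • ω' = ω'
    rw [sub_eq_add_neg, add_comm, sg_add HP.ee (by rw [polar_neg_right, (mem_WQ.1 r.2).ex, neg_zero])
      (by rw [polar_neg_right, (hgW (mem_WQ.1 r.2)).2.ex, neg_zero]), mul_smul,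
      sg_neg HP.ee (mem_WQ.1 r.2).ex, inv_smul_eq_iff]
    exact hrfix
  have hr2 : r = 0 := hT (hr1.trans (Subtype.ext (by simp [T])))
  rw [hr2, Submodule.coe_zero, sg_zero HP.ee, one_smul] at hr
  have h1 := hfree ω' u hu0 hQu y huy hr.symm
  obtain ⟨v, -, Huv⟩ := W_partner hG HP hu hQu hu0
  have h2 := congrArg (fun g : G Q => g.1.1 v) h1
  simp only [sg_apply hQu huy, G_one, polar_comm Q v u, Huv.ef, one_smul, mul_one] at h2
  refine hsep (polar Q v y + Q y) ?_
  linear_combination (norm := module) h2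

end Cfsg.Agent.Lib.MinIndexO
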