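import Cfsg.Agent.Lib.MinIndexO.Regular

/-!
The minimal index of a proper subgroup.
-/

set_option autoImplicit false

namespace Cfsg.Agent.Lib.MinIndexO

open QuadraticMap hiding proj
open Cfsg.Agent.Lib.Classical.Quad Cfsg.Agent.Lib.Classical.QuadOmega
open Cfsg.Agent.Lib.AutOmegaOdd (G G_ext G_mul G_one G_inv G_inv' G_Q G_B sg sg_apply sg_add sg_zero
  sg_self sg_neg sg_smul sg_conj sg_fix sg_fix_self sg_swap Fr InW proj proj_mem decomp B_proj
  sg_e_fix sg_e_f sg_e_inj)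

universe u v w

attribute [local instance] _root_.Classical.propDecidable

variable {F : Type u} [Field F] [Fintype F] {V : Type v} [AddCommGroup V] [Module F V] [Fintype V]
  {Q : QuadraticForm F V}

theorem smallT_of {Ω : Type w} [MulAction (G Q) Ω] {e f : V} {HP : Fr Q e f} {ω : Ω}
    (hT2 : TSing Q (Tsp HP ω) → 2 * Module.finrank F (Tsp HP ω) + 2 < Module.finrank F V)
    (h : ∀ v ∈ AnnW HP ω, Q (v : V) ≠ 0 → ∀ y ∈ AnnW HP ω,
      (y : V) ∈ Submodule.span F ({(v : V)} : Set V)) : SmallT HP ω := by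
  by_cases hns : ∀ v ∈ AnnW HP ω, Q (v : V) = 0
  · have hpol : ∀ x ∈ AnnW HP ω, ∀ y ∈ AnnW HP ω, polar Q (x : V) y = 0 := fun x hx y hy => by
      rw [polar, ← Submodule.coe_add, hns _ (add_mem_AnnW hx hy), hns x hx, hns y hy]; simp
    have key : ∀ z ∈ Tsp HP ω, ∀ a ∈ AnnW HP ω, polar Q z (a : V) = 0 := by
      intro z hz a ha
      induction hz using Submodule.span_induction with
      | mem x hx => obtain ⟨x, hx', rfl⟩ := hx; exact hpol x hx' a ha
      | zero => exact polar_zero_left Q _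
      | add x y _ _ hx hy => rw [polar_add_left, hx, hy, add_zero]
      | smul c x _ hx => rw [polar_smul_left, hx, smul_zero]
    have key2 : ∀ z ∈ Tsp HP ω, ∀ y ∈ Tsp HP ω, polar Q z y = 0 := by
      intro z hz y hy
      induction hy using Submodule.span_induction with
      | mem x hx => obtain ⟨x, hx', rfl⟩ := hx; exact key z hz x hx'
      | zero => exact polar_zero_right Q _
      | add x y _ _ hx hy => rw [polar_add_right, hx, hy, add_zero]
      | smul c x _ hx => rw [polar_smul_right, hx, smul_zero]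
    have key3 : TSing Q (Tsp HP ω) := fun z hz => ?_
    · exact Or.inl ⟨key3, hT2 key3⟩
    induction hz using Submodule.span_induction with
    | mem x hx => obtain ⟨x, hx', rfl⟩ := hx; exact hns x hx'
    | zero => exact map_zero Q
    | add x y hx hy hx' hy' =>
      rw [QuadraticMap.map_add ⇑Q, hx', hy', key2 x hx y hy]; simp
    | smul c x _ hx' => rw [QuadraticMap.map_smul, hx', smul_zero]
  · push Not at hns
    obtain ⟨v, hv, hv0⟩ := hns
    refine Or.inr ⟨(v : V), v.2, hv0, le_antisymm (Submodule.span_le.2 ?_) (Submodule.span_le.2 ?_)⟩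
    · rintro _ ⟨y, hy, rfl⟩
      exact h v hv hv0 y hy
    · rw [Set.singleton_subset_iff]
      exact Submodule.subset_span ⟨v, hv, rfl⟩

/-- Numerical inequality for translates. -/
theorem num_proper {q L X Z K p M C n : ℕ} (hq : 4 ≤ q) (hn : q * (q ^ 2 - 1) * Z = n)
    (hnum : q ^ 4 + q ^ 2 ≤ p * K * ((q - 1) * (q ^ 2 - 1)) + q)
    (hL : L + 1 + q * Z ≤ (q ^ 3 + q ^ 2) * Z) (hX : X = q ^ 4 * Z)
    (hC : K * n ≤ C) (hM : p * C ≤ M) : L + (q - 1) * (L + 1 + X) ≤ (q - 1) * M := by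
  subst hn hX
  obtain ⟨j, rfl⟩ : ∃ j, q = j + 4 := ⟨q - 4, by omega⟩
  obtain ⟨r, hr⟩ : ∃ r, (j + 4) ^ 2 - 1 = r := ⟨_, rfl⟩
  rw [hr] at hnum hC
  rw [show j + 4 - 1 = j + 3 by omega] at hnum ⊢
  nlinarith [Nat.mul_le_mul_left ((j + 3) * p) hC, Nat.mul_le_mul_left (j + 3) hM,
    Nat.mul_le_mul_left (j + 4) hL, Nat.mul_le_mul_left ((j + 4) * Z) hnum]

/-- The bound for a transitive action, given the bound for large totally singular annihilators. -/
theorem min_degree_of_mts (hG : Good Q) (hd : 7 ≤ Module.finrank F V) (h4 : 4 ≤ Fintype.card F)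
    (p K : ℕ) [Fact p.Prime] [CharP F p] (hK : ∀ c : F, c ≠ 0 → K ≤ (sqSet c).card)
    (hnum : Fintype.card F ^ 4 + Fintype.card F ^ 2 ≤
      p * K * ((Fintype.card F - 1) * (Fintype.card F ^ 2 - 1)) + Fintype.card F)
    {Ω : Type w} [Fintype Ω] [MulAction (G Q) Ω] [MulAction.IsPretransitive (G Q) Ω] [Nontrivial Ω]
    (hmts : ∀ (e f : V) (HP : Fr Q e f) (ω : Ω), TSing Q (Tsp HP ω) →
      Module.finrank F V ≤ 2 * Module.finrank F (Tsp HP ω) + 2 →
      (singP Q fun _ => True).card ≤ (Fintype.card F - 1) * Fintype.card Ω) :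
    (singP Q fun _ => True).card ≤ (Fintype.card F - 1) * Fintype.card Ω := by
  by_cases h1 : ∃ (e f : V) (HP : Fr Q e f) (ω : Ω), AnnW HP ω = Finset.univ
  · obtain ⟨e, f, HP, ω, h⟩ := h1
    exact regular_bound hG hd h4 HP (free_of_AnnW hG HP h)
  push Not at h1
  by_cases h2 : ∃ (e f : V) (HP : Fr Q e f) (ω : Ω), ∃ v ∈ AnnW HP ω, Q ((v : WQ Q e f) : V) ≠ 0 ∧
      ∃ y ∈ AnnW HP ω, ((y : WQ Q e f) : V) ∉ Submodule.span F ({(v : V)} : Set V)
  · obtain ⟨e, f, HP, ω, v, hv, hv0, y, hy, hyv⟩ := h2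
    obtain ⟨c, hc, hM⟩ := proper_bound hG HP hd p hv hv0 hy hyv (h1 e f HP ω)
    obtain ⟨Z, -, hX, hL, -, -, hlow, -⟩ := numbers hG HP hd
    rw [card_sing HP]
    exact num_proper h4 rfl hnum hL hX
      ((Nat.mul_le_mul_right _ (hK c hc)).trans (card_cls hlow)) hM
  push Not at h2
  by_cases h3 : ∃ (e f : V) (HP : Fr Q e f) (ω : Ω), TSing Q (Tsp HP ω) ∧
      Module.finrank F V ≤ 2 * Module.finrank F (Tsp HP ω) + 2
  · obtain ⟨e, f, HP, ω, h, h'⟩ := h3
    exact hmts e f HP ω h h'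
  push Not at h3
  exfalso
  obtain ⟨a, b, hab⟩ := exists_pair_ne Ω
  obtain ⟨g, hg⟩ := MulAction.exists_smul_eq (G Q) a b
  exact hab (((trivial_of_small hG hd
    (fun e f HP => smallT_of (h3 e f HP a) fun v hv hv0 y hy =>
      h2 e f HP a v hv hv0 y hy) g).symm).trans hg)

/-- The bound for a transitive action. -/
theorem min_degree (hG : Good Q) (hd : 7 ≤ Module.finrank F V) (h4 : 4 ≤ Fintype.card F)
    (hhalf : ∀ (e f : V), Fr Q e f → ∀ S : Submodule F V, S ≤ WQ Q e f → TSing Q S →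
      2 * Module.finrank F S + 2 < Module.finrank F V)
    (p K : ℕ) [Fact p.Prime] [CharP F p] (hK : ∀ c : F, c ≠ 0 → K ≤ (sqSet c).card)
    (hnum : Fintype.card F ^ 4 + Fintype.card F ^ 2 ≤
      p * K * ((Fintype.card F - 1) * (Fintype.card F ^ 2 - 1)) + Fintype.card F)
    {Ω : Type w} [Fintype Ω] [MulAction (G Q) Ω] [MulAction.IsPretransitive (G Q) Ω] [Nontrivial Ω] :
    (singP Q fun _ => True).card ≤ (Fintype.card F - 1) * Fintype.card Ω :=
  min_degree_of_mts hG hd h4 p K hK hnum fun e f HP ω h h' =>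
    absurd (hhalf e f HP _ (Tsp_le HP ω) h) (by omega)

/-- The bound for a subgroup of a quotient. -/
theorem index_bound (hG : Good Q) (hd : 7 ≤ Module.finrank F V) (h4 : 4 ≤ Fintype.card F)
    (hhalf : ∀ (e f : V), Fr Q e f → ∀ S : Submodule F V, S ≤ WQ Q e f → TSing Q S →
      2 * Module.finrank F S + 2 < Module.finrank F V)
    (p K : ℕ) [Fact p.Prime] [CharP F p] (hK : ∀ c : F, c ≠ 0 → K ≤ (sqSet c).card)
    (hnum : Fintype.card F ^ 4 + Fintype.card F ^ 2 ≤
      p * K * ((Fintype.card F - 1) * (Fintype.card F ^ 2 - 1)) + Fintype.card F)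
    {P : Type w} [Group P] (π : G Q →* P) (hπ : Function.Surjective π) {H : Subgroup P}
    (hH : H ≠ ⊤) : (singP Q fun _ => True).card ≤ (Fintype.card F - 1) * H.index := by
  rw [← Subgroup.index_comap_of_surjective H hπ]
  set K' := H.comap π
  haveI : Finite (G Q) := Subtype.finite
  letI : Fintype (G Q ⧸ K') := Fintype.ofFinite _
  haveI : Nontrivial (G Q ⧸ K') := by
    rw [← not_subsingleton_iff_nontrivial]
    intro h
    refine hH ?_
    have : K' = ⊤ := QuotientGroup.subgroup_eq_top_of_subsingleton K' h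
    rwa [← Subgroup.comap_top π, (Subgroup.comap_injective hπ).eq_iff] at this
  rw [Subgroup.index_eq_card, Nat.card_eq_fintype_card]
  exact min_degree hG hd h4 hhalf p K hK hnum

/-- The stabiliser of a line. -/
def stLine (Q : QuadraticForm F V) (e : V) : Subgroup (G Q) where
  carrier := {g | ∃ c : F, c ≠ 0 ∧ g.1.1 e = c • e}
  one_mem' := ⟨1, one_ne_zero, by rw [G_one, one_smul]⟩
  mul_mem' := fun {a b} ⟨c, hc, ha⟩ ⟨d, hd, hb⟩ =>
    ⟨d * c, mul_ne_zero hd hc, by rw [G_mul, hb, _root_.map_smul, ha, smul_smul]⟩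
  inv_mem' := fun {a} ⟨c, hc, ha⟩ => ⟨c⁻¹, inv_ne_zero hc, by
    conv_rhs => rw [← G_inv a e, ha, _root_.map_smul, smul_smul, inv_mul_cancel₀ hc, one_smul]⟩

/-- The singular points attain the bound. -/
theorem index_attained (hG : Good Q) {e : V} (he : Q e = 0) (he0 : e ≠ 0) {P : Type w} [Group P]
    (π : G Q →* P) (hπ : Function.Surjective π)
    (hker : ∀ z ∈ π.ker, ∃ c : F, c ≠ 0 ∧ z.1.1 e = c • e) :
    ∃ H : Subgroup P, (Fintype.card F - 1) * H.index = (singP Q fun _ => True).card := by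
  refine ⟨(stLine Q e).map π, ?_⟩
  rw [Subgroup.index_map_eq (stLine Q e) hπ hker]
  haveI : Finite (G Q) := Subtype.finite
  letI : Fintype (G Q ⧸ stLine Q e) := Fintype.ofFinite _
  rw [Subgroup.index_eq_card, Nat.card_eq_fintype_card, mul_comm]
  symm
  rw [← Finset.card_univ (α := G Q ⧸ stLine Q e), ← Finset.card_univ (α := F),
    ← Finset.card_erase_of_mem (Finset.mem_univ (0 : F)), ← Finset.card_product]
  have hne : ∀ g : G Q, g.1.1 e ≠ 0 := fun g h => he0 (g.1.1.map_eq_zero_iff.1 h)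
  symm
  refine Finset.card_bij (fun p _ => p.2 • (p.1.out).1.1 e) ?_ ?_ ?_
  · intro p hp
    have hp0 := (Finset.mem_erase.1 (Finset.mem_product.1 hp).2).1
    exact mem_singP.2 ⟨smul_ne_zero hp0 (hne _), by
      rw [QuadraticMap.map_smul, G_Q, he, smul_zero], trivial⟩
  · intro p hp p' hp' h
    have hp0 := (Finset.mem_erase.1 (Finset.mem_product.1 hp).2).1
    have hp0' := (Finset.mem_erase.1 (Finset.mem_product.1 hp').2).1
    have hmem : (p.1.out)⁻¹ * p'.1.out ∈ stLine Q e := by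
      refine ⟨p'.2⁻¹ * p.2, mul_ne_zero (inv_ne_zero hp0') hp0, ?_⟩
      rw [G_mul, ← inv_smul_smul₀ hp0' ((p'.1.out).1.1 e), ← h, _root_.map_smul, _root_.map_smul,
        G_inv, smul_smul]
    have h1 : p.1 = p'.1 := by
      rw [← QuotientGroup.out_eq' p.1, ← QuotientGroup.out_eq' p'.1]
      exact QuotientGroup.eq.2 hmem
    rw [h1] at h
    exact Prod.ext h1 (smul_left_injective F (hne _) h)
  · intro x hx
    obtain ⟨hx0, hQx, -⟩ := mem_singP.1 hx
    obtain ⟨s, hs, hsx⟩ := hG.exists_map_sing he0 hx0 he hQx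
    set g : G Q := ⟨s, hs⟩
    obtain ⟨⟨k, c, hc, hk⟩, hout⟩ := QuotientGroup.mk_out_eq_mul (stLine Q e) g
    refine ⟨((g : G Q ⧸ stLine Q e), c⁻¹),
      Finset.mem_product.2 ⟨Finset.mem_univ _, Finset.mem_erase.2 ⟨inv_ne_zero hc, Finset.mem_univ _⟩⟩, ?_⟩
    show c⁻¹ • ((g : G Q ⧸ stLine Q e).out).1.1 e = x
    rw [hout, G_mul, hk, _root_.map_smul, smul_smul, inv_mul_cancel₀ hc, one_smul]
    exact hsx

end Cfsg.Agent.Lib.MinIndexO
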