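import Cfsg.Agent.Lib.MinIndexO.Regular

/-!
Annihilators over the fields with two and three elements.
-/

set_option autoImplicit false

namespace Cfsg.Agent.Lib.MinIndexO

open QuadraticMap hiding proj
open Cfsg.Agent.Lib.Classical.Quad Cfsg.Agent.Lib.Classical.QuadOmega
open Cfsg.Agent.Lib.AutOmegaOdd (G G_ext G_mul G_one G_inv G_inv' G_Q G_B sg sg_apply sg_add sg_zero
  sg_self sg_neg sg_smul sg_conj sg_fix sg_fix_self sg_swap Fr InW proj proj_mem decomp B_proj
  sg_e_fix sg_e_f sg_e_inj)
open Cfsg.Agent.Lib.AutOmega (W_pair W_partner W_nondeg W_induction)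

universe u v w

attribute [local instance] _root_.Classical.propDecidable

variable {F : Type u} [Field F] [Fintype F] {V : Type v} [AddCommGroup V] [Module F V] [Fintype V]
  {Q : QuadraticForm F V} {e f : V} {Ω : Type w} [MulAction (G Q) Ω]

theorem natCast_surj (p : ℕ) [Fact p.Prime] [CharP F p] (hq : Fintype.card F = p) (c : F) :
    ∃ n : ℕ, (n : F) = c := by
  have hinj : Function.Injective (ZMod.castHom (dvd_refl p) F) := RingHom.injective _
  have hbij := (Fintype.bijective_iff_injective_and_card _).2 ⟨hinj, by rw [ZMod.card, hq]⟩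
  obtain ⟨z, rfl⟩ := hbij.2 c
  exact ⟨z.val, by rw [ZMod.castHom_apply]; exact ZMod.natCast_val z⟩

theorem smul_mem_AnnW (p : ℕ) [Fact p.Prime] [CharP F p] (hq : Fintype.card F = p) {HP : Fr Q e f}
    {ω : Ω} {v : WQ Q e f} (hv : v ∈ AnnW HP ω) (c : F) : c • v ∈ AnnW HP ω := by
  obtain ⟨n, rfl⟩ := natCast_surj p hq c
  induction n with
  | zero => simpa using zero_mem_AnnW HP ω
  | succ n ih => rw [Nat.cast_succ, add_smul, one_smul]; exact add_mem_AnnW ih hv

/-- The nonzero vectors conjugate to a vector. -/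
noncomputable def orbV (v : WQ Q e f) : Finset (WQ Q e f) :=
  Finset.univ.filter fun u => u ≠ 0 ∧ ∃ t : F, t ≠ 0 ∧ Q (u : V) = t ^ 2 * Q (v : V)

theorem mem_orbV {v u : WQ Q e f} :
    u ∈ orbV v ↔ u ≠ 0 ∧ ∃ t : F, t ≠ 0 ∧ Q (u : V) = t ^ 2 * Q (v : V) := by simp [orbV]

theorem orbV_trans (hG : Good Q) (HP : Fr Q e f) (hd : 7 ≤ Module.finrank F V) {v : WQ Q e f}
    (hv : v ≠ 0) : ∀ u ∈ orbV v, ∃ (g : G Q) (c : F) (hg : IsLv Q e f g c), psiW hg v = u := by
  intro u hu
  obtain ⟨hu0, t, ht, htu⟩ := mem_orbV.1 hu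
  exact exists_psi_map hG HP hd hv hu0 ht htu

theorem orbV_sing {v : WQ Q e f} (hv : Q (v : V) = 0) : (orbV v).card = (Lset Q e f).card := by
  refine congrArg Finset.card (Finset.ext fun u => ?_)
  rw [mem_orbV, mem_Lset, hv]
  exact ⟨fun ⟨h, t, _, ht⟩ => ⟨h, by rw [ht, mul_zero]⟩,
    fun ⟨h, h'⟩ => ⟨h, 1, one_ne_zero, by rw [h', mul_zero]⟩⟩

theorem orbV_ns {v : WQ Q e f} (hv : Q (v : V) ≠ 0) :
    (lev Q e f (Q (v : V))).card ≤ (orbV v).card := by
  refine Finset.card_le_card fun u hu => ?_
  have h := (Finset.mem_filter.1 hu).2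
  exact mem_orbV.2 ⟨fun h0 => hv (by rw [← h, h0, Submodule.coe_zero, map_zero]), 1, one_ne_zero,
    by rw [h, one_pow, one_mul]⟩

omit [Fintype V] in
theorem sq_one_small (h3 : Fintype.card F ≤ 3) {t : F} (ht : t ≠ 0) : t ^ 2 = 1 := by
  obtain h | h : Fintype.card F = 2 ∨ Fintype.card F = 3 := by
    have := Fintype.one_lt_card (α := F); omega
  · have := FiniteField.pow_card_sub_one_eq_one t ht
    rw [h, pow_one] at this
    rw [this, one_pow]
  · have := FiniteField.pow_card_sub_one_eq_one t ht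
    rwa [h] at this

/-- An annihilator containing the orthogonal of one of its vectors. -/
theorem hyper_bound (hG : Good Q) (HP : Fr Q e f) (hd : 7 ≤ Module.finrank F V) {ω : Ω}
    {v : WQ Q e f} (hv0 : v ≠ 0)
    (hperp : ∀ z : WQ Q e f, polar Q (z : V) v = 0 → z ∈ AnnW HP ω)
    (hne : AnnW HP ω ≠ Finset.univ) :
    (orbV v).card * Fintype.card (WQ Q e f) ≤
      Fintype.card F * (Fintype.card F - 1) * ∑ B ∈ TsetW HP ω, B.card := by
  set H := Finset.univ.filter fun z : WQ Q e f => polar Q (z : V) v = 0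
  have hHA : H ⊆ AnnW HP ω := fun z hz => hperp z (Finset.mem_filter.1 hz).2
  obtain ⟨w, hw, hvw⟩ := W_nondeg hG HP (mem_WQ.1 v.2) fun h => hv0 (Subtype.ext h)
  have hwv : polar Q w (v : V) = 1 := by rw [polar_comm, hvw]
  have hHX : Fintype.card (WQ Q e f) ≤ Fintype.card F * H.card := by
    rw [← Finset.card_univ, mul_comm, ← Finset.card_univ (α := F), ← Finset.card_product]
    refine Finset.card_le_card_of_injOn
      (fun z : WQ Q e f => (z - polar Q (z : V) v • (⟨w, hw⟩ : WQ Q e f), polar Q (z : V) v))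
      (fun z _ => ?_) (fun z _ z' _ h => ?_)
    · refine Finset.mem_product.2 ⟨Finset.mem_filter.2 ⟨Finset.mem_univ _, ?_⟩, Finset.mem_univ _⟩
      simp [polar_sub_left, polar_smul_left, hwv]
    · simp only [Prod.mk.injEq] at h
      rw [← h.2, sub_left_inj] at h
      exact h.1
  have hHne : ∀ B ∈ TsetW HP ω, B.card = (AnnW HP ω).card ∧ B ≠ Finset.univ := by
    intro B hB
    obtain ⟨g, c, hg, rfl⟩ := mem_TsetW.1 hB
    rw [AnnW_smul HP hg]
    refine ⟨Finset.card_image_of_injective _ (psiW_injective hg), fun h => hne ?_⟩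
    refine Finset.eq_univ_of_card _ ?_
    rw [← Finset.card_image_of_injective _ (psiW_injective hg), h, Finset.card_univ]
  have hex : ∀ u ∈ orbV v, ∃ B ∈ TsetW HP ω,
      ∀ z : WQ Q e f, polar Q (z : V) u = 0 → z ∈ B := by
    intro u hu
    obtain ⟨g, c, hg, rfl⟩ := orbV_trans hG HP hd hv0 u hu
    refine ⟨(AnnW HP ω).image (psiW hg), mem_TsetW.2 ⟨g, c, hg, AnnW_smul HP hg ω⟩, fun z hz => ?_⟩
    obtain ⟨z', rfl⟩ := (Finite.injective_iff_surjective.1 (psiW_injective hg)) z
    refine Finset.mem_image_of_mem _ (hperp z' ?_)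
    rw [psiW_val, psiW_val, polar_smul_left, polar_smul_right, G_B, smul_eq_mul, smul_eq_mul,
      mul_eq_zero, or_iff_right (inv_ne_zero hg.1), mul_eq_zero,
      or_iff_right (inv_ne_zero hg.1)] at hz
    exact hz
  choose Bf hBf hBfz using hex
  have hfib : (orbV v).card ≤ (Fintype.card F - 1) * (TsetW HP ω).card := by
    refine le_trans ?_ (Finset.card_le_mul_card_image (s := (orbV v).attach)
      (f := fun u => Bf u.1 u.2) (Fintype.card F - 1) fun B hB => ?_) |>.trans
      (Nat.mul_le_mul_left _ (Finset.card_le_card (Finset.image_subset_iff.2 fun u _ => hBf u.1 u.2)))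
    · rw [Finset.card_attach]
    obtain ⟨⟨u₀, hu₀⟩, -, rfl⟩ := Finset.mem_image.1 hB
    have hline : ∀ u (hu : u ∈ orbV v), Bf u hu = Bf u₀ hu₀ →
        u ∈ Submodule.span F ({u₀} : Set (WQ Q e f)) := by
      intro u hu hBu
      by_contra hm
      have hall : ¬∀ r : WQ Q e f, polar Q (r : V) u₀ = 0 → polar Q (r : V) u = 0 := by
        intro hall
        have hm' : (u : V) ∈ Submodule.span F ({(u₀ : V)} : Set V) := by
          refine perp_perp hG HP ?_ (mem_WQ.1 u.2) fun a ha haS => ?_
          · rw [Submodule.span_le, Set.singleton_subset_iff]; exact u₀.2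
          · exact hall ⟨a, ha⟩ (haS _ (Submodule.mem_span_singleton_self _))
        obtain ⟨c, hc⟩ := Submodule.mem_span_singleton.1 hm'
        exact hm (Submodule.mem_span_singleton.2 ⟨c, Subtype.ext hc⟩)
      push Not at hall
      obtain ⟨r, hr0, hr1⟩ := hall
      obtain ⟨g, c', hg, hgB⟩ := mem_TsetW.1 (hBf u₀ hu₀)
      refine (hHne _ (hBf u₀ hu₀)).2 (Finset.eq_univ_of_forall fun z => ?_)
      rw [← sub_add_cancel z ((polar Q (z : V) u / polar Q (r : V) u) • r), ← hgB]
      refine add_mem_AnnW ?_ ?_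
      · rw [hgB, ← hBu]
        refine hBfz u hu _ ?_
        rw [Submodule.coe_sub, Submodule.coe_smul, polar_sub_left, polar_smul_left, smul_eq_mul,
          div_mul_cancel₀ _ hr1, sub_self]
      · rw [hgB]
        refine hBfz u₀ hu₀ _ ?_
        rw [Submodule.coe_smul, polar_smul_left, hr0, smul_zero]
    rw [← Finset.card_univ (α := F), ← Finset.card_erase_of_mem (Finset.mem_univ (0 : F))]
    refine le_trans ?_ (Finset.card_image_le (f := fun c : F => c • u₀))
    refine Finset.card_le_card_of_injOn (fun u => u.1) (fun u hu => ?_)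
      (fun u _ u' _ h => Subtype.ext h)
    obtain ⟨c, hc⟩ := Submodule.mem_span_singleton.1
      (hline u.1 u.2 (Finset.mem_filter.1 hu).2)
    exact Finset.mem_image.2 ⟨c, Finset.mem_erase.2 ⟨fun h0 => (mem_orbV.1 u.2).1
      (by rw [← hc, h0, zero_smul]), Finset.mem_univ _⟩, hc⟩
  calc (orbV v).card * Fintype.card (WQ Q e f)
      ≤ (Fintype.card F - 1) * (TsetW HP ω).card * (Fintype.card F * H.card) :=
        Nat.mul_le_mul hfib hHX
    _ ≤ (Fintype.card F - 1) * (TsetW HP ω).card * (Fintype.card F * (AnnW HP ω).card) :=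
        Nat.mul_le_mul_left _ (Nat.mul_le_mul_left _ (Finset.card_le_card hHA))
    _ = _ := by
        rw [Finset.sum_congr rfl fun B hB => (hHne B hB).1, Finset.sum_const, smul_eq_mul]
        ring

/-- Translates through a vector, or its orthogonal inside the annihilator. -/
theorem witness_or_perp (hG : Good Q) (HP : Fr Q e f) (hd : 7 ≤ Module.finrank F V) (p : ℕ)
    [Fact p.Prime] [CharP F p] {ω : Ω} {v : WQ Q e f} (hv : v ∈ AnnW HP ω) (hv0 : v ≠ 0)
    {y : WQ Q e f} (hy : y ∈ AnnW HP ω)
    (hyv : (y : V) ∉ Submodule.span F ({(v : V)} : Set V)) :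
    (∃ T : Finset (Finset (WQ Q e f)), T ⊆ TsetW HP ω ∧ (∀ B ∈ T, v ∈ B) ∧ T.card = p) ∨
      ∀ z : WQ Q e f, polar Q (z : V) v = 0 → z ∈ AnnW HP ω := by
  rw [or_iff_not_imp_right]
  intro hno
  by_contra hT
  refine hno fun z hz => perp_sub hG HP hd hv (fun h => hv0 (Subtype.ext h)) hy hyv
    (fun b a hb ha hQb hba hbv hav => ?_) hz
  by_contra hmove
  exact hT (exists_translates HP p hv hb ha hQb hba hbv hav hmove)

theorem card_lev_two (hq : Fintype.card F = 2) :
    (lev Q e f 1).card + (Lset Q e f).card + 1 = Fintype.card (WQ Q e f) := by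
  have h2 : ∀ c : F, c = 0 ∨ c = 1 := fun c => by
    by_contra! h
    have := Finset.card_le_univ ({0, 1, c} : Finset F)
    rw [Finset.card_insert_of_notMem (by simp [zero_ne_one, Ne.symm h.1]),
      Finset.card_pair (Ne.symm h.2), hq] at this
    omega
  rw [add_assoc, ← card_lev_zero, ← Finset.card_union_of_disjoint]
  · rw [← Finset.card_univ]
    refine congrArg Finset.card (Finset.eq_univ_of_forall fun x => ?_)
    rcases h2 (Q (x : V)) with h | h <;> simp [lev, h]
  · rw [Finset.disjoint_left]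
    intro x hx hx'
    exact one_ne_zero ((Finset.mem_filter.1 hx).2.symm.trans (Finset.mem_filter.1 hx').2)

/-- An annihilator which is an anisotropic plane over the field with two elements. -/
theorem plane_bound (hG : Good Q) (HP : Fr Q e f) (hd : 8 ≤ Module.finrank F V) (p : ℕ)
    [Fact p.Prime] [CharP F p] (hq : Fintype.card F = p) (hp : p = 2) {ω : Ω}
    {v w : WQ Q e f} (hv : v ∈ AnnW HP ω) (hv0 : v ≠ 0) (hw : w ∈ AnnW HP ω)
    (hwv : (w : V) ∉ Submodule.span F ({(v : V)} : Set V))
    (hns : ∀ x ∈ AnnW HP ω, x ≠ 0 → Q (x : V) = 1) :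
    16 * (lev Q e f 1).card ≤ 3 * ∑ B ∈ TsetW HP ω, B.card := by
  have h20 : (2 : F) = 0 := by
    have := CharP.cast_eq_zero F p
    rw [hp] at this; exact_mod_cast this
  have hw0 : w ≠ 0 := fun h => hwv (by rw [h]; exact zero_mem _)
  have hvw : v + w ≠ 0 := fun h => hwv (by
    rw [eq_neg_of_add_eq_zero_right h, Submodule.coe_neg]
    exact neg_mem (Submodule.mem_span_singleton_self _))
  have hQv := hns v hv hv0
  have hQw := hns w hw hw0
  have hpol : ∀ x ∈ AnnW HP ω, ∀ y ∈ AnnW HP ω, x ≠ 0 → y ≠ 0 → x + y ≠ 0 →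
      polar Q (x : V) y = 1 := by
    intro x hx y hy hx0 hy0 hxy
    rw [polar, ← Submodule.coe_add, hns _ (add_mem_AnnW hx hy) hxy, hns x hx hx0, hns y hy hy0]
    linear_combination (-1 : F) * h20
  have hpvw := hpol v hv w hw hv0 hw0 hvw
  have hA : AnnW HP ω ⊆ {0, v, w, v + w} := by
    intro x hx
    simp only [Finset.mem_insert, Finset.mem_singleton]
    by_contra! h
    obtain ⟨h0, hxv, hxw, hxvw⟩ := h
    have hneq : ∀ y : WQ Q e f, x ≠ y → x + y ≠ 0 := fun y hne hz => hne (by
      rw [eq_neg_of_add_eq_zero_left hz]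
      exact Subtype.ext (by rw [Submodule.coe_neg, ← neg_one_smul F (y : V),
        show (-1 : F) = 1 by linear_combination (-1 : F) * h20, one_smul]))
    have h1 := hpol x hx v hv h0 hv0 (hneq v hxv)
    have h2 := hpol x hx w hw h0 hw0 (hneq w hxw)
    have h3 := hpol x hx _ (add_mem_AnnW hv hw) h0 hvw (hneq _ hxvw)
    rw [Submodule.coe_add, polar_add_right, h1, h2] at h3
    exact one_ne_zero (show (1 : F) = 0 by linear_combination h3)
  have hcard : (AnnW HP ω).card = 4 := by
    have hle : ({0, v, w, v + w} : Finset (WQ Q e f)) ⊆ AnnW HP ω := by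
      intro x hx
      simp only [Finset.mem_insert, Finset.mem_singleton] at hx
      rcases hx with rfl | rfl | rfl | rfl
      exacts [zero_mem_AnnW HP ω, hv, hw, add_mem_AnnW hv hw]
    rw [Finset.Subset.antisymm hA hle, Finset.card_insert_of_notMem, Finset.card_insert_of_notMem,
      Finset.card_pair]
    · exact fun h => hv0 (by simpa using h.symm)
    · simp only [Finset.mem_insert, Finset.mem_singleton, not_or]
      exact ⟨fun h => hwv (by rw [h]; exact Submodule.mem_span_singleton_self _),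
        fun h => hw0 (by simpa using h.symm)⟩
    · simp only [Finset.mem_insert, Finset.mem_singleton, not_or]
      exact ⟨Ne.symm hv0, Ne.symm hw0, Ne.symm hvw⟩
  -- a transvection vector seeing the second point
  obtain ⟨b, hb, hQb, hbv, hwb⟩ := exists_sing_perp_ne hG HP (by omega) (mem_WQ.1 v.2)
    (fun h => hv0 (Subtype.ext h)) (mem_WQ.1 w.2) hwv
  set S' := Submodule.span F ({(v : V), b, e, f} : Set V)
  have h4 : Module.finrank F S' ≤ 4 := by
    refine le_trans (finrank_span_le_card _) ?_
    simp only [Set.toFinset_insert, Set.toFinset_singleton]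
    exact Finset.card_le_four
  have h1 := finrank_perpS hG.nd S'
  have hpick : ∀ s : Finset V, s.card ≤ 3 →
      ∃ a ∈ perpS Q S', a ∉ Submodule.span F (s : Set V) := by
    intro s hs
    refine SetLike.not_le_iff_exists.1 fun hle => ?_
    have h2 := Submodule.finrank_mono hle
    have h3 : Module.finrank F (Submodule.span F (s : Set V)) ≤ 3 :=
      (finrank_span_finset_le_card s).trans hs
    omega
  obtain ⟨a1, ha1, ha1n⟩ := hpick {(v : V), b} (le_trans Finset.card_le_two (by norm_num))
  obtain ⟨a2, ha2, ha2n⟩ := hpick {(v : V), b, a1} Finset.card_le_three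
  simp only [Finset.coe_insert, Finset.coe_singleton] at ha1n ha2n
  let A4 : Finset (WQ Q e f) := AnnW HP ω
  have hmemP : ∀ a ∈ perpS Q S', InW Q e f a ∧ polar Q b a = 0 ∧ polar Q a (v : V) = 0 := by
    intro a ha
    have hp := mem_perpS.1 ha
    exact ⟨⟨hp e (Submodule.subset_span (by simp)), hp f (Submodule.subset_span (by simp))⟩,
      by rw [polar_comm]; exact hp b (Submodule.subset_span (by simp)),
      hp _ (Submodule.subset_span (by simp))⟩
  set Tr : perpS Q S' → Finset (WQ Q e f) := fun a =>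
    (AnnW HP ω).image (psiW (isLv_sg HP hb (hmemP _ a.2).1 hQb (hmemP _ a.2).2.1)) with hTr
  have hsep : ∀ a a' : perpS Q S', Tr a = Tr a' →
      (a : V) - a' ∈ Submodule.span F ({(v : V), b} : Set V) := by
    intro a a' haa
    have hw1 : psiW (isLv_sg HP hb (hmemP _ a.2).1 hQb (hmemP _ a.2).2.1) w ∈ Tr a' :=
      haa ▸ Finset.mem_image_of_mem _ hw
    obtain ⟨x, hx, hxe⟩ := Finset.mem_image.1 hw1
    have hxe' := congrArg (fun z : WQ Q e f => (z : V)) hxe
    simp only [psiW_one_val, sg_apply hQb (hmemP _ a.2).2.1, sg_apply hQb (hmemP _ a'.2).2.1]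
      at hxe'
    have hx4 := hA hx
    simp only [Finset.mem_insert, Finset.mem_singleton] at hx4
    have hbm : b ∈ Submodule.span F ({(v : V), b} : Set V) := Submodule.subset_span (by simp)
    have hvm : (v : V) ∈ Submodule.span F ({(v : V), b} : Set V) := Submodule.subset_span (by simp)
    have hvb : polar Q (v : V) b = 0 := by rw [polar_comm, hbv]
    have hwb1 : polar Q (w : V) b = 1 := by
      obtain ⟨n, hn⟩ := natCast_surj p hq (polar Q (w : V) b)
      subst hp
      rcases Nat.even_or_odd n with ⟨k, rfl⟩ | ⟨k, rfl⟩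
      · exact absurd (by rw [← hn]; push_cast; linear_combination (k : F) * h20) hwb
      · rw [← hn]; push_cast; linear_combination (k : F) * h20
    have hgb : ∀ (c : V) (hc : polar Q b c = 0) (z : V),
        polar Q ((sg Q b c).1.1 z) b = polar Q z b := fun c hc z => by
      conv_rhs => rw [← G_B (sg Q b c) z b, sg_fix_self hQb hc]
    rw [← Submodule.Quotient.mk_eq_zero]
    have hq' := congrArg (Submodule.Quotient.mk (p := Submodule.span F ({(v : V), b} : Set V))) hxe'
    have hb0 : (Submodule.Quotient.mk b : V ⧸ Submodule.span F ({(v : V), b} : Set V)) = 0 :=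
      (Submodule.Quotient.mk_eq_zero _).2 hbm
    have hv0' : (Submodule.Quotient.mk (v : V) : V ⧸ Submodule.span F ({(v : V), b} : Set V)) = 0 :=
      (Submodule.Quotient.mk_eq_zero _).2 hvm
    simp only [Submodule.Quotient.mk_add, Submodule.Quotient.mk_sub, Submodule.Quotient.mk_smul,
      hb0, smul_zero, sub_zero, hwb1, one_smul] at hq'
    rcases hx4 with rfl | rfl | rfl | rfl
    · -- the zero vector cannot occur
      exact absurd (psiW_injective (isLv_sg HP hb (hmemP _ a.2).1 hQb (hmemP _ a.2).2.1)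
        (by rw [← hxe]; exact (Subtype.ext (by simp [psiW_one_val])).symm :
          psiW (isLv_sg HP hb (hmemP _ a.2).1 hQb (hmemP _ a.2).2.1) w =
            psiW (isLv_sg HP hb (hmemP _ a.2).1 hQb (hmemP _ a.2).2.1) 0)) hw0
    · exfalso
      have := congrArg (fun z : V => polar Q z b) (congrArg (fun z : WQ Q e f => (z : V)) hxe)
      simp only [psiW_one_val] at this
      rw [hgb _ (hmemP _ a'.2).2.1, hgb _ (hmemP _ a.2).2.1, hvb, hwb1] at this
      exact zero_ne_one this
    · rw [hwb1, one_smul] at hq'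
      rw [Submodule.Quotient.mk_sub, sub_eq_zero]
      exact (add_left_cancel hq').symm
    · rw [Submodule.coe_add, polar_add_left, hvb, zero_add, hwb1, one_smul,
        Submodule.Quotient.mk_add, hv0', zero_add] at hq'
      rw [Submodule.Quotient.mk_sub, sub_eq_zero]
      exact (add_left_cancel hq').symm
  let g4 : Finset (perpS Q S') := {0, ⟨a1, ha1⟩, ⟨a2, ha2⟩, ⟨a1, ha1⟩ + ⟨a2, ha2⟩}
  have hsp1 : Submodule.span F ({(v : V), b} : Set V) ≤ Submodule.span F {(v : V), b, a1} :=
    Submodule.span_mono (by intro x hx; simp only [Set.mem_insert_iff, Set.mem_singleton_iff] at hx ⊢; tauto)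
  have ha1m : a1 ∈ Submodule.span F ({(v : V), b, a1} : Set V) := Submodule.subset_span (by simp)
  have hg4 : Set.InjOn Tr (g4 : Set (perpS Q S')) ∧ g4.card = 4 := by
    have k1 : a1 ∉ Submodule.span F ({(v : V), b} : Set V) := ha1n
    have k2 : a2 ∉ Submodule.span F ({(v : V), b} : Set V) := fun h => ha2n (hsp1 h)
    have k3 : a1 + a2 ∉ Submodule.span F ({(v : V), b} : Set V) := fun h => ha2n (by
      have := sub_mem (hsp1 h) ha1m; rwa [add_sub_cancel_left] at this)
    have k4 : a1 - a2 ∉ Submodule.span F ({(v : V), b} : Set V) := fun h => ha2n (by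
      have := sub_mem ha1m (hsp1 h); rwa [sub_sub_cancel] at this)
    have hd' : ∀ a ∈ g4, ∀ a' ∈ g4, a ≠ a' →
        (a : V) - a' ∉ Submodule.span F ({(v : V), b} : Set V) := by
      intro a ha a' ha' hne
      simp only [g4, Finset.mem_insert, Finset.mem_singleton] at ha ha'
      rcases ha with rfl | rfl | rfl | rfl <;> rcases ha' with rfl | rfl | rfl | rfl <;>
        first
          | exact absurd rfl hne
          | (simp only [Submodule.coe_zero, Submodule.coe_add, zero_sub, sub_zero, neg_mem_iff,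
              add_sub_cancel_left, sub_add_cancel_left, add_sub_cancel_right,
              sub_add_cancel_right]
             first
              | exact k1
              | exact k2
              | exact k3
              | exact k4
              | exact fun h => k4 (by have := neg_mem h; rwa [neg_sub] at this))
    refine ⟨fun a ha a' ha' h => ?_, ?_⟩
    · by_contra hne
      exact hd' a ha a' ha' hne (hsep a a' h)
    · have e0 : ∀ {a : perpS Q S'}, (a : V) ∉ Submodule.span F ({(v : V), b} : Set V) →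
          (0 : perpS Q S') ≠ a := fun h h0 => h (by rw [← h0]; exact zero_mem _)
      rw [Finset.card_insert_of_notMem, Finset.card_insert_of_notMem, Finset.card_pair]
      · intro h
        exact k1 (by
          have := congrArg Subtype.val h
          simp only [Submodule.coe_add, right_eq_add] at this
          rw [this]; exact zero_mem _)
      · simp only [Finset.mem_insert, Finset.mem_singleton, not_or]
        refine ⟨fun h => k4 ?_, fun h => k2 ?_⟩
        · rw [show a1 = a2 from congrArg Subtype.val h, sub_self]; exact zero_mem _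
        · have := congrArg Subtype.val h
          simp only [Submodule.coe_add, left_eq_add] at this
          rw [this]; exact zero_mem _
      · simp only [Finset.mem_insert, Finset.mem_singleton, not_or]
        exact ⟨e0 k1, e0 k2, e0 (a := ⟨a1, ha1⟩ + ⟨a2, ha2⟩) k3⟩
  have hT : g4.image Tr ⊆ TsetW HP ω := fun B hB => by
    obtain ⟨a, -, rfl⟩ := Finset.mem_image.1 hB
    exact mem_TsetW.2 ⟨_, 1, isLv_sg HP hb (hmemP _ a.2).1 hQb (hmemP _ a.2).2.1,
      AnnW_smul HP _ ω⟩
  have hmemv : ∀ B ∈ g4.image Tr, v ∈ B := fun B hB => by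
    obtain ⟨a, -, rfl⟩ := Finset.mem_image.1 hB
    refine Finset.mem_image.2 ⟨v, hv, Subtype.ext ?_⟩
    rw [psiW_one_val]
    exact sg_fix hQb (hmemP _ a.2).2.1 (by rw [polar_comm, hbv])
      (by rw [polar_comm]; exact (hmemP _ a.2).2.2)
  have hcov := cover_inter HP (orbV_trans hG HP (by omega) hv0) hT hmemv
  rw [Finset.card_image_of_injOn hg4.1, hg4.2] at hcov
  have hB : ∀ B ∈ TsetW HP ω,
      4 * ((orbV v).filter fun u => u ∈ B).card ≤ 3 * B.card := by
    intro B hB
    obtain ⟨g, c, hg, rfl⟩ := mem_TsetW.1 hB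
    rw [AnnW_smul HP hg, Finset.card_image_of_injective _ (psiW_injective hg), hcard]
    have hsub : ((orbV v).filter fun u => u ∈ (AnnW HP ω).image (psiW hg)) ⊆
        ((AnnW HP ω).image (psiW hg)).erase 0 := fun u hu =>
      Finset.mem_erase.2 ⟨(mem_orbV.1 (Finset.mem_filter.1 hu).1).1, (Finset.mem_filter.1 hu).2⟩
    have hle := Finset.card_le_card hsub
    rw [Finset.card_erase_of_mem (Finset.mem_image.2 ⟨0, zero_mem_AnnW HP ω,
      Subtype.ext (by simp [psiW_val])⟩), Finset.card_image_of_injective _ (psiW_injective hg),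
      hcard] at hle
    omega
  have hsum := Finset.sum_le_sum hB
  rw [← Finset.mul_sum, ← Finset.mul_sum] at hsum
  have hn := orbV_ns (v := v) (by rw [hQv]; exact one_ne_zero)
  rw [hQv] at hn
  omega

end Cfsg.Agent.Lib.MinIndexO
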