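import Cfsg.Agent.Lib.MinIndexO.Main
import Cfsg.Agent.Lib.MinIndexO.Prime

/-!
Annihilators spanning maximal totally singular subspaces.
-/

set_option autoImplicit false

namespace Cfsg.Agent.Lib.MinIndexO

open QuadraticMap hiding proj
open Cfsg.Agent.Lib.Classical.Quad Cfsg.Agent.Lib.Classical.QuadOmega
open Cfsg.Agent.Lib.AutOmegaOdd (G G_ext G_mul G_one G_inv G_inv' G_Q G_B sg sg_apply sg_add sg_zero
  sg_self sg_neg sg_smul sg_conj sg_fix sg_fix_self sg_swap Fr InW proj proj_mem decomp B_proj
  sg_e_fix sg_e_f sg_e_inj)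
open Cfsg.Agent.Lib.AutOmega (W_pair W_partner W_nondeg W_induction)

universe u v w

attribute [local instance] _root_.Classical.propDecidable

variable {F : Type u} [Field F] [Fintype F] {V : Type v} [AddCommGroup V] [Module F V] [Fintype V]
  {Q : QuadraticForm F V} {e f : V}

/-- A singular vector dual to a vector outside the span of orthogonal companions. -/
theorem exists_dual (hG : Good Q) (HP : Fr Q e f) {c : V} (hc : InW Q e f c) (hQc : Q c = 0)
    (s : Finset V) (hs : ∀ x ∈ s, InW Q e f x) (hsc : ∀ x ∈ s, polar Q c x = 0)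
    (hnot : c ∉ Submodule.span F (s : Set V)) :
    ∃ c', InW Q e f c' ∧ Q c' = 0 ∧ polar Q c c' = 1 ∧ ∀ x ∈ s, polar Q c' x = 0 := by
  obtain ⟨a, ha, has, hac⟩ : ∃ a, InW Q e f a ∧ (∀ x ∈ s, polar Q a x = 0) ∧ polar Q a c ≠ 0 := by
    by_contra! h
    exact hnot (perp_perp hG HP (Submodule.span_le.2 fun x hx => hs x hx) hc
      fun a ha hax => h a ha fun x hx => hax x (Submodule.subset_span hx))
  obtain ⟨a', ha', h1, has'⟩ : ∃ a', InW Q e f a' ∧ polar Q c a' = 1 ∧
      ∀ x ∈ s, polar Q a' x = 0 :=
    ⟨(polar Q a c)⁻¹ • a, ha.smul _, by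
      rw [polar_smul_right, polar_comm Q c a, smul_eq_mul, inv_mul_cancel₀ hac],
      fun x hx => by rw [polar_smul_left, has x hx, smul_zero]⟩
  refine ⟨a' + (-(Q a')) • c, ha'.add (hc.smul _), ?_, ?_, fun x hx => ?_⟩
  · rw [QuadraticMap.map_add ⇑Q, QuadraticMap.map_smul (Q := Q) (-(Q a')) c, hQc, polar_smul_right,
      polar_comm Q a' c, h1]
    simp
  · rw [polar_add_right, polar_smul_right, polar_self_sing hQc, h1]; simp
  · rw [polar_add_left, polar_smul_left, hsc x hx, has' x hx]; simp

/-- An element of a subspace outside the span of few vectors. -/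
theorem exists_notin {Y : Submodule F V} (s : Finset V) (h : s.card < Module.finrank F Y) :
    ∃ x ∈ Y, x ∉ Submodule.span F (s : Set V) :=
  SetLike.not_le_iff_exists.1 fun hle => by
    have h1 := Submodule.finrank_mono hle
    have h2 : Module.finrank F (Submodule.span F (s : Set V)) ≤ s.card :=
      finrank_span_finset_le_card s
    omega

variable {Ω : Type w} [MulAction (G Q) Ω]

theorem map_Tsp (HP : Fr Q e f) {g : G Q} (hg : IsLv Q e f g 1) {ω : Ω} {t : V}
    (ht : t ∈ Tsp HP ω) : g.1.1 t ∈ Tsp HP (g • ω) := by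
  induction ht using Submodule.span_induction with
  | mem z hz =>
    obtain ⟨v, hv, rfl⟩ := hz
    refine Submodule.subset_span ⟨psiW hg v, ?_, psiW_one_val hg v⟩
    rw [AnnW_smul HP hg]
    exact Finset.mem_image_of_mem _ hv
  | zero => simp
  | add x y _ _ hx hy => rw [map_add]; exact add_mem hx hy
  | smul c x _ hx => rw [_root_.map_smul]; exact Submodule.smul_mem _ c hx

theorem tsing_smul (HP : Fr Q e f) {g : G Q} (hg : IsLv Q e f g 1) {ω : Ω}
    (h : TSing Q (Tsp HP ω)) : TSing Q (Tsp HP (g • ω)) := by
  intro x hx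
  have hi : IsLv Q e f g⁻¹ 1 := by simpa using hg.inv
  have h1 := map_Tsp HP hi hx
  rw [inv_smul_smul] at h1
  rw [← G_Q g⁻¹ x]
  exact h _ h1

/-- Translates of a totally singular annihilator through one of its vectors. -/
theorem mts_translates (hG : Good Q) (HP : Fr Q e f) {ω : Ω} {u : WQ Q e f} (hu : u ∈ AnnW HP ω)
    (hu0 : u ≠ 0) (hts : TSing Q (Tsp HP ω)) (h3 : 3 ≤ Module.finrank F (Tsp HP ω)) :
    ∃ T : Finset (Finset (WQ Q e f)), T ⊆ TsetW HP ω ∧ (∀ B ∈ T, u ∈ B) ∧
      Fintype.card F + 1 ≤ T.card ∧
      (4 ≤ Module.finrank F (Tsp HP ω) → Fintype.card F ^ 2 ≤ T.card) := by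
  set Y := Tsp HP ω with hY
  have huY : (u : V) ∈ Y := Submodule.subset_span ⟨u, hu, rfl⟩
  have hYW : ∀ x ∈ Y, InW Q e f x := fun x hx => mem_WQ.1 (Tsp_le HP ω hx)
  have hQu : Q (u : V) = 0 := hts _ huY
  have hu0' : (u : V) ≠ 0 := fun h => hu0 (Subtype.ext h)
  obtain ⟨c, hc, hcn⟩ := exists_notin (Y := Y) {(u : V)} (by rw [Finset.card_singleton]; omega)
  obtain ⟨p, hp, hpn⟩ := exists_notin (Y := Y) {(u : V), c}
    (lt_of_le_of_lt Finset.card_le_two (by omega))
  have hQc := hts c hc
  have hQp := hts p hp
  have huc := hts.polar_eq huY hc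
  have hup := hts.polar_eq huY hp
  have hcp := hts.polar_eq hc hp
  simp only [Finset.coe_singleton] at hcn
  simp only [Finset.coe_insert, Finset.coe_singleton] at hpn
  have hc_up : c ∉ Submodule.span F ({(u : V), p} : Set V) := by
    intro h
    obtain ⟨α, β, hαβ⟩ := Submodule.mem_span_pair.1 h
    rcases eq_or_ne β 0 with rfl | hβ
    · exact hcn (Submodule.mem_span_singleton.2 ⟨α, by simpa using hαβ⟩)
    · refine hpn (Submodule.mem_span_pair.2 ⟨-(α / β), β⁻¹, ?_⟩)
      calc -(α / β) • (u : V) + β⁻¹ • c = β⁻¹ • (c - α • (u : V)) := by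
            rw [smul_sub, smul_smul, neg_smul, div_eq_inv_mul]; abel
        _ = p := by rw [← hαβ, add_sub_cancel_left, inv_smul_smul₀ hβ]
  have himg : ∀ {b a : V}, InW Q e f b → InW Q e f a → Q b = 0 → polar Q b a = 0 →
      polar Q b (u : V) = 0 → polar Q a (u : V) = 0 →
      AnnW HP (sg Q b a • ω) ∈ TsetW HP ω ∧ u ∈ AnnW HP (sg Q b a • ω) := by
    intro b a hb ha hQb hba hbu hau
    refine ⟨mem_TsetW.2 ⟨_, 1, isLv_sg HP hb ha hQb hba, rfl⟩, ?_⟩
    rw [AnnW_smul HP (isLv_sg HP hb ha hQb hba)]
    refine Finset.mem_image.2 ⟨u, hu, Subtype.ext ?_⟩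
    rw [psiW_one_val]
    exact sg_fix hQb hba (by rw [polar_comm]; exact hbu) (by rw [polar_comm]; exact hau)
  -- the first dual
  by_cases h4 : 4 ≤ Module.finrank F Y
  · obtain ⟨z, hz, hzn⟩ := exists_notin (Y := Y) {(u : V), c, p}
      (lt_of_le_of_lt Finset.card_le_three (by omega))
    simp only [Finset.coe_insert, Finset.coe_singleton] at hzn
    have hQz := hts z hz
    have huz := hts.polar_eq huY hz
    have hcz := hts.polar_eq hc hz
    have hpz := hts.polar_eq hp hz
    have hmono : ({(u : V), p} : Set V) ⊆ {(u : V), p, z} := by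
      intro x hx; simp only [Set.mem_insert_iff, Set.mem_singleton_iff] at hx ⊢; tauto
    have hc' : c ∉ Submodule.span F ({(u : V), p, z} : Set V) := by
      intro h
      obtain ⟨α, r, hr, hce⟩ := Submodule.mem_span_insert.1 h
      obtain ⟨β, γ, rfl⟩ := Submodule.mem_span_pair.1 hr
      rcases eq_or_ne γ 0 with rfl | hγ
      · exact hc_up (Submodule.mem_span_pair.2 ⟨α, β, by rw [hce]; simp⟩)
      · refine hzn ?_
        have hz' : z = γ⁻¹ • (c - α • (u : V) - β • p) := by
          rw [hce]; match_scalars <;> field_simp <;> ring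
        rw [hz']
        exact Submodule.smul_mem _ _ (sub_mem (sub_mem (Submodule.subset_span (by simp))
          (Submodule.smul_mem _ _ (Submodule.subset_span (by simp))))
          (Submodule.smul_mem _ _ (Submodule.subset_span (by simp))))
    obtain ⟨c', hc'W, hQc', hcc', hc'o⟩ := exists_dual hG HP (hYW c hc) hQc {(u : V), p, z}
      (fun x hx => by
        simp only [Finset.mem_insert, Finset.mem_singleton] at hx
        rcases hx with rfl | rfl | rfl
        exacts [hYW _ huY, hYW _ hp, hYW _ hz])
      (fun x hx => by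
        simp only [Finset.mem_insert, Finset.mem_singleton] at hx
        rcases hx with rfl | rfl | rfl
        exacts [by rw [polar_comm, huc], hcp, hcz])
      (by simpa only [Finset.coe_insert, Finset.coe_singleton] using hc')
    have hc'u : polar Q c' (u : V) = 0 := hc'o _ (by simp)
    have hc'p : polar Q c' p = 0 := hc'o _ (by simp)
    have hc'z : polar Q c' z = 0 := hc'o _ (by simp)
    -- functionals on the two further vectors
    obtain ⟨p', hp'W, hpp', hp'u, hp'c, hp'c', hp'z⟩ : ∃ a, InW Q e f a ∧ polar Q p a = 1 ∧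
        polar Q a (u : V) = 0 ∧ polar Q a c = 0 ∧ polar Q a c' = 0 ∧ polar Q a z = 0 := by
      obtain ⟨p', h1, -, h2, h3'⟩ := exists_dual hG HP (hYW p hp) hQp {(u : V), c, c', z}
        (fun x hx => by
          simp only [Finset.mem_insert, Finset.mem_singleton] at hx
          rcases hx with rfl | rfl | rfl | rfl
          exacts [hYW _ huY, hYW _ hc, hc'W, hYW _ hz])
        (fun x hx => by
          simp only [Finset.mem_insert, Finset.mem_singleton] at hx
          rcases hx with rfl | rfl | rfl | rfl
          exacts [by rw [polar_comm, hup], by rw [polar_comm, hcp], by rw [polar_comm, hc'p], hpz])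
        (by
          simp only [Finset.coe_insert, Finset.coe_singleton]
          intro h
          obtain ⟨α, r, hr, hpe⟩ := Submodule.mem_span_insert.1 h
          obtain ⟨β, r', hr', rfl⟩ := Submodule.mem_span_insert.1 hr
          obtain ⟨γ, δ, rfl⟩ := Submodule.mem_span_pair.1 hr'
          have hγ : γ = 0 := by
            have h5 := congrArg (fun x => polar Q x c) hpe
            simpa [polar_add_left, polar_smul_left, polar_comm Q p c, hcp, huc,
              polar_self_sing hQc, polar_comm Q c' c, hcc', polar_comm Q z c, hcz] using h5.symm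
          rw [hγ, zero_smul, zero_add] at hpe
          rcases eq_or_ne δ 0 with rfl | hδ
          · exact hpn (Submodule.mem_span_pair.2 ⟨α, β, by rw [hpe]; simp⟩)
          · refine hzn ?_
            have hz' : z = δ⁻¹ • (p - α • (u : V) - β • c) := by
              rw [hpe]; match_scalars <;> field_simp <;> ring
            rw [hz']
            exact Submodule.smul_mem _ _ (sub_mem (sub_mem (Submodule.subset_span (by simp))
              (Submodule.smul_mem _ _ (Submodule.subset_span (by simp))))
              (Submodule.smul_mem _ _ (Submodule.subset_span (by simp)))))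
      exact ⟨p', h1, h2, h3' _ (by simp), h3' _ (by simp), h3' _ (by simp), h3' _ (by simp)⟩
    obtain ⟨z', hz'W, hzz', hz'u, hz'c, hz'c', hz'p⟩ : ∃ a, InW Q e f a ∧ polar Q z a = 1 ∧
        polar Q a (u : V) = 0 ∧ polar Q a c = 0 ∧ polar Q a c' = 0 ∧ polar Q a p = 0 := by
      obtain ⟨z', h1, -, h2, h3'⟩ := exists_dual hG HP (hYW z hz) hQz {(u : V), c, c', p}
        (fun x hx => by
          simp only [Finset.mem_insert, Finset.mem_singleton] at hx
          rcases hx with rfl | rfl | rfl | rfl
          exacts [hYW _ huY, hYW _ hc, hc'W, hYW _ hp])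
        (fun x hx => by
          simp only [Finset.mem_insert, Finset.mem_singleton] at hx
          rcases hx with rfl | rfl | rfl | rfl
          exacts [by rw [polar_comm, huz], by rw [polar_comm, hcz], by rw [polar_comm, hc'z],
            by rw [polar_comm, hpz]])
        (by
          simp only [Finset.coe_insert, Finset.coe_singleton]
          intro h
          obtain ⟨α, r, hr, hze⟩ := Submodule.mem_span_insert.1 h
          obtain ⟨β, r', hr', rfl⟩ := Submodule.mem_span_insert.1 hr
          obtain ⟨γ, δ, rfl⟩ := Submodule.mem_span_pair.1 hr'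
          have hγ : γ = 0 := by
            have h5 := congrArg (fun x => polar Q x c) hze
            simpa [polar_add_left, polar_smul_left, polar_comm Q z c, hcz, huc,
              polar_self_sing hQc, polar_comm Q c' c, hcc', polar_comm Q p c, hcp] using h5.symm
          refine hzn ?_
          rw [hze, hγ, zero_smul, zero_add]
          exact add_mem (Submodule.smul_mem _ _ (Submodule.subset_span (by simp)))
            (add_mem (Submodule.smul_mem _ _ (Submodule.subset_span (by simp)))
              (Submodule.smul_mem _ _ (Submodule.subset_span (by simp)))))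
      exact ⟨z', h1, h2, h3' _ (by simp), h3' _ (by simp), h3' _ (by simp), h3' _ (by simp)⟩
    set av : F × F → V := fun t => t.1 • p' + t.2 • z'
    have haW : ∀ t, InW Q e f (av t) := fun t => (hp'W.smul _).add (hz'W.smul _)
    have hba : ∀ t, polar Q c' (av t) = 0 := fun t => by
      simp [av, polar_add_right, polar_smul_right, polar_comm Q c' p', hp'c', polar_comm Q c' z',
        hz'c']
    have hau : ∀ t, polar Q (av t) (u : V) = 0 := fun t => by
      simp [av, polar_add_left, polar_smul_left, hp'u, hz'u]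
    set Bt : F × F → Finset (WQ Q e f) := fun t => AnnW HP (sg Q c' (av t) • ω)
    have hinj : Function.Injective Bt := by
      intro t t' htt
      by_contra hne
      have hlv := isLv_sg HP hc'W (haW t) hQc' (hba t)
      have hlv' := isLv_sg HP hc'W (haW t') hQc' (hba t')
      have hS : Tsp HP (sg Q c' (av t') • ω) = Tsp HP (sg Q c' (av t) • ω) := by
        unfold Tsp; exact congrArg _ (congrArg _ (congrArg _ htt.symm))
      have hts2 := tsing_smul HP hlv hts
      have him : ∀ (s : F × F) (y : V), polar Q y c' = 0 → polar Q y (av s) = 0 →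
          (sg Q c' (av s)).1.1 y = y := fun s y h1 h2 => sg_fix hQc' (hba s) h1 h2
      have hcimg : ∀ s : F × F, (sg Q c' (av s)).1.1 c =
          c + av s - Q (av s) • c' := by
        intro s
        rw [sg_apply hQc' (hba s), hcc',
          show polar Q c (av s) = 0 by
            simp [av, polar_add_right, polar_smul_right, polar_comm Q c p', hp'c,
              polar_comm Q c z', hz'c]]
        simp
      have hpimg : ∀ y : V, polar Q y c' = 0 →
          (sg Q c' (av t)).1.1 y = y - polar Q y (av t) • c' := by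
        intro y hy
        rw [sg_apply hQc' (hba t), hy]
        simp
      have h1 : (sg Q c' (av t)).1.1 c ∈ Tsp HP (sg Q c' (av t) • ω) := map_Tsp HP hlv hc
      have h2 : (sg Q c' (av t')).1.1 c ∈ Tsp HP (sg Q c' (av t) • ω) := hS ▸ map_Tsp HP hlv' hc
      have h3p : (sg Q c' (av t)).1.1 p ∈ Tsp HP (sg Q c' (av t) • ω) := map_Tsp HP hlv hp
      have h3z : (sg Q c' (av t)).1.1 z ∈ Tsp HP (sg Q c' (av t) • ω) := map_Tsp HP hlv hz
      have e1 := hts2.polar_eq (sub_mem h1 h2) h3p
      have e2 := hts2.polar_eq (sub_mem h1 h2) h3z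
      rw [hcimg, hcimg, hpimg p (by rw [polar_comm, hc'p])] at e1
      rw [hcimg, hcimg, hpimg z (by rw [polar_comm, hc'z])] at e2
      simp [av, polar_add_left, polar_sub_left, polar_smul_left, polar_sub_right, polar_smul_right,
        hc'p, hp'c', hz'c', polar_comm Q p' p, hpp', hz'p, polar_self_sing hQc', hcc',
        polar_add_right, polar_comm Q p p', polar_comm Q p z', hcp] at e1
      simp [av, polar_add_left, polar_sub_left, polar_smul_left, polar_sub_right, polar_smul_right,
        hc'z, hp'c', hz'c', polar_comm Q z' z, hzz', hp'z, polar_self_sing hQc', hcc',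
        polar_add_right, polar_comm Q z p', polar_comm Q z z', hcz] at e2
      exact hne (Prod.ext (sub_eq_zero.1 e1) (sub_eq_zero.1 e2))
    refine ⟨Finset.univ.image Bt, fun B hB => ?_, fun B hB => ?_, ?_, fun _ => ?_⟩
    · obtain ⟨t, -, rfl⟩ := Finset.mem_image.1 hB
      exact (himg hc'W (haW t) hQc' (hba t) hc'u (hau t)).1
    · obtain ⟨t, -, rfl⟩ := Finset.mem_image.1 hB
      exact (himg hc'W (haW t) hQc' (hba t) hc'u (hau t)).2
    · rw [Finset.card_image_of_injective _ hinj, Finset.card_univ, Fintype.card_prod]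
      nlinarith [Fintype.one_lt_card (α := F)]
    · rw [Finset.card_image_of_injective _ hinj, Finset.card_univ, Fintype.card_prod, pow_two]
  · -- three dimensions
    obtain ⟨c', hc'W, hQc', hcc', hc'o⟩ := exists_dual hG HP (hYW c hc) hQc {(u : V), p}
      (fun x hx => by
        simp only [Finset.mem_insert, Finset.mem_singleton] at hx
        rcases hx with rfl | rfl
        exacts [hYW _ huY, hYW _ hp])
      (fun x hx => by
        simp only [Finset.mem_insert, Finset.mem_singleton] at hx
        rcases hx with rfl | rfl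
        exacts [by rw [polar_comm, huc], hcp])
      (by simpa only [Finset.coe_insert, Finset.coe_singleton] using hc_up)
    have hc'u : polar Q c' (u : V) = 0 := hc'o _ (by simp)
    have hc'p : polar Q c' p = 0 := hc'o _ (by simp)
    obtain ⟨p', hp'W, hQp', hpp', hp'o⟩ := exists_dual hG HP (hYW p hp) hQp {(u : V), c, c'}
      (fun x hx => by
        simp only [Finset.mem_insert, Finset.mem_singleton] at hx
        rcases hx with rfl | rfl | rfl
        exacts [hYW _ huY, hYW _ hc, hc'W])
      (fun x hx => by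
        simp only [Finset.mem_insert, Finset.mem_singleton] at hx
        rcases hx with rfl | rfl | rfl
        exacts [by rw [polar_comm, hup], by rw [polar_comm, hcp], by rw [polar_comm, hc'p]])
      (by
        simp only [Finset.coe_insert, Finset.coe_singleton]
        intro h
        obtain ⟨α, r, hr, hpe⟩ := Submodule.mem_span_insert.1 h
        obtain ⟨β, γ, rfl⟩ := Submodule.mem_span_pair.1 hr
        have hγ : γ = 0 := by
          have h5 := congrArg (fun x => polar Q x c) hpe
          simpa [polar_add_left, polar_smul_left, polar_comm Q p c, hcp, huc,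
            polar_self_sing hQc, polar_comm Q c' c, hcc'] using h5.symm
        exact hpn (Submodule.mem_span_pair.2 ⟨α, β, by rw [hpe, hγ]; simp⟩))
    have hp'u : polar Q p' (u : V) = 0 := hp'o _ (by simp)
    have hp'c : polar Q p' c = 0 := hp'o _ (by simp)
    have hp'c' : polar Q p' c' = 0 := hp'o _ (by simp)
    have hba : ∀ t : F, polar Q c' (t • p') = 0 := fun t => by
      rw [polar_smul_right, polar_comm, hp'c', smul_zero]
    have hau : ∀ t : F, polar Q (t • p') (u : V) = 0 := fun t => by
      rw [polar_smul_left, hp'u, smul_zero]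
    have hlv : ∀ t : F, IsLv Q e f (sg Q c' (t • p')) 1 := fun t =>
      isLv_sg HP hc'W (hp'W.smul t) hQc' (hba t)
    have hcpW : polar Q c p = 0 := hcp
    set h2 := sg Q c p with hh2
    have hlv2 : IsLv Q e f h2 1 := isLv_sg HP (hYW c hc) (hYW p hp) hQc hcpW
    set g1 := sg Q c' ((1 : F) • p') with hg1
    have hlvi : IsLv Q e f (h2 * g1) 1 := by
      have := hlv2.mul (hlv 1)
      rwa [mul_one] at this
    set Bo : Option F → Finset (WQ Q e f) := fun o => o.elim (AnnW HP ((h2 * g1) • ω))
      fun t => AnnW HP (sg Q c' (t • p') • ω)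
    have hcimg : ∀ t : F, (sg Q c' (t • p')).1.1 c = c + t • p' := by
      intro t
      rw [sg_apply hQc' (hba t), hcc', QuadraticMap.map_smul, hQp']
      simp [polar_smul_right, polar_comm Q c p', hp'c]
    have hpimg : ∀ t : F, (sg Q c' (t • p')).1.1 p = p - t • c' := by
      intro t
      rw [sg_apply hQc' (hba t), show polar Q p c' = 0 by rw [polar_comm, hc'p],
        show polar Q p (t • p') = t by rw [polar_smul_right, hpp', smul_eq_mul, mul_one]]
      simp
    have hinf : p' ∈ Tsp HP ((h2 * g1) • ω) := by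
      have h1 := map_Tsp HP hlvi hc
      rw [G_mul, hg1, hcimg, one_smul, hh2, sg_apply hQc hcpW,
        show polar Q (c + p') c = 0 by rw [polar_add_left, polar_self_sing hQc, hp'c, add_zero],
        show polar Q (c + p') p = 1 by rw [polar_add_left, hcp, polar_comm Q p' p, hpp', zero_add]]
        at h1
      simpa [hh2, hg1] using h1
    have hsep : ∀ {o o' : Option F}, Bo o = Bo o' → o = o' := by
      have hcong : ∀ {x y : Ω}, AnnW HP x = AnnW HP y → Tsp HP x = Tsp HP y := fun hxy => by
        unfold Tsp; exact congrArg _ (congrArg _ (congrArg _ hxy))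
      have hTS : ∀ t : F, TSing Q (Tsp HP (sg Q c' (t • p') • ω)) := fun t =>
        tsing_smul HP (hlv t) hts
      have hdiff : ∀ t t' : F, AnnW HP (sg Q c' (t • p') • ω) = AnnW HP (sg Q c' (t' • p') • ω) →
          t = t' := by
        intro t t' htt
        have h1 : c + t • p' ∈ Tsp HP (sg Q c' (t • p') • ω) := hcimg t ▸ map_Tsp HP (hlv t) hc
        have h2 : c + t' • p' ∈ Tsp HP (sg Q c' (t • p') • ω) := by
          rw [hcong htt]; exact hcimg t' ▸ map_Tsp HP (hlv t') hc
        have h3 : p - t • c' ∈ Tsp HP (sg Q c' (t • p') • ω) := hpimg t ▸ map_Tsp HP (hlv t) hp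
        have e1 := (hTS t).polar_eq (sub_mem h1 h2) h3
        simp [polar_add_left, polar_sub_left, polar_smul_left, polar_sub_right, polar_smul_right,
          hcp, hp'c', hcc', polar_comm Q p' p, hpp'] at e1
        exact sub_eq_zero.1 e1
      have hinf' : ∀ t : F, AnnW HP ((h2 * g1) • ω) ≠ AnnW HP (sg Q c' (t • p') • ω) := by
        intro t htt
        have h1 : p' ∈ Tsp HP (sg Q c' (t • p') • ω) := hcong htt ▸ hinf
        have h3 : p - t • c' ∈ Tsp HP (sg Q c' (t • p') • ω) := hpimg t ▸ map_Tsp HP (hlv t) hp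
        have e1 := (hTS t).polar_eq h1 h3
        simp [polar_sub_right, polar_smul_right, hp'c', polar_comm Q p' p, hpp'] at e1
      intro o o' h
      rcases o with _ | t <;> rcases o' with _ | t'
      · rfl
      · exact absurd h (hinf' t')
      · exact absurd h.symm (hinf' t)
      · rw [hdiff t t' h]
    refine ⟨Finset.univ.image Bo, fun B hB => ?_, fun B hB => ?_, ?_, fun h => absurd h h4⟩
    · obtain ⟨o, -, rfl⟩ := Finset.mem_image.1 hB
      rcases o with _ | t
      · exact mem_TsetW.2 ⟨_, 1, hlvi, rfl⟩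
      · exact mem_TsetW.2 ⟨_, 1, hlv t, rfl⟩
    · obtain ⟨o, -, rfl⟩ := Finset.mem_image.1 hB
      rcases o with _ | t
      · show u ∈ AnnW HP ((h2 * g1) • ω)
        rw [AnnW_smul HP hlvi]
        refine Finset.mem_image.2 ⟨u, hu, Subtype.ext ?_⟩
        rw [psiW_one_val, G_mul, hg1,
          sg_fix hQc' (hba 1) (by rw [polar_comm]; exact hc'u) (by rw [polar_comm]; exact hau 1),
          hh2, sg_fix hQc hcpW huc hup]
      · exact (himg hc'W (hp'W.smul t) hQc' (hba t) hc'u (hau t)).2
    · rw [Finset.card_image_of_injective _ (fun _ _ h => hsep h), Finset.card_univ,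
        Fintype.card_option]

/-- The translates of a totally singular annihilator cover the singular vectors. -/
theorem mts_cover (hG : Good Q) (HP : Fr Q e f) (hd : 7 ≤ Module.finrank F V) {ω : Ω}
    {u : WQ Q e f} (hu : u ∈ AnnW HP ω) (hu0 : u ≠ 0) (hts : TSing Q (Tsp HP ω))
    {T : Finset (Finset (WQ Q e f))} (hT : T ⊆ TsetW HP ω) (hmem : ∀ B ∈ T, u ∈ B) :
    T.card * (Lset Q e f).card + (TsetW HP ω).card ≤ ∑ B ∈ TsetW HP ω, B.card := by
  have h := cover_inter HP (orbV_trans hG HP hd hu0) hT hmem
  rw [orbV_sing (hts _ (Submodule.subset_span ⟨u, hu, rfl⟩))] at h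
  refine (Nat.add_le_add_right h _).trans ?_
  rw [Finset.card_eq_sum_ones (TsetW HP ω), ← Finset.sum_add_distrib]
  refine Finset.sum_le_sum fun B hB => ?_
  obtain ⟨g, c, hg, rfl⟩ := mem_TsetW.1 hB
  have h0 : (0 : WQ Q e f) ∈ AnnW HP (g • ω) := zero_mem_AnnW HP _
  rw [← Finset.card_erase_add_one h0]
  refine Nat.add_le_add_right (Finset.card_le_card fun x hx => ?_) 1
  exact Finset.mem_erase.2 ⟨(mem_orbV.1 (Finset.mem_filter.1 hx).1).1, (Finset.mem_filter.1 hx).2⟩

end Cfsg.Agent.Lib.MinIndexO
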