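import Cfsg.Agent.Lib.MinIndexO.Main
import Cfsg.Agent.Lib.AutOmegaOdd.Std
import Cfsg.Agent.Lib.Classical.QuadStd

/-!
The odd dimensional orthogonal groups.
-/

set_option autoImplicit false

namespace Cfsg.Agent.Lib.MinIndexO

open QuadraticMap hiding proj
open Cfsg.Agent.Lib.Classical.Quad Cfsg.Agent.Lib.Classical.QuadOmega
open Cfsg.Agent.Lib.AutOmegaOdd (G Fr InW Qo Qo_apply hyp_Qo toP)

universe u v

attribute [local instance] _root_.Classical.propDecidable

section
variable {F : Type u} [Field F] [Fintype F] {V : Type v} [AddCommGroup V] [Module F V] [Fintype V]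
  {Q : QuadraticForm F V}

/-- A totally singular subspace of the orthogonal space is small. -/
theorem half_of (hG : Good Q) {e f : V} (HP : Fr Q e f) {S : Submodule F V} (hS : S ≤ WQ Q e f)
    (hts : TSing Q S) : 2 * Module.finrank F S + 2 ≤ Module.finrank F V := by
  set S' := S ⊔ Submodule.span F {e}
  have he : e ∉ S := fun h => one_ne_zero (HP.ef.symm.trans (mem_WQ.1 (hS h)).xf)
  have hlt : S < S' := lt_of_le_of_ne le_sup_left fun h => he (h ▸
    Submodule.mem_sup_right (Submodule.mem_span_singleton_self e))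
  have h1 := Submodule.finrank_lt_finrank_of_lt hlt
  have h2 : ∀ x ∈ S', ∀ y ∈ S', polar Q x y = 0 := by
    intro x hx y hy
    obtain ⟨a, ha, b, hb, rfl⟩ := Submodule.mem_sup.1 hx
    obtain ⟨c, hc, d, hd, rfl⟩ := Submodule.mem_sup.1 hy
    obtain ⟨β, rfl⟩ := Submodule.mem_span_singleton.1 hb
    obtain ⟨δ, rfl⟩ := Submodule.mem_span_singleton.1 hd
    simp [polar_add_left, polar_add_right, polar_smul_left, polar_smul_right,
      hts.polar_eq ha hc, (mem_WQ.1 (hS ha)).xe, (mem_WQ.1 (hS hc)).ex, polar_self_sing HP.ee]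
  have h3 := Nd.two_mul_finrank_le hG.nd S' h2
  omega

/-- The number of nonzero singular vectors. -/
theorem card_singP_true : (singP Q fun _ => True).card + 1 = Nat.card {v : V // Q v = 0} := by
  rw [Nat.card_eq_fintype_card, Fintype.card_subtype,
    show (singP Q fun _ => True) = (Finset.univ.filter fun v : V => Q v = 0).erase 0 by
      ext x; simp [singP], Finset.card_erase_add_one]
  simp

end

variable {F : Type u} [Field F] [Fintype F]

theorem finrank_Qo (m : ℕ) : Module.finrank F (AutOmegaOdd.I m → F) = 2 * m + 1 := by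
  rw [Module.finrank_pi, Fintype.card_sum, Fintype.card_sum, Fintype.card_unit, Fintype.card_fin]
  ring

theorem num_odd {q p : ℕ} (h5 : 5 ≤ q) (hodd : Odd q) (hp : p.Prime) (hdvd : p ∣ q) :
    q ^ 4 + q ^ 2 ≤ p * ((q - 1) / 2) * ((q - 1) * (q ^ 2 - 1)) + q := by
  obtain ⟨t, rfl⟩ := hodd
  rw [show (2 * t + 1 - 1) / 2 = t by omega, show 2 * t + 1 - 1 = 2 * t by omega,
    show (2 * t + 1) ^ 2 - 1 = 4 * t * t + 4 * t by
      rw [show (2 * t + 1) ^ 2 = 4 * t * t + 4 * t + 1 by ring, Nat.add_sub_cancel]]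
  obtain rfl | ht : t = 2 ∨ 3 ≤ t := by omega
  · obtain rfl : p = 5 := (Nat.prime_dvd_prime_iff_eq hp (by norm_num)).1 hdvd
    norm_num
  have hp3 : 3 ≤ p := by
    have := hp.two_le
    rcases Nat.lt_or_ge p 3 with h | h
    · obtain rfl : p = 2 := by omega
      omega
    · exact h
  obtain ⟨i, rfl⟩ : ∃ i, t = i + 3 := ⟨t - 3, by omega⟩
  calc _ ≤ 3 * (i + 3) * (2 * (i + 3) * (4 * (i + 3) * (i + 3) + 4 * (i + 3))) + (2 * (i + 3) + 1) := by
        nlinarith [Nat.zero_le (i * i), Nat.zero_le (i * i * i), Nat.zero_le (i * i * i * i)]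
    _ ≤ _ := by
        refine Nat.add_le_add_right (Nat.mul_le_mul_right _ (Nat.mul_le_mul_right _ hp3)) _

theorem min_index_odd {q : ℕ} (hF : Fintype.card F = q) (hodd : Odd q) (h5 : 5 ≤ q) (m : ℕ)
    (hm : 3 ≤ m) :
    (∀ H : Subgroup (Cfsg.POmega F (Cfsg.quadFormOdd m F)), H ≠ ⊤ →
      (q ^ (2 * m) - 1) / (q - 1) ≤ H.index) ∧
    ∃ H : Subgroup (Cfsg.POmega F (Cfsg.quadFormOdd m F)),
      H.index = (q ^ (2 * m) - 1) / (q - 1) := by
  subst hF
  have h2 : (2 : F) ≠ 0 := Ring.two_ne_zero fun h => by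
    have h' := FiniteField.even_card_of_char_two h
    rw [Nat.odd_iff] at hodd
    omega
  have hH := hyp_Qo (F := F) h2 hm
  have hN : (singP (Qo m F) fun _ => True).card = Fintype.card F ^ (2 * m) - 1 := by
    have h := card_singP_true (Q := Qo m F)
    rw [show Nat.card {v : AutOmegaOdd.I m → F // Qo m F v = 0} =
      Nat.card {v : Unit ⊕ (Fin m ⊕ Fin m) → F // Cfsg.quadFormOdd m F v = 0} by
        simp only [Qo_apply], card_sing_odd] at h
    omega
  have hpos : 0 < Fintype.card F - 1 := by omega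
  set π : G (Qo m F) →* Cfsg.POmega F (Cfsg.quadFormOdd m F) := (toP hH).toMonoidHom
  have hπ : Function.Surjective π := (toP hH).surjective
  refine ⟨fun H hH' => ?_, ?_⟩
  · haveI : Fact (ringChar F).Prime := ⟨CharP.char_is_prime F _⟩
    have hdvd : ringChar F ∣ Fintype.card F := by
      obtain ⟨n, -, hn⟩ := FiniteField.card F (ringChar F)
      exact hn ▸ dvd_pow_self _ n.ne_zero
    have h := index_bound hH.good (by rw [finrank_Qo]; omega) (by omega)
      (fun e f HP S hS hts => by
        have := half_of hH.good HP hS hts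
        rw [finrank_Qo] at this ⊢
        omega)
      (ringChar F) ((Fintype.card F - 1) / 2) (fun c hc => by have := card_sqSet hc; omega)
      (num_odd h5 hodd Fact.out hdvd) π hπ hH'
    rw [hN] at h
    exact Nat.div_le_of_le_mul h
  · obtain ⟨e, f, -, -, he, -, -, -, hef, -⟩ := hH.good.two
    have he0 : e ≠ 0 := fun h0 => by simp [h0, polar_zero_left] at hef
    obtain ⟨H, hH'⟩ := index_attained hH.good he he0 π hπ (fun z hz => by
      obtain rfl : z = 1 := (toP hH).injective (hz.trans (map_one _).symm)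
      exact ⟨1, one_ne_zero, by rw [one_smul]; rfl⟩)
    exact ⟨H, by rw [← hN, ← hH', Nat.mul_div_cancel_left _ hpos]⟩

end Cfsg.Agent.Lib.MinIndexO
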