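import Cfsg.Agent.Lib.MinIndexO.PrimeMain
import Cfsg.Agent.Lib.MinIndexO.Odd
import Cfsg.Agent.Lib.AutOmega.Std

/-!
The orthogonal groups of minus type.
-/

set_option autoImplicit false

namespace Cfsg.Agent.Lib.MinIndexO

open QuadraticMap hiding proj
open Cfsg.Agent.Lib.Classical.Quad Cfsg.Agent.Lib.Classical.QuadOmega
open Cfsg.Agent.Lib.Classical.QuadF2 (minusQ minusQ_apply finrank_le_of_minus)
open Cfsg.Agent.Lib.AutOmegaOdd (G G_Q Fr InW)
open Cfsg.Agent.Lib.AutOmega (PG pr pr_surjective toPG hyp_minus)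

universe u v w

attribute [local instance] _root_.Classical.propDecidable

section
variable {F : Type u} [Field F] [Fintype F] {V : Type v} [AddCommGroup V] [Module F V] [Fintype V]
  {Q : QuadraticForm F V}

/-- A bound on degrees bounds indices. -/
theorem index_of_degree {T : ℕ}
    (hdeg : ∀ (Ω : Type v) [Fintype Ω] [MulAction (G Q) Ω]
      [MulAction.IsPretransitive (G Q) Ω] [Nontrivial Ω],
      T ≤ (Fintype.card F - 1) * Fintype.card Ω)
    {P : Type w} [Group P] (π : G Q →* P) (hπ : Function.Surjective π) {H : Subgroup P}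
    (hH : H ≠ ⊤) : T ≤ (Fintype.card F - 1) * H.index := by
  rw [← Subgroup.index_comap_of_surjective H hπ]
  set K' := H.comap π
  haveI : Finite (G Q) := Subtype.finite
  letI : Fintype (G Q ⧸ K') := Fintype.ofFinite _
  haveI : Nontrivial (G Q ⧸ K') := by
    rw [← not_subsingleton_iff_nontrivial]
    intro h
    refine hH ?_
    have : K' = ⊤ := QuotientGroup.subgroup_eq_top_of_subsingleton K' h
    rwa [← Subgroup.comap_top π, (Subgroup.comap_injective hπ).eq_iff] at this
  rw [Subgroup.index_eq_card, Nat.card_eq_fintype_card]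
  exact hdeg _

theorem center_line (hG : Good Q) {e : V} {z : G Q}
    (hz : z ∈ Subgroup.center (G Q)) : ∃ c : F, c ≠ 0 ∧ z.1.1 e = c • e := by
  rcases center_cases hG hz with h | h
  · exact ⟨1, one_ne_zero, by rw [h, one_smul]; rfl⟩
  · exact ⟨-1, neg_ne_zero.2 one_ne_zero, by rw [h, negOne_apply, neg_one_smul]⟩

theorem card_levS_top (hG : Good Q) {e f : V} (HP : Fr Q e f) (c : F) :
    (levS Q ⊤ c).card =
      (Fintype.card F - 1) * Fintype.card (WQ Q e f) + Fintype.card F * (lev Q e f c).card := by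
  rw [card_lev, card_levS HP Submodule.mem_top Submodule.mem_top, top_inf_eq,
    Fintype.card_subtype]
  rfl

end

variable {F : Type u} [Field F] [Fintype F] {a b : F}

theorem finrank_minusQ (k : ℕ) :
    Module.finrank F ((Fin k ⊕ Fin k) ⊕ Fin 2 → F) = 2 * k + 2 := by
  rw [Module.finrank_pi, Fintype.card_sum, Fintype.card_sum, Fintype.card_fin, Fintype.card_fin]
  ring

theorem num_even {q : ℕ} (h4 : 4 ≤ q) :
    q ^ 4 + q ^ 2 ≤ 2 * (q - 1) * ((q - 1) * (q ^ 2 - 1)) + q := by
  obtain ⟨j, rfl⟩ : ∃ j, q = j + 4 := ⟨q - 4, by omega⟩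
  rw [show j + 4 - 1 = j + 3 by omega, show (j + 4) ^ 2 - 1 = j * j + 8 * j + 15 by
    rw [show (j + 4) ^ 2 = j * j + 8 * j + 16 by ring]; omega]
  nlinarith [Nat.zero_le (j * j), Nat.zero_le (j * j * j), Nat.zero_le (j * j * j * j)]

theorem card_levS_minus (hab : Aniso a b) (k : ℕ) {c : F} (hc : c ≠ 0) :
    (levS (minusQ k a b) ⊤ c).card = Fintype.card F ^ k * (Fintype.card F ^ (k + 1) + 1) := by
  rw [← card_level_minus hab k, ← Fintype.card_coe, ← Nat.card_eq_fintype_card]
  obtain ⟨w, hw⟩ := exists_binQ_eq hab c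
  have hw0 : w ≠ 0 := fun h => hc (by rw [← hw, h, map_zero])
  obtain ⟨s, hs⟩ := exists_similitude (binQ a b) k hc (mulW a b w) (mulW_injective hab hw0) fun v => by
    rw [binQ_mulW, hw]
  refine (Nat.card_congr ((s.trans (eMinus k)).toEquiv.subtypeEquiv fun p => ?_)).symm
  show _ ↔ eMinus k (s p) ∈ levS (minusQ k a b) ⊤ c
  simp only [levS, Finset.mem_filter, Finset.mem_univ, true_and, Submodule.mem_top, minusQ_apply,
    minus_apply, hs]
  exact ⟨fun h => by rw [h, mul_one], fun h => mul_left_cancel₀ hc (h.trans (mul_one c).symm)⟩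

theorem min_index_minus {q : ℕ} (hF : Fintype.card F = q) (hab : Aniso a b) (k : ℕ) (hk : 3 ≤ k) :
    (∀ H : Subgroup (Cfsg.POmega F (Cfsg.quadFormMinus k F a b)), H ≠ ⊤ →
      (q ^ (k + 1) + 1) * (q ^ k - 1) / (q - 1) ≤ H.index) ∧
    ∃ H : Subgroup (Cfsg.POmega F (Cfsg.quadFormMinus k F a b)),
      H.index = (q ^ (k + 1) + 1) * (q ^ k - 1) / (q - 1) := by
  subst hF
  have hH := hyp_minus hab hk
  have hG := hH.good
  have hd := finrank_minusQ (F := F) k
  have hq1 : 1 < Fintype.card F := Fintype.one_lt_card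
  have hpos : 0 < Fintype.card F - 1 := by omega
  set T := (Fintype.card F ^ (k + 1) + 1) * (Fintype.card F ^ k - 1) with hT
  have hN : (singP (minusQ k a b) fun _ => True).card = T := by
    have h := card_singP_true (Q := minusQ k a b)
    rw [show Nat.card {v : (Fin k ⊕ Fin k) ⊕ Fin 2 → F // minusQ k a b v = 0} =
      Nat.card {v : (Fin k ⊕ Fin k) ⊕ Fin 2 → F // Cfsg.quadFormMinus k F a b v = 0} by
        simp only [minusQ_apply], card_sing_minus hab] at h
    obtain ⟨i, hi⟩ : ∃ i, Fintype.card F ^ k = i + 1 :=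
      ⟨Fintype.card F ^ k - 1, (Nat.sub_add_cancel (Nat.one_le_pow _ _ (by omega))).symm⟩
    have e1 : Fintype.card F ^ (2 * k + 1) = Fintype.card F ^ (k + 1) * Fintype.card F ^ k := by
      rw [← pow_add]; congr 1; ring
    rw [e1, hi] at h
    rw [hT, hi, Nat.add_sub_cancel]
    have e2 : Fintype.card F ^ (k + 1) * (i + 1) = Fintype.card F ^ (k + 1) * i +
        Fintype.card F ^ (k + 1) := by ring
    rw [add_mul, one_mul]
    omega
  set π : G (minusQ k a b) →* Cfsg.POmega F (Cfsg.quadFormMinus k F a b) :=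
    (toPG (fun v => minusQ_apply k a b v) hG).symm.toMonoidHom.comp (pr (minusQ k a b))
  have hπ : Function.Surjective π :=
    (toPG (fun v => minusQ_apply k a b v) hG).symm.surjective.comp pr_surjective
  have hmax : ∀ S : Submodule F ((Fin k ⊕ Fin k) ⊕ Fin 2 → F), TSing (minusQ k a b) S →
      2 * Module.finrank F S < Module.finrank F ((Fin k ⊕ Fin k) ⊕ Fin 2 → F) := by
    intro S hS
    have := finrank_le_of_minus hab k S fun v hv => by rw [← minusQ_apply]; exact hS v hv
    omega
  have hhalf : ∀ (e f : (Fin k ⊕ Fin k) ⊕ Fin 2 → F), Fr (minusQ k a b) e f → ∀ S : Submodule F _,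
      S ≤ WQ (minusQ k a b) e f → TSing (minusQ k a b) S →
      2 * Module.finrank F S + 2 < Module.finrank F ((Fin k ⊕ Fin k) ⊕ Fin 2 → F) := by
    intro e f HP S hS hts
    have hts' : TSing (minusQ k a b) (S ⊔ Submodule.span F {e}) := by
      intro x hx
      obtain ⟨s, hs, r, hr, rfl⟩ := Submodule.mem_sup.1 hx
      obtain ⟨β, rfl⟩ := Submodule.mem_span_singleton.1 hr
      rw [QuadraticMap.map_add ⇑(minusQ k a b), QuadraticMap.map_smul, hts s hs, HP.ee,
        polar_smul_right, (mem_WQ.1 (hS hs)).xe]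
      simp
    have he : e ∉ S := fun h => one_ne_zero (HP.ef.symm.trans (mem_WQ.1 (hS h)).xf)
    have hlt : S < S ⊔ Submodule.span F {e} := lt_of_le_of_ne le_sup_left fun h => he (h ▸
      Submodule.mem_sup_right (Submodule.mem_span_singleton_self e))
    have h1 := Submodule.finrank_lt_finrank_of_lt hlt
    have h2 := finrank_le_of_minus hab k _ fun v hv => by rw [← minusQ_apply]; exact hts' v hv
    omega
  haveI : Fact (ringChar F).Prime := ⟨CharP.char_is_prime F _⟩
  obtain ⟨n, -, hn⟩ := FiniteField.card F (ringChar F)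
  have hdvd : ringChar F ∣ Fintype.card F := hn ▸ dvd_pow_self _ n.ne_zero
  refine ⟨fun H hH' => Nat.div_le_of_le_mul ?_, ?_⟩
  · by_cases h4 : 4 ≤ Fintype.card F
    · rw [← hN]
      by_cases h2 : (2 : F) = 0
      · have hp : ringChar F = 2 :=
          CharP.ringChar_of_prime_eq_zero Nat.prime_two (by exact_mod_cast h2)
        exact index_bound hG (by omega) h4 hhalf (ringChar F) (Fintype.card F - 1)
          (fun c hc => (card_sqSet_two h2 hc).ge) (by rw [hp]; exact num_even h4) π hπ hH'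
      · have hodd := odd_card_of_two_ne_zero (F := F) h2
        exact index_bound hG (by omega) h4 hhalf (ringChar F) ((Fintype.card F - 1) / 2)
          (fun c hc => by have := card_sqSet hc; omega)
          (num_odd (by rw [Nat.odd_iff] at hodd; omega) hodd Fact.out hdvd) π hπ hH'
    · have hq : Fintype.card F = ringChar F := by
        rcases Nat.lt_or_ge (n : ℕ) 2 with h | h
        · rw [hn, show (n : ℕ) = 1 by have := n.pos; omega, pow_one]
        · exfalso
          have h1 := Nat.pow_le_pow_right (Fact.out : (ringChar F).Prime).pos h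
          have h2 := Nat.pow_le_pow_left (Fact.out : (ringChar F).Prime).two_le 2
          rw [← hn] at h1
          omega
      refine index_of_degree (fun Ω _ _ _ _ => ?_) π hπ hH'
      set q := Fintype.card F
      obtain ⟨j, rfl⟩ : ∃ j, k = j + 1 := ⟨k - 1, by omega⟩
      have hX : ∀ (e f : (Fin (j + 1) ⊕ Fin (j + 1)) ⊕ Fin 2 → F),
          Fr (minusQ (j + 1) a b) e f →
          Fintype.card (WQ (minusQ (j + 1) a b) e f) = q ^ (2 * j + 2) := fun e f HP => by
        rw [Module.card_eq_pow_finrank (K := F)]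
        congr 1
        have := finrank_WQ hG HP
        omega
      have hlev : ∀ (e f : (Fin (j + 1) ⊕ Fin (j + 1)) ⊕ Fin 2 → F),
          Fr (minusQ (j + 1) a b) e f → ∀ c : F, c ≠ 0 →
          q ^ (2 * j + 1) + q ^ j ≤ (lev (minusQ (j + 1) a b) e f c).card := by
        intro e f HP c hc
        have h := card_levS_top hG HP c
        rw [card_levS_minus hab _ hc, hX e f HP] at h
        simp only [show Fintype.card F = q from rfl] at h
        refine Nat.le_of_mul_le_mul_left (le_of_eq ?_) (show 0 < q by omega)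
        obtain ⟨i, hi⟩ : ∃ i, q = i + 1 := ⟨q - 1, by omega⟩
        rw [hi, Nat.add_sub_cancel] at h
        rw [hi]
        have e1 : (i + 1) ^ (j + 1) * ((i + 1) ^ (j + 1 + 1) + 1) =
            i * (i + 1) ^ (2 * j + 2) + (i + 1) * ((i + 1) ^ (2 * j + 1) + (i + 1) ^ j) := by ring
        omega
      have hTb : T + 2 ≤ q * q ^ (2 * j + 2) := by
        rw [hT]
        obtain ⟨i, hi⟩ : ∃ i, q ^ (j + 1) = i + 1 :=
          ⟨q ^ (j + 1) - 1, (Nat.sub_add_cancel (Nat.one_le_pow _ _ (by omega))).symm⟩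
        rw [show q ^ (j + 1 + 1) = q * q ^ (j + 1) from pow_succ' _ _,
          show q * q ^ (2 * j + 2) = q * q ^ (j + 1) * q ^ (j + 1) by ring, hi, Nat.add_sub_cancel]
        nlinarith [Nat.mul_le_mul_right (i + 1) hq1]
      rw [hq]
      refine min_degree_prime hG (by omega) (ringChar F) hq (by omega) (fun _ => by omega)
        (fun _ ω h1 h2 => by
          obtain ⟨e, f, -, -, he, hf, -, -, hef, -⟩ := hG.two
          exact exclude hG (by omega) (Or.inr hmax) ⟨he, hf, hef⟩ ω (h1 ω) (h2 e f ⟨he, hf, hef⟩))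
        T (q ^ (2 * j + 1) + q ^ j)
        (fun e f HP ω h1 h2 => absurd (hhalf e f HP _ (Tsp_le HP ω) h1) (by omega)) hlev (fun e f HP => ?_) (fun e f HP => ?_) (fun e f HP => ?_)
      · rw [← hq, hX e f HP]; exact hTb
      · rw [← hq, hX e f HP, show q * (q ^ (2 * j + 1) + q ^ j) = q ^ (2 * j + 2) + q * q ^ j by ring]
        have : (q - 1) * q ^ (2 * j + 2) + q ^ (2 * j + 2) = q * q ^ (2 * j + 2) := by
          obtain ⟨i, hi⟩ : ∃ i, q = i + 1 := ⟨q - 1, by omega⟩
          rw [hi, Nat.add_sub_cancel]; ring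
        omega
      · right
        rw [← hN, card_sing HP, ← hq]
        simp only [show Fintype.card F = q from rfl]
        obtain ⟨i, hi⟩ : ∃ i, q = i + 1 := ⟨q - 1, by omega⟩
        rw [hi, Nat.add_sub_cancel]
        ring
  · obtain ⟨e, f, -, -, he, -, -, -, hef, -⟩ := hG.two
    have he0 : e ≠ 0 := fun h0 => by simp [h0, polar_zero_left] at hef
    obtain ⟨H, hH'⟩ := index_attained hG he he0 π hπ (fun z hz => center_line hG
      (AutOmega.pr_eq_one.1 ((toPG (fun v => minusQ_apply k a b v) hG).symm.injective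
        (hz.trans (map_one _).symm))))
    exact ⟨H, by rw [← hN, ← hH', Nat.mul_div_cancel_left _ hpos]⟩

end Cfsg.Agent.Lib.MinIndexO
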