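import Cfsg.Agent.Lib.MinIndexO.Minus

/-!
The odd dimensional groups over three elements.
-/

set_option autoImplicit false

namespace Cfsg.Agent.Lib.MinIndexO

open QuadraticMap hiding proj
open Cfsg.Agent.Lib.Classical.Quad Cfsg.Agent.Lib.Classical.QuadOmega
open Cfsg.Agent.Lib.AutOmegaOdd (G G_mul G_one G_inv G_Q G_B Fr InW Qo Qo_apply hyp_Qo toP)

universe u v w

attribute [local instance] _root_.Classical.propDecidable

section
variable {F : Type u} [Field F] [Fintype F] {V : Type v} [AddCommGroup V] [Module F V] [Finite V]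

/-- The recursion for level sets. -/
theorem card_level_hypExt (R : QuadraticForm F V) (c : F) :
    Nat.card {p : (F × F) × V // hypExt R p = c} =
      (Fintype.card F - 1) * Nat.card V + Fintype.card F * Nat.card {v : V // R v = c} := by
  letI := Fintype.ofFinite V
  rw [Nat.card_congr (Equiv.subtypeEquiv (Equiv.prodComm (F × F) V)
    (q := fun p : V × (F × F) => p.2.1 * p.2.2 = c - R p.1) fun p => by
      rw [hypExt_apply, eq_sub_iff_add_eq]; rfl),
    Nat.card_eq_fintype_card, Fintype.card_subtype, Finset.card_filter, Fintype.sum_prod_type]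
  simp only [← Finset.card_filter, card_mul_eq, Finset.sum_add_distrib, Finset.sum_const,
    smul_eq_mul, Finset.card_univ, sub_eq_zero]
  rw [Nat.card_eq_fintype_card, Nat.card_eq_fintype_card, Fintype.card_subtype, ← Finset.sum_filter,
    Finset.sum_const, smul_eq_mul]
  simp only [eq_comm (a := c)]
  ring

theorem card_level_splitQ_succ (Q₀ : QuadraticForm F V) (m : ℕ) (c : F) :
    Nat.card {v // splitQ (m + 1) Q₀ v = c} =
      (Fintype.card F - 1) * Nat.card (((Fin m → F) × (Fin m → F)) × V) +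
        Fintype.card F * Nat.card {v // splitQ m Q₀ v = c} := by
  rw [← card_level_hypExt]
  exact (Nat.card_congr ((succEquiv m).toEquiv.subtypeEquiv fun p => by
    rw [← splitQ_succ]; rfl)).symm

end

section
variable {F : Type u} [Field F] [Fintype F] {V : Type v} [AddCommGroup V] [Module F V] [Fintype V]
  {Q : QuadraticForm F V}

/-- The lines of vectors with given value. -/
theorem index_attained_level (hG : Good Q) (hq : Fintype.card F ≤ 3) {v : V} (hv : Q v ≠ 0)
    {P : Type w} [Group P] (π : G Q →* P) (hπ : Function.Surjective π)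
    (hker : ∀ z ∈ π.ker, ∃ c : F, c ≠ 0 ∧ z.1.1 v = c • v) :
    ∃ H : Subgroup P, (Fintype.card F - 1) * H.index = (levS Q ⊤ (Q v)).card := by
  refine ⟨(stLine Q v).map π, ?_⟩
  rw [Subgroup.index_map_eq (stLine Q v) hπ hker]
  haveI : Finite (G Q) := Subtype.finite
  letI : Fintype (G Q ⧸ stLine Q v) := Fintype.ofFinite _
  have hv0 : v ≠ 0 := fun h => hv (by rw [h, map_zero])
  rw [Subgroup.index_eq_card, Nat.card_eq_fintype_card, mul_comm,
    ← Finset.card_univ (α := G Q ⧸ stLine Q v), ← Finset.card_univ (α := F),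
    ← Finset.card_erase_of_mem (Finset.mem_univ (0 : F)), ← Finset.card_product]
  have hne : ∀ g : G Q, g.1.1 v ≠ 0 := fun g h => hv0 (g.1.1.map_eq_zero_iff.1 h)
  obtain ⟨e, f, -, -, he, hf, -, -, hef, -⟩ := hG.two
  refine Finset.card_bij (fun p _ => p.2 • (p.1.out).1.1 v) ?_ ?_ ?_
  · intro p hp
    have hp0 := (Finset.mem_erase.1 (Finset.mem_product.1 hp).2).1
    refine Finset.mem_filter.2 ⟨Finset.mem_univ _, Submodule.mem_top, ?_⟩
    rw [QuadraticMap.map_smul, G_Q, smul_eq_mul, ← pow_two, sq_one_small (by omega) hp0, one_mul]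
  · intro p hp p' hp' h
    have hp0 := (Finset.mem_erase.1 (Finset.mem_product.1 hp).2).1
    have hp0' := (Finset.mem_erase.1 (Finset.mem_product.1 hp').2).1
    have hmem : (p.1.out)⁻¹ * p'.1.out ∈ stLine Q v := by
      refine ⟨p'.2⁻¹ * p.2, mul_ne_zero (inv_ne_zero hp0') hp0, ?_⟩
      rw [G_mul, ← inv_smul_smul₀ hp0' ((p'.1.out).1.1 v), ← h, _root_.map_smul, _root_.map_smul,
        G_inv, smul_smul]
    have h1 : p.1 = p'.1 := by
      rw [← QuotientGroup.out_eq' p.1, ← QuotientGroup.out_eq' p'.1]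
      exact QuotientGroup.eq.2 hmem
    rw [h1] at h
    exact Prod.ext h1 (smul_left_injective F (hne _) h)
  · intro x hx
    have hQx := (Finset.mem_filter.1 hx).2.2
    obtain ⟨t1, ht1, h1⟩ := hG.exists_map_nonsing he hf hef hv
    obtain ⟨t2, ht2, h2⟩ := hG.exists_map_nonsing he hf hef (w := x) (by rwa [hQx])
    set g : G Q := ⟨t2, ht2⟩ * ⟨t1, ht1⟩⁻¹
    have hg : g.1.1 v = x := by
      show t2.1 (t1.1.symm v) = x
      rw [show t1.1.symm v = Q v • e + f from (LinearEquiv.symm_apply_eq _).2 h1.symm, ← hQx, h2]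
    obtain ⟨⟨k, c, hc, hk⟩, hout⟩ := QuotientGroup.mk_out_eq_mul (stLine Q v) g
    refine ⟨((g : G Q ⧸ stLine Q v), c⁻¹),
      Finset.mem_product.2 ⟨Finset.mem_univ _, Finset.mem_erase.2 ⟨inv_ne_zero hc, Finset.mem_univ _⟩⟩, ?_⟩
    show c⁻¹ • ((g : G Q ⧸ stLine Q v).out).1.1 v = x
    rw [hout, G_mul, hk, _root_.map_smul, smul_smul, inv_mul_cancel₀ hc, one_smul]
    exact hg

end

variable {F : Type u} [Field F] [Fintype F]

/-- The levels of the standard odd form over three elements. -/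
theorem card_level_three (hq : Fintype.card F = 3) (m : ℕ) :
    Nat.card {v // splitQ m (sqQ F) v = (-1 : F)} + 3 ^ m = 3 ^ (2 * m) ∧
      Nat.card {v // splitQ m (sqQ F) v = (1 : F)} = 3 ^ (2 * m) + 3 ^ m := by
  have h30 := three_zero hq
  have h12 : (-1 : F) ≠ 1 := fun h => one_ne_zero (show (1 : F) = 0 by linear_combination h30 + h)
  induction m with
  | zero =>
    have e : ∀ c : F, Nat.card {v // splitQ 0 (sqQ F) v = c} = Nat.card {t : F // t ^ 2 = c} := by
      intro c
      refine Nat.card_congr ((zeroEquiv.trans (LinearEquiv.funUnique Unit F F)).toEquiv.subtypeEquiv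
        fun p => ?_)
      simp [splitQ_apply, sqQ_apply, zeroEquiv]
    rw [e, e, Nat.card_eq_fintype_card, Nat.card_eq_fintype_card, Fintype.card_subtype,
      Fintype.card_subtype]
    refine ⟨?_, ?_⟩
    · rw [Finset.filter_false_of_mem fun t _ ht => ?_]
      · simp
      rcases eq_or_ne t 0 with rfl | h0
      · simp at ht
      · rw [sq_one_small (by omega) h0] at ht; exact h12 ht.symm
    · rw [show (Finset.univ.filter fun t : F => t ^ 2 = 1) = {1, -1} by
        ext t; simp [sq_eq_one_iff], Finset.card_pair h12.symm]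
      norm_num
  | succ m ih =>
    rw [card_level_splitQ_succ, card_level_splitQ_succ, hq, Nat.card_prod, Nat.card_prod,
      Nat.card_fun, Nat.card_fin, Nat.card_fun, Nat.card_eq_fintype_card (α := Unit), Fintype.card_unit,
      pow_one, Nat.card_eq_fintype_card (α := F), hq,
      show 3 ^ m * 3 ^ m * 3 = 3 ^ (2 * m + 1) by ring,
      show 2 * (m + 1) = 2 * m + 1 + 1 by ring, pow_succ 3 (2 * m + 1), pow_succ 3 (2 * m),
      pow_succ 3 m]
    omega

theorem levS_Qo (m : ℕ) (c : F) :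
    (levS (Qo m F) ⊤ c).card = Nat.card {v // splitQ m (sqQ F) v = c} := by
  rw [← Fintype.card_coe, ← Nat.card_eq_fintype_card]
  refine (Nat.card_congr ((eOdd m).toEquiv.subtypeEquiv fun p => ?_)).symm
  simp [levS, Qo_apply, odd_apply]

theorem min_index_odd_three (hq : Fintype.card F = 3) (m : ℕ) (hm : 3 ≤ m) :
    (∀ H : Subgroup (Cfsg.POmega F (Cfsg.quadFormOdd m F)), H ≠ ⊤ →
      3 ^ m * (3 ^ m - 1) / 2 ≤ H.index) ∧
    ∃ H : Subgroup (Cfsg.POmega F (Cfsg.quadFormOdd m F)),
      H.index = 3 ^ m * (3 ^ m - 1) / 2 := by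
  have h30 := three_zero hq
  have h2 : (2 : F) ≠ 0 := fun h => one_ne_zero (show (1 : F) = 0 by linear_combination h30 - h)
  have hH := hyp_Qo (F := F) h2 hm
  have hG := hH.good
  have hd := finrank_Qo (F := F) m
  obtain ⟨j, rfl⟩ : ∃ j, m = j + 1 := ⟨m - 1, by omega⟩
  set π : G (Qo (j + 1) F) →* Cfsg.POmega F (Cfsg.quadFormOdd (j + 1) F) := (toP hH).toMonoidHom
  have hπ : Function.Surjective π := (toP hH).surjective
  obtain ⟨hlow, hhigh⟩ := card_level_three hq (j + 1)
  have hcases : ∀ c : F, c ≠ 0 → c = 1 ∨ c = -1 := fun c hc =>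
    sq_eq_one_iff.1 (sq_one_small (by omega) hc)
  have hlev1 : 3 ^ (j + 1) * (3 ^ (j + 1) - 1) = (levS (Qo (j + 1) F) ⊤ (-1)).card := by
    rw [levS_Qo, Nat.mul_sub_one, ← pow_add, ← two_mul]
    omega
  have hpj : 1 ≤ 3 ^ j := Nat.one_le_pow _ _ (by norm_num)
  have ep : 3 ^ (2 * (j + 1)) = 3 * 3 ^ (2 * j + 1) := by
    rw [show 2 * (j + 1) = 2 * j + 1 + 1 by ring, pow_succ']
  have ep' : 3 ^ (2 * j + 1) = 3 * (3 ^ j * 3 ^ j) := by ring
  have ep'' : 3 ^ (j + 1) = 3 * 3 ^ j := pow_succ' _ _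
  refine ⟨fun H hH' => Nat.div_le_of_le_mul ?_, ?_⟩
  · haveI : Fact (Nat.Prime 3) := ⟨by norm_num⟩
    haveI : CharP F 3 := charP_of_card_eq_prime hq
    have h := index_of_degree (Q := Qo (j + 1) F) (T := 3 ^ (j + 1) * (3 ^ (j + 1) - 1))
      (fun Ω _ _ _ _ => ?_) π hπ hH'
    · rw [hq] at h; exact h
    rw [hq]
    have hX : ∀ (e f : AutOmegaOdd.I (j + 1) → F), Fr (Qo (j + 1) F) e f →
        Fintype.card (WQ (Qo (j + 1) F) e f) = 3 ^ (2 * j + 1) := fun e f HP => by
      rw [Module.card_eq_pow_finrank (K := F), hq]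
      congr 1
      have := finrank_WQ hG HP
      omega
    have hT : 3 ^ (j + 1) * (3 ^ (j + 1) - 1) + 3 ^ (j + 1) = 3 * 3 ^ (2 * j + 1) := by
      rw [Nat.mul_sub_one, Nat.sub_add_cancel (Nat.le_mul_of_pos_left _ (by positivity))]; ring
    refine min_degree_prime hG (by omega) 3 hq le_rfl
      (fun h => absurd h (by norm_num)) (fun h => absurd h (by norm_num)) _ (3 ^ j * 3 ^ j - 3 ^ j)
      (fun e f HP ω h1 h2 => by
        have := half_of hG HP (Tsp_le HP ω) h1
        omega)
      (fun e f HP c hc => ?_)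
      (fun e f HP => ?_) (fun e f HP => ?_) (fun e f HP => ?_)
    · have h1 := card_levS_top hG HP c
      rw [levS_Qo, hq, hX e f HP] at h1
      rcases hcases c hc with rfl | rfl <;> omega
    · rw [hX e f HP]; omega
    · rw [hX e f HP, Nat.mul_sub]
      have := Nat.le_mul_of_pos_left (3 ^ j) hpj
      have : 3 ^ (j + 1) * 3 ^ (j + 1) = 9 * (3 ^ j * 3 ^ j) := by ring
      rw [ep'] at hT ⊢
      omega
    · left
      have h1 := card_sing (Q := Qo (j + 1) F) HP
      have h2' := card_singP_true (Q := Qo (j + 1) F)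
      rw [show Nat.card {v : AutOmegaOdd.I (j + 1) → F // Qo (j + 1) F v = 0} =
        Nat.card {v : Unit ⊕ (Fin (j + 1) ⊕ Fin (j + 1)) → F //
          Cfsg.quadFormOdd (j + 1) F v = 0} by simp only [Qo_apply], card_sing_odd, hq, ep] at h2'
      rw [hq, hX e f HP] at h1
      rw [hX e f HP]
      omega
  · obtain ⟨e, f, -, -, he, hf, -, -, hef, -⟩ := hG.two
    have hv : Qo (j + 1) F ((-1 : F) • e + f) = -1 := pair_nonsing he hf hef _
    obtain ⟨H, hH'⟩ := index_attained_level hG hq.le (v := (-1 : F) • e + f)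
      (by rw [hv]; exact neg_ne_zero.2 one_ne_zero) π hπ (fun z hz => by
        obtain rfl : z = 1 := (toP hH).injective (hz.trans (map_one _).symm)
        exact ⟨1, one_ne_zero, by rw [one_smul]; rfl⟩)
    rw [hv, ← hlev1, hq] at hH'
    exact ⟨H, by omega⟩

end Cfsg.Agent.Lib.MinIndexO
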