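import Cfsg.Agent.Lib.MinIndexO.Basic
import Cfsg.Agent.Lib.MinIndexSU.Orbits

/-!
Orbits of the radical of a point stabiliser and their annihilators.
-/

set_option autoImplicit false

namespace Cfsg.Agent.Lib.MinIndexO

open QuadraticMap hiding proj
open Cfsg.Agent.Lib.Classical.Quad Cfsg.Agent.Lib.Classical.QuadOmega
open Cfsg.Agent.Lib.AutOmegaOdd (G G_ext G_mul G_one G_inv G_inv' G_Q G_B sg sg_apply sg_add sg_zero
  sg_self sg_neg sg_smul sg_conj sg_fix sg_fix_self sg_swap Fr InW proj proj_mem decomp B_proj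
  sg_e_fix sg_e_f sg_e_inj)
open Cfsg.Agent.Lib.AutOmega (W_pair W_partner W_nondeg W_induction)
open Cfsg.Agent.Lib.MinIndexSp (perp mem_perp card_perp exists_perp)
open Cfsg.Agent.Lib.MinIndexSU (psi psi_one psi_sub)

universe u v w

attribute [local instance] _root_.Classical.propDecidable

variable {F : Type u} [Field F] [Fintype F] {V : Type v} [AddCommGroup V] [Module F V] [Fintype V]
  {Q : QuadraticForm F V} {e f : V}

/-- The linear functional of a vector of the orthogonal space. -/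
noncomputable def innerW (v : WQ Q e f) : WQ Q e f →+ F where
  toFun w := polar Q (v : V) w
  map_zero' := by simp
  map_add' a b := by simp [polar_add_right]

/-- The character of a vector. -/
noncomputable def kapW (v : WQ Q e f) : AddChar (WQ Q e f) ℂ :=
  (psi F).compAddMonoidHom (innerW v)

omit [Fintype V] in
theorem kapW_apply (v w : WQ Q e f) : kapW v w = psi F (polar Q (v : V) w) := rfl

theorem kapW_injective (hG : Good Q) (HP : Fr Q e f) :
    Function.Injective (kapW (Q := Q) (e := e) (f := f)) := by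
  intro v v' h
  by_contra hne
  obtain ⟨w, hw, h1⟩ := W_nondeg hG HP (mem_WQ.1 (v - v').2)
    (fun h0 => hne (sub_eq_zero.1 (Subtype.ext h0)))
  have h2 := psi_sub (DFunLike.congr_fun h ⟨w, hw⟩)
  simp only [innerW, AddMonoidHom.coe_mk, ZeroHom.coe_mk] at h2
  rw [Submodule.coe_sub, polar_sub_left] at h1
  rw [h1] at h2
  exact psi_one h2

variable {Ω : Type w} [MulAction (G Q) Ω]

omit [Fintype F] [Fintype V] in
/-- The stabiliser in the radical. -/
noncomputable def Kst (HP : Fr Q e f) (ω : Ω) : AddSubgroup (WQ Q e f) where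
  carrier := {w | sg Q e (w : V) • ω = ω}
  add_mem' := fun {a b} ha hb => by
    show sg Q e ((a + b : WQ Q e f) : V) • ω = ω
    rw [Submodule.coe_add, sg_add HP.ee (mem_WQ.1 a.2).ex (mem_WQ.1 b.2).ex, mul_smul, hb, ha]
  zero_mem' := by
    show sg Q e ((0 : WQ Q e f) : V) • ω = ω
    rw [Submodule.coe_zero, sg_zero HP.ee, one_smul]
  neg_mem' := fun {a} ha => by
    show sg Q e ((-a : WQ Q e f) : V) • ω = ω
    rw [Submodule.coe_neg, sg_neg HP.ee (mem_WQ.1 a.2).ex, inv_smul_eq_iff, ha]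

omit [Fintype F] [Fintype V] in
theorem mem_Kst {HP : Fr Q e f} {ω : Ω} {w : WQ Q e f} :
    w ∈ Kst HP ω ↔ sg Q e (w : V) • ω = ω := Iff.rfl

/-- The annihilator of the stabiliser. -/
noncomputable def AnnW (HP : Fr Q e f) (ω : Ω) : Finset (WQ Q e f) := perp kapW (Kst HP ω)

theorem mem_AnnW {HP : Fr Q e f} {ω : Ω} {v : WQ Q e f} :
    v ∈ AnnW HP ω ↔ ∀ w ∈ Kst HP ω, kapW v w = 1 := mem_perp _

theorem add_mem_AnnW {HP : Fr Q e f} {ω : Ω} {v v' : WQ Q e f} (hv : v ∈ AnnW HP ω)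
    (hv' : v' ∈ AnnW HP ω) : v + v' ∈ AnnW HP ω := mem_AnnW.2 fun w hw => by
  rw [kapW_apply, Submodule.coe_add, polar_add_left, AddChar.map_add_eq_mul]
  have h1 := mem_AnnW.1 hv w hw
  have h2 := mem_AnnW.1 hv' w hw
  rw [kapW_apply] at h1 h2
  rw [h1, h2, one_mul]

theorem neg_mem_AnnW {HP : Fr Q e f} {ω : Ω} {v : WQ Q e f} (hv : v ∈ AnnW HP ω) :
    -v ∈ AnnW HP ω := mem_AnnW.2 fun w hw => by
  have h1 := mem_AnnW.1 hv (-w) (neg_mem hw)
  rw [kapW_apply, Submodule.coe_neg, polar_neg_right] at h1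
  rwa [kapW_apply, Submodule.coe_neg, polar_neg_left]

theorem sub_mem_AnnW {HP : Fr Q e f} {ω : Ω} {v v' : WQ Q e f} (hv : v ∈ AnnW HP ω)
    (hv' : v' ∈ AnnW HP ω) : v - v' ∈ AnnW HP ω := by
  rw [sub_eq_add_neg]; exact add_mem_AnnW hv (neg_mem_AnnW hv')

theorem zero_mem_AnnW (HP : Fr Q e f) (ω : Ω) : (0 : WQ Q e f) ∈ AnnW HP ω :=
  mem_AnnW.2 fun w _ => by simp [kapW_apply]

/-- A vector annihilated by every annihilator element fixes the point. -/
theorem mem_Kst_of_perp (hG : Good Q) (HP : Fr Q e f) {ω : Ω} {w : WQ Q e f}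
    (h : ∀ v ∈ AnnW HP ω, kapW v w = 1) : w ∈ Kst HP ω := by
  by_contra hw
  obtain ⟨v, hv, hne⟩ := exists_perp kapW (kapW_injective hG HP) hw
  exact hne (h v hv)

/-- The orbit of the radical. -/
noncomputable def orbW (_HP : Fr Q e f) (ω : Ω) : Finset Ω :=
  (Finset.univ : Finset (WQ Q e f)).image fun w => sg Q e (w : V) • ω

theorem mem_orbW {HP : Fr Q e f} {ω y : Ω} : y ∈ orbW HP ω ↔ ∃ w : WQ Q e f, sg Q e (w : V) • ω = y := by
  simp [orbW]

theorem self_mem_orbW (HP : Fr Q e f) (ω : Ω) : ω ∈ orbW HP ω :=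
  mem_orbW.2 ⟨0, by rw [Submodule.coe_zero, sg_zero HP.ee, one_smul]⟩

theorem card_orbW (hG : Good Q) (HP : Fr Q e f) (ω : Ω) :
    (orbW HP ω).card = (AnnW HP ω).card := by
  have h1 := Finset.card_eq_sum_card_image (fun w : WQ Q e f => sg Q e (w : V) • ω) Finset.univ
  have h2 : ∀ y ∈ orbW HP ω, (Finset.univ.filter fun w : WQ Q e f => sg Q e (w : V) • ω = y).card =
      Nat.card (Kst HP ω) := by
    intro y hy
    obtain ⟨w0, rfl⟩ := mem_orbW.1 hy
    rw [Nat.card_eq_fintype_card, ← Finset.card_univ]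
    symm
    refine Finset.card_bij (fun (k : Kst HP ω) _ => w0 + (k : WQ Q e f)) ?_ ?_ ?_
    rotate_left
    · intro k _ k' _ h
      exact Subtype.ext (add_left_cancel h)
    rotate_left
    · intro k _
      refine Finset.mem_filter.2 ⟨Finset.mem_univ _, ?_⟩
      rw [Submodule.coe_add, sg_add HP.ee (mem_WQ.1 w0.2).ex (mem_WQ.1 k.1.2).ex, mul_smul,
        mem_Kst.1 k.2]
    · intro w hw
      have hw' := (Finset.mem_filter.1 hw).2
      refine ⟨⟨-w0 + w, ?_⟩, Finset.mem_univ _, add_neg_cancel_left _ _⟩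
      rw [mem_Kst, Submodule.coe_add, sg_add HP.ee (mem_WQ.1 (-w0).2).ex (mem_WQ.1 w.2).ex,
        mul_smul, hw', Submodule.coe_neg, sg_neg HP.ee (mem_WQ.1 w0.2).ex, inv_smul_smul]
  rw [show Finset.univ.image (fun w : WQ Q e f => sg Q e (w : V) • ω) = orbW HP ω by
      ext; simp [orbW],
    Finset.sum_congr rfl h2, Finset.sum_const, smul_eq_mul, Finset.card_univ,
    ← card_perp kapW (kapW_injective hG HP) (Kst HP ω)] at h1
  exact (Nat.eq_of_mul_eq_mul_right (Nat.card_pos (α := Kst HP ω)) h1).symm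

theorem AnnW_orb (HP : Fr Q e f) {ω y : Ω} (hy : y ∈ orbW HP ω) : AnnW HP y = AnnW HP ω := by
  obtain ⟨w, rfl⟩ := mem_orbW.1 hy
  have hK : Kst HP (sg Q e (w : V) • ω) = Kst HP ω := by
    ext k
    rw [mem_Kst, mem_Kst, ← mul_smul, ← sg_add HP.ee (mem_WQ.1 k.2).ex (mem_WQ.1 w.2).ex, add_comm,
      sg_add HP.ee (mem_WQ.1 w.2).ex (mem_WQ.1 k.2).ex, mul_smul, smul_left_cancel_iff]
  rw [AnnW, hK, AnnW]

/-- An element fixing both points. -/
def IsLv (Q : QuadraticForm F V) (e f : V) (g : G Q) (c : F) : Prop :=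
  c ≠ 0 ∧ g.1.1 e = c • e ∧ g.1.1 f = c⁻¹ • f

omit [Fintype F] [Fintype V] in
theorem IsLv.mul {g h : G Q} {c d : F} (hg : IsLv Q e f g c) (hh : IsLv Q e f h d) :
    IsLv Q e f (g * h) (c * d) := by
  refine ⟨mul_ne_zero hg.1 hh.1, ?_, ?_⟩
  · rw [G_mul, hh.2.1, map_smul, hg.2.1, smul_smul, mul_comm]
  · rw [G_mul, hh.2.2, map_smul, hg.2.2, smul_smul, mul_inv, mul_comm]

omit [Fintype F] [Fintype V] in
theorem IsLv.inv {g : G Q} {c : F} (hg : IsLv Q e f g c) : IsLv Q e f g⁻¹ c⁻¹ := by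
  refine ⟨inv_ne_zero hg.1, ?_, ?_⟩
  · conv_rhs => rw [← G_inv g e, hg.2.1, map_smul, smul_smul, inv_mul_cancel₀ hg.1, one_smul]
  · conv_rhs => rw [← G_inv g f, hg.2.2, map_smul, smul_smul, inv_inv, mul_inv_cancel₀ hg.1,
      one_smul]

omit [Fintype F] [Fintype V] in
theorem IsLv.one : IsLv Q e f (1 : G Q) 1 :=
  ⟨one_ne_zero, by rw [G_one, one_smul], by rw [G_one, inv_one, one_smul]⟩

omit [Fintype F] [Fintype V] in
theorem IsLv.mem {g : G Q} {c : F} (hg : IsLv Q e f g c) {x : V} (hx : InW Q e f x) :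
    InW Q e f (g.1.1 x) := by
  have h1 := G_B g x e
  have h2 := G_B g x f
  rw [hg.2.1, polar_smul_right, hx.xe, smul_eq_mul, mul_eq_zero] at h1
  rw [hg.2.2, polar_smul_right, hx.xf, smul_eq_mul, mul_eq_zero] at h2
  exact ⟨h1.resolve_left hg.1, h2.resolve_left (inv_ne_zero hg.1)⟩

omit [Fintype F] [Fintype V] in
theorem IsLv.conj (HP : Fr Q e f) {g : G Q} {c : F} (hg : IsLv Q e f g c) {x : V}
    (hx : InW Q e f x) : g * sg Q e x = sg Q e (c • g.1.1 x) * g := by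
  rw [← mul_inv_eq_iff_eq_mul, sg_conj HP.ee hx.ex, hg.2.1, sg_smul HP.ee (hg.mem hx).ex]

/-- The action on annihilators. -/
noncomputable def psiW {g : G Q} {c : F} (hg : IsLv Q e f g c) (v : WQ Q e f) : WQ Q e f :=
  ⟨c⁻¹ • g.1.1 (v : V), (hg.mem (mem_WQ.1 v.2)).smul _⟩

omit [Fintype F] [Fintype V] in
theorem psiW_val {g : G Q} {c : F} (hg : IsLv Q e f g c) (v : WQ Q e f) :
    (psiW hg v : V) = c⁻¹ • g.1.1 (v : V) := rfl

omit [Fintype F] [Fintype V] in
theorem psiW_injective {g : G Q} {c : F} (hg : IsLv Q e f g c) :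
    Function.Injective (psiW hg) := by
  intro v w h
  have h1 := smul_right_injective _ (inv_ne_zero hg.1) (congrArg Subtype.val h)
  exact Subtype.ext (g.1.1.injective h1)

theorem AnnW_smul (HP : Fr Q e f) {g : G Q} {c : F} (hg : IsLv Q e f g c) (ω : Ω) :
    AnnW HP (g • ω) = (AnnW HP ω).image (psiW hg) := by
  have key : ∀ {g : G Q} {c : F} (hg : IsLv Q e f g c) (ω : Ω), ∀ v ∈ AnnW HP ω,
      psiW hg v ∈ AnnW HP (g • ω) := by
    intro g c hg ω v hv
    refine mem_AnnW.2 fun k hk => ?_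
    have hi := IsLv.inv hg
    set k' : WQ Q e f := ⟨c⁻¹ • (g⁻¹).1.1 (k : V), (hi.mem (mem_WQ.1 k.2)).smul _⟩
    have hk' : k' ∈ Kst HP ω := by
      show sg Q e (c⁻¹ • (g⁻¹).1.1 (k : V)) • ω = ω
      have e1 := congrArg (· • (g • ω)) (IsLv.conj HP hi (mem_WQ.1 k.2))
      simp only [mul_smul, inv_smul_smul, mem_Kst.1 hk] at e1
      exact e1.symm
    have h := mem_AnnW.1 hv k' hk'
    rw [kapW_apply] at h ⊢
    convert h using 2
    show polar Q (c⁻¹ • g.1.1 (v : V)) k = polar Q (v : V) (c⁻¹ • (g⁻¹).1.1 (k : V))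
    rw [polar_smul_left, polar_smul_right, ← G_B g (v : V) ((g⁻¹).1.1 (k : V)), G_inv']
  refine Finset.Subset.antisymm (fun v hv => ?_) (Finset.image_subset_iff.2 (key hg ω))
  have h := key (IsLv.inv hg) _ v hv
  rw [inv_smul_smul] at h
  refine Finset.mem_image.2 ⟨_, h, Subtype.ext ?_⟩
  simp only [psiW_val]
  rw [map_smul, G_inv', smul_smul, inv_inv, inv_mul_cancel₀ hg.1, one_smul]

/-- The translates of an annihilator. -/
noncomputable def TsetW (HP : Fr Q e f) (ω : Ω) : Finset (Finset (WQ Q e f)) :=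
  Finset.univ.filter fun B => ∃ g c, IsLv Q e f g c ∧ AnnW HP (g • ω) = B

theorem mem_TsetW {HP : Fr Q e f} {ω : Ω} {B : Finset (WQ Q e f)} :
    B ∈ TsetW HP ω ↔ ∃ g c, IsLv Q e f g c ∧ AnnW HP (g • ω) = B := by simp [TsetW]

theorem TsetW_psi (HP : Fr Q e f) {g : G Q} {c : F} (hg : IsLv Q e f g c) {ω : Ω}
    {B : Finset (WQ Q e f)} (hB : B ∈ TsetW HP ω) : B.image (psiW hg) ∈ TsetW HP ω := by
  obtain ⟨t, d, ht, rfl⟩ := mem_TsetW.1 hB
  exact mem_TsetW.2 ⟨g * t, c * d, hg.mul ht, by rw [mul_smul, AnnW_smul HP hg]⟩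

theorem sum_le_card (hG : Good Q) (HP : Fr Q e f) [Fintype Ω] (ω : Ω) :
    ∑ B ∈ TsetW HP ω, B.card ≤ Fintype.card Ω := by
  refine le_trans (Finset.sum_le_sum fun B hB => ?_) (le_of_eq_of_le
    (Finset.card_biUnion (s := TsetW HP ω)
      (t := fun B => (Finset.univ.filter fun y : Ω => AnnW HP y = B)) ?_).symm
    (Finset.card_le_univ _))
  · obtain ⟨t, d, ht, rfl⟩ := mem_TsetW.1 hB
    rw [← card_orbW hG HP (t • ω)]
    exact Finset.card_le_card fun y hy => Finset.mem_filter.2 ⟨Finset.mem_univ _, AnnW_orb HP hy⟩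
  · intro B _ C _ hne
    rw [Function.onFun, Finset.disjoint_left]
    intro y hy hy'
    exact hne ((Finset.mem_filter.1 hy).2.symm.trans (Finset.mem_filter.1 hy').2)

/-- A transitive family of vectors is met evenly by the translates. -/
theorem cover_inter (HP : Fr Q e f) {ω : Ω} {O : Finset (WQ Q e f)} {u0 : WQ Q e f}
    (htrans : ∀ u ∈ O, ∃ (g : G Q) (c : F) (hg : IsLv Q e f g c), psiW hg u0 = u)
    {T : Finset (Finset (WQ Q e f))} (hT : T ⊆ TsetW HP ω) (hu0 : ∀ B ∈ T, u0 ∈ B) :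
    T.card * O.card ≤ ∑ B ∈ TsetW HP ω, (O.filter fun u => u ∈ B).card := by
  have hswap : ∑ B ∈ TsetW HP ω, (O.filter fun u => u ∈ B).card =
      ∑ u ∈ O, ((TsetW HP ω).filter fun B => u ∈ B).card := by
    simp only [Finset.card_filter]; exact Finset.sum_comm
  rw [hswap, mul_comm, ← smul_eq_mul]
  refine Finset.card_nsmul_le_sum O _ _ fun u hu => ?_
  obtain ⟨s, a, hs, rfl⟩ := htrans u hu
  refine Finset.card_le_card_of_injOn (fun B => B.image (psiW hs)) (fun B hB => ?_)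
    ((Finset.image_injective (psiW_injective hs)).injOn)
  exact Finset.mem_filter.2 ⟨TsetW_psi HP hs (hT hB), Finset.mem_image_of_mem _ (hu0 B hB)⟩

/-- A transitive family of vectors is covered evenly. -/
theorem cover (HP : Fr Q e f) {ω : Ω} {O : Finset (WQ Q e f)} {u0 : WQ Q e f}
    (htrans : ∀ u ∈ O, ∃ (g : G Q) (c : F) (hg : IsLv Q e f g c), psiW hg u0 = u)
    {T : Finset (Finset (WQ Q e f))} (hT : T ⊆ TsetW HP ω) (hu0 : ∀ B ∈ T, u0 ∈ B) :
    T.card * O.card ≤ ∑ B ∈ TsetW HP ω, B.card :=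
  le_trans (cover_inter HP htrans hT hu0)
    (Finset.sum_le_sum fun _ _ => Finset.card_le_card fun _ hx => (Finset.mem_filter.1 hx).2)

end Cfsg.Agent.Lib.MinIndexO
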