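import Cfsg.Agent.Lib.MinIndexO.ExcludePlus
import Cfsg.Agent.Lib.MinIndexO.MaxTS
import Cfsg.Agent.Lib.MinIndexO.OddThree

/-!
The orthogonal groups of plus type over two elements.
-/

set_option autoImplicit false

namespace Cfsg.Agent.Lib.MinIndexO

open QuadraticMap hiding proj
open Cfsg.Agent.Lib.Classical.Quad Cfsg.Agent.Lib.Classical.QuadOmega
open Cfsg.Agent.Lib.AutOmegaOdd (G G_mul G_inv G_Q Fr InW)
open Cfsg.Agent.Lib.AutOmega (PG pr pr_surjective toPG good_of_split)

universe u v w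

attribute [local instance] _root_.Classical.propDecidable

section
variable {F : Type u} [Field F] [Fintype F] {V : Type v} [AddCommGroup V] [Module F V] [Fintype V]
  {Q : QuadraticForm F V} {e f : V} {Ω : Type w} [MulAction (G Q) Ω]

/-- The span of an annihilator inside the orthogonal space. -/
noncomputable def AnnS (HP : Fr Q e f) (ω : Ω) : Submodule F (WQ Q e f) :=
  (Tsp HP ω).comap (WQ Q e f).subtype

theorem AnnW_le (HP : Fr Q e f) (ω : Ω) : ∀ x ∈ AnnW HP ω, x ∈ AnnS HP ω := fun x hx =>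
  Submodule.subset_span ⟨x, hx, rfl⟩

theorem finrank_AnnS (HP : Fr Q e f) (ω : Ω) :
    Module.finrank F (AnnS HP ω) = Module.finrank F (Tsp HP ω) :=
  (Submodule.comapSubtypeEquivOfLe (Tsp_le HP ω)).finrank_eq

theorem card_AnnW_le (HP : Fr Q e f) (ω : Ω) :
    (AnnW HP ω).card ≤ Fintype.card F ^ Module.finrank F (Tsp HP ω) := by
  rw [← finrank_AnnS, ← Module.card_eq_pow_finrank, Fintype.card_subtype]
  exact Finset.card_le_card fun x hx => Finset.mem_filter.2 ⟨Finset.mem_univ _, AnnW_le HP ω x hx⟩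

theorem card_AnnW_prime (p : ℕ) [Fact p.Prime] [CharP F p] (hq : Fintype.card F = p)
    (HP : Fr Q e f) (ω : Ω) : (AnnW HP ω).card = p ^ Module.finrank F (Tsp HP ω) := by
  refine le_antisymm ((card_AnnW_le HP ω).trans_eq (by rw [hq])) ?_
  rw [← hq, ← finrank_AnnS, ← Module.card_eq_pow_finrank, Fintype.card_subtype]
  refine Finset.card_le_card fun x hx => ?_
  have key : ∀ z ∈ Tsp HP ω, ∃ y ∈ AnnW HP ω, ((y : WQ Q e f) : V) = z := by
    intro z hz
    induction hz using Submodule.span_induction with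
    | mem z hz => obtain ⟨y, hy, rfl⟩ := hz; exact ⟨y, hy, rfl⟩
    | zero => exact ⟨0, zero_mem_AnnW HP ω, rfl⟩
    | add a b _ _ ha hb =>
      obtain ⟨y, hy, rfl⟩ := ha
      obtain ⟨y', hy', rfl⟩ := hb
      exact ⟨y + y', add_mem_AnnW hy hy', rfl⟩
    | smul c a _ ha =>
      obtain ⟨y, hy, rfl⟩ := ha
      exact ⟨c • y, smul_mem_AnnW p hq hy c, rfl⟩
  obtain ⟨y, hy, hyx⟩ := key _ (Finset.mem_filter.1 hx).2
  rwa [← Subtype.ext hyx]

/-- The translates of a maximal totally singular annihilator over two elements. -/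
theorem mts_two (hG : Good Q) (HP : Fr Q e f) (hq : Fintype.card F = 2) {k : ℕ} (hk : 3 ≤ k)
    (hd : Module.finrank F V = 2 * k + 2) (hL : 2 ^ (2 * k - 1) + 2 ^ (k - 1) = (Lset Q e f).card + 1)
    {ω : Ω} (hts : TSing Q (Tsp HP ω))
    (h : Module.finrank F V ≤ 2 * Module.finrank F (Tsp HP ω) + 2) :
    2 ^ k * (2 ^ (k + 1) - 1) ≤ ∑ B ∈ TsetW HP ω, B.card := by
  haveI : Fact (Nat.Prime 2) := ⟨Nat.prime_two⟩
  haveI : CharP F 2 := charP_of_card_eq_prime hq
  have hdim : Module.finrank F (Tsp HP ω) = k := by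
    have := half_of hG HP (Tsp_le HP ω) hts
    omega
  have hA : (AnnW HP ω).card = 2 ^ k := by rw [card_AnnW_prime 2 hq HP ω, hdim]
  obtain ⟨u, hu, hu0⟩ : ∃ u ∈ AnnW HP ω, u ≠ 0 := Finset.exists_mem_ne
    (by rw [hA]; exact Nat.one_lt_two_pow (by omega)) 0
  obtain ⟨T, hT, hmem, h1, h2⟩ := mts_translates hG HP hu hu0 hts (by omega)
  have hc := mts_cover hG HP (by omega) hu hu0 hts hT hmem
  rw [Finset.sum_congr rfl fun B hB => (translates_card HP hB).1, Finset.sum_const, smul_eq_mul,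
    hA] at hc ⊢
  rw [hq] at h1 h2
  obtain ⟨j, rfl⟩ : ∃ j, k = j + 3 := ⟨k - 3, by omega⟩
  rcases Nat.eq_zero_or_pos j with rfl | hj
  · norm_num at hL hc ⊢
    nlinarith [Nat.mul_le_mul_right (Lset Q e f).card (show 3 ≤ T.card by omega)]
  · have h3 := Nat.mul_le_mul_right (Lset Q e f).card (h2 (by omega))
    set N := (TsetW HP ω).card
    rw [show 2 * (j + 3) - 1 = (j + 2) + (j + 3) by omega, show j + 3 - 1 = j + 2 by omega] at hL
    rw [show j + 3 + 1 = (j + 2) + 2 by omega]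
    simp only [pow_add] at hL hc ⊢
    norm_num at hL hc h3 ⊢
    set P := 2 ^ j
    obtain ⟨i, hi⟩ : ∃ i, P = i + 2 := ⟨P - 2, by
      have : 2 ^ 1 ≤ P := Nat.pow_le_pow_right (by norm_num) hj
      omega⟩
    rw [hi] at hL hc ⊢
    rw [show (i + 2) * 4 * 4 - 1 = i * 16 + 31 by omega]
    have h4 : 4 * ((i + 2) * 4 + 1) ≤ N := by
      refine Nat.le_of_mul_le_mul_left (?_ : (i * 8 + 15) * _ ≤ (i * 8 + 15) * N) (by omega)
      nlinarith
    nlinarith

/-- The vectors with given value attain the bound. -/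
theorem index_attained_two (hG : Good Q) (hq : Fintype.card F = 2) {v : V} (hv : Q v ≠ 0)
    {P : Type w} [Group P] (π : G Q →* P) (hπ : Function.Surjective π)
    (hker : ∀ z ∈ π.ker, ∃ c : F, c ≠ 0 ∧ z.1.1 v = c • v) :
    ∃ H : Subgroup P, H.index = (levS Q ⊤ (Q v)).card := by
  obtain ⟨H, hH⟩ := index_attained_level hG (by omega) hv π hπ hker
  exact ⟨H, by simpa [hq] using hH⟩

end

variable {F : Type u} [Field F] [Fintype F]

theorem card_levS_plus_two (hq : Fintype.card F = 2) (k : ℕ) :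
    (levS (plusQ (k + 1) F) ⊤ 1).card = 2 ^ k * (2 ^ (k + 1) - 1) := by
  have h0 : Nat.card {v : Fin (k + 1) ⊕ Fin (k + 1) → F // plusQ (k + 1) F v = 0} +
      (levS (plusQ (k + 1) F) ⊤ 1).card = 2 ^ (2 * (k + 1)) := by
    rw [Nat.card_eq_fintype_card, Fintype.card_subtype, ← Finset.card_union_of_disjoint]
    · conv_rhs =>
        rw [← finrank_plus (F := F) (k + 1), show (2 : ℕ) = Fintype.card F from hq.symm]
      rw [← Module.card_eq_pow_finrank, ← Finset.card_univ]
      refine congrArg Finset.card (Finset.eq_univ_of_forall fun x => ?_)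
      rcases eq_or_ne (plusQ (k + 1) F x) 0 with h | h
      · simp [h]
      · have h1 := FiniteField.pow_card_sub_one_eq_one _ h
        rw [hq, pow_one] at h1
        simp [levS, h1]
    · rw [Finset.disjoint_left]
      intro x hx hx'
      exact one_ne_zero ((Finset.mem_filter.1 hx').2.2.symm.trans (Finset.mem_filter.1 hx).2)
  simp only [plusQ_apply] at h0
  rw [card_sing_plus (k + 1) (by omega), hq, show 2 * (k + 1) - 1 = 2 * k + 1 by omega,
    Nat.add_sub_cancel, show 2 ^ (2 * (k + 1)) = 4 * (2 ^ k * 2 ^ k) by ring,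
    show 2 ^ (2 * k + 1) = 2 * (2 ^ k * 2 ^ k) by ring, pow_succ' 2 k] at h0
  rw [pow_succ' 2 k, Nat.mul_sub_one, show 2 ^ k * (2 * 2 ^ k) = 2 * (2 ^ k * 2 ^ k) by ring]
  omega

theorem card_Lset_plus {k : ℕ} (hk : 1 ≤ k) {e f : Fin (k + 1) ⊕ Fin (k + 1) → F}
    (HP : Fr (plusQ (k + 1) F) e f) (hG : Good (plusQ (k + 1) F)) :
    (Lset (plusQ (k + 1) F) e f).card + 1 + Fintype.card F ^ (k - 1) =
      Fintype.card F ^ (2 * k - 1) + Fintype.card F ^ k := by
  obtain ⟨j, rfl⟩ : ∃ j, k = j + 1 := ⟨k - 1, by omega⟩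
  have h1 := card_sing HP
  have h2 := card_singP_true (Q := plusQ (j + 1 + 1) F)
  simp only [plusQ_apply] at h2
  rw [card_sing_plus _ (by omega)] at h2
  rw [Module.card_eq_pow_finrank (K := F) (V := WQ _ e f)] at h1
  have hd := finrank_WQ hG HP
  rw [finrank_plus] at hd
  rw [show Module.finrank F (WQ (plusQ (j + 1 + 1) F) e f) = 2 * j + 2 by omega] at h1
  rw [show 2 * (j + 1) - 1 = 2 * j + 1 by omega, Nat.add_sub_cancel]
  rw [show 2 * (j + 1 + 1) - 1 = 2 * j + 3 by omega, Nat.add_sub_cancel] at h2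
  obtain ⟨i, hi⟩ : ∃ i, Fintype.card F = i + 1 := ⟨Fintype.card F - 1, (Nat.sub_add_cancel Fintype.card_pos).symm⟩
  rw [hi] at h1 h2 ⊢
  rw [Nat.add_sub_cancel] at h1
  have hle : (i + 1) ^ (j + 1) ≤ (i + 1) ^ (j + 1 + 1) := Nat.pow_le_pow_right (by omega) (by omega)
  have h3 : (singP (plusQ (j + 1 + 1) F) fun _ => True).card + 1 + (i + 1) ^ (j + 1) =
      (i + 1) ^ (2 * j + 3) + (i + 1) ^ (j + 1 + 1) := by omega
  rw [h1] at h3
  simp only [pow_succ', pow_add] at h3 ⊢
  nlinarith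

theorem min_index_plus_two (hq : Fintype.card F = 2) (k : ℕ) (hk : 3 ≤ k) :
    (∀ H : Subgroup (Cfsg.POmega F (Cfsg.quadFormPlus (k + 1) F)), H ≠ ⊤ →
      2 ^ k * (2 ^ (k + 1) - 1) ≤ H.index) ∧
    ∃ H : Subgroup (Cfsg.POmega F (Cfsg.quadFormPlus (k + 1) F)),
      H.index = 2 ^ k * (2 ^ (k + 1) - 1) := by
  haveI : Fact (Nat.Prime 2) := ⟨Nat.prime_two⟩
  haveI : CharP F 2 := charP_of_card_eq_prime hq
  have h2 : (2 : F) = 0 := by exact_mod_cast CharP.cast_eq_zero F 2
  have hG : Good (plusQ (k + 1) F) := good_of_split (good_plus (by omega)) (ePlus (k + 1))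
  have hd := finrank_plus (F := F) (k + 1)
  set π : G (plusQ (k + 1) F) →* Cfsg.POmega F (Cfsg.quadFormPlus (k + 1) F) :=
    (toPG (fun v => plusQ_apply (k + 1) v) hG).symm.toMonoidHom.comp (pr (plusQ (k + 1) F))
  have hπ : Function.Surjective π :=
    (toPG (fun v => plusQ_apply (k + 1) v) hG).symm.surjective.comp pr_surjective
  refine ⟨fun H hH' => ?_, ?_⟩
  · have h := index_of_degree (Q := plusQ (k + 1) F) (T := 2 ^ k * (2 ^ (k + 1) - 1))
      (fun Ω _ _ _ _ => ?_) π hπ hH'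
    · simpa [hq] using h
    rw [hq]
    have hX : ∀ (e f : Fin (k + 1) ⊕ Fin (k + 1) → F), Fr (plusQ (k + 1) F) e f →
        Fintype.card (WQ (plusQ (k + 1) F) e f) = 4 ^ k := fun e f HP => by
      rw [Module.card_eq_pow_finrank (K := F), hq, show (4 : ℕ) = 2 ^ 2 by norm_num, ← pow_mul]
      congr 1
      have := finrank_WQ hG HP
      omega
    obtain ⟨j, rfl⟩ : ∃ j, k = j + 1 := ⟨k - 1, by omega⟩
    have hP : 1 ≤ 2 ^ j := Nat.one_le_two_pow
    have e1 : 2 ^ (2 * (j + 1) - 1) = 2 * (2 ^ j * 2 ^ j) := by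
      rw [show 2 * (j + 1) - 1 = j + j + 1 by omega]; ring
    have e2 : 4 ^ (j + 1) = 4 * (2 ^ j * 2 ^ j) := by
      rw [pow_succ', show (4 : ℕ) = 2 ^ 2 by norm_num, ← pow_mul, show 2 * j = j + j by omega, pow_add]
    have e3 : 2 ^ (j + 1) * (2 ^ (j + 1 + 1) - 1) + 2 * 2 ^ j = 8 * (2 ^ j * 2 ^ j) := by
      rw [Nat.mul_sub_one, pow_succ' 2 (j + 1), pow_succ' 2 j]
      have : 2 * 2 ^ j ≤ 2 * 2 ^ j * (2 * (2 * 2 ^ j)) := Nat.le_mul_of_pos_right _ (by positivity)
      rw [Nat.sub_add_cancel this]; ring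
    have hLs : ∀ (e f : Fin (j + 1 + 1) ⊕ Fin (j + 1 + 1) → F),
        Fr (plusQ (j + 1 + 1) F) e f →
        (Lset (plusQ (j + 1 + 1) F) e f).card + 1 = 2 * (2 ^ j * 2 ^ j) + 2 ^ j := by
      intro e f HP
      have h := card_Lset_plus (by omega) HP hG
      rw [hq, e1, pow_succ' 2 j, Nat.add_sub_cancel] at h
      omega
    have hlev : ∀ (e f : Fin (j + 1 + 1) ⊕ Fin (j + 1 + 1) → F),
        Fr (plusQ (j + 1 + 1) F) e f → ∀ c : F, c ≠ 0 →
        2 * (2 ^ j * 2 ^ j) - 2 ^ j ≤ (lev (plusQ (j + 1 + 1) F) e f c).card := by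
      intro e f HP c hc
      have h1 := FiniteField.pow_card_sub_one_eq_one _ hc
      rw [hq, pow_one] at h1
      have h := card_lev_two (Q := plusQ (j + 1 + 1) F) (e := e) (f := f) hq
      rw [hX e f HP, e2] at h
      have := hLs e f HP
      rw [h1]
      omega
    refine min_degree_prime hG (by omega) 2 hq (by norm_num) (fun _ => by omega)
      (fun _ ω hfree htr => ?_) _ (2 * (2 ^ j * 2 ^ j) - 2 ^ j)
      (fun e f HP ω h1 h2' => ?_) hlev (fun e f HP => ?_) (fun e f HP => ?_) (fun e f HP => ?_)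
    · obtain rfl | hj : j = 2 ∨ 3 ≤ j := by omega
      · let x : Fin 4 → Fin 4 ⊕ Fin 4 → F := fun i => Pi.single (.inl i) 1
        let y : Fin 4 → Fin 4 ⊕ Fin 4 → F := fun i => Pi.single (.inr i) 1
        have hQx : ∀ i, plusQ 4 F (x i) = 0 := fun i => by
          simp [x, plusQ_apply, Cfsg.quadFormPlus]
        have hQy : ∀ i, plusQ 4 F (y i) = 0 := fun i => by
          simp [y, plusQ_apply, Cfsg.quadFormPlus]
        have hpx : ∀ v i, polar (plusQ 4 F) v (x i) = v (.inr i) := fun v i => by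
          simp [x, polar_plusQ, Pi.single_apply]
        have hpy : ∀ v i, polar (plusQ 4 F) v (y i) = v (.inl i) := fun v i => by
          simp [y, polar_plusQ, Pi.single_apply]
        have hF : ∀ i, Fr (plusQ 4 F) (x i) (y i) := fun i => ⟨hQx i, hQy i, by rw [hpy]; simp [x]⟩
        have hIx : ∀ {i l}, i ≠ l → InW (plusQ 4 F) (x l) (y l) (x i) := fun {i l} h =>
          ⟨by rw [hpx]; simp [x], by rw [hpy]; simp [x, h.symm]⟩
        have hIy : ∀ {i l}, i ≠ l → InW (plusQ 4 F) (x l) (y l) (y i) := fun {i l} h =>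
          ⟨by rw [hpx]; simp [y, h.symm], by rw [hpy]; simp [y]⟩
        exact exclude_four hG h2 (hF 0) (hF 1) (hF 2) (hF 3) (hIx (by decide)) (hIy (by decide))
          (hIx (by decide)) (hIy (by decide)) (hIx (by decide)) (hIy (by decide))
          (hIx (by decide)) (hIy (by decide)) (hIx (by decide)) (hIy (by decide))
          (hIx (by decide)) (hIy (by decide))
          (fun v h0 h1 h2 h3 => funext fun l => by
            rcases l with i | i
            · have := fun i => hpy v i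
              fin_cases i
              exacts [(this 0).symm.trans h0.xf, (this 1).symm.trans h1.xf,
                (this 2).symm.trans h2.xf, (this 3).symm.trans h3.xf]
            · have := fun i => hpx v i
              fin_cases i
              exacts [(this 0).symm.trans h0.xe, (this 1).symm.trans h1.xe,
                (this 2).symm.trans h2.xe, (this 3).symm.trans h3.xe])
          ω hfree (htr _ _ (hF 0))
      · obtain ⟨e, f, -, -, he, hf, -, -, hef, -⟩ := hG.two
        exact exclude hG (by omega) (Or.inl (by omega)) ⟨he, hf, hef⟩ ω (hfree ω)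
          (htr e f ⟨he, hf, hef⟩)
    · rw [show (2 : ℕ) - 1 = 1 from rfl, one_mul]
      refine mts_two hG HP hq hk (by omega) ?_ h1 h2'
      rw [hLs e f HP, e1, Nat.add_sub_cancel]
    · rw [hX e f HP, e2]; omega
    · rw [hX e f HP, e2]; omega
    · left
      have := hLs e f HP
      rw [hX e f HP, e2]; omega
  · obtain ⟨e, f, -, -, he, hf, -, -, hef, -⟩ := hG.two
    have hv : plusQ (k + 1) F ((1 : F) • e + f) = 1 := pair_nonsing he hf hef _
    obtain ⟨H, hH'⟩ := index_attained_two hG hq (v := (1 : F) • e + f)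
      (by rw [hv]; exact one_ne_zero) π hπ (fun z hz => center_line hG
        (AutOmega.pr_eq_one.1 ((toPG (fun v => plusQ_apply (k + 1) v) hG).symm.injective
          (hz.trans (map_one _).symm))))
    exact ⟨H, by rw [hH', hv, card_levS_plus_two hq k]⟩

end Cfsg.Agent.Lib.MinIndexO
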