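import Cfsg.Agent.Lib.MinIndexO.Eight

/-!
The orthogonal groups of plus type over at least four elements.
-/

set_option autoImplicit false

namespace Cfsg.Agent.Lib.MinIndexO

open QuadraticMap hiding proj
open Cfsg.Agent.Lib.Classical.Quad Cfsg.Agent.Lib.Classical.QuadOmega
open Cfsg.Agent.Lib.AutOmegaOdd (G Fr InW)
open Cfsg.Agent.Lib.AutOmega (PG pr pr_surjective toPG good_of_split)

universe u v w

attribute [local instance] _root_.Classical.propDecidable

theorem plus_num {q k L N S : ℕ} (h4 : 4 ≤ q) (hk : 4 ≤ k)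
    (hL : L + 1 + q ^ (k - 1) = q ^ (2 * k - 1) + q ^ k)
    (hN : N = (q ^ (k + 1) - 1) * (q ^ k + 1)) (hS : q ^ 2 * L ≤ S) : N ≤ (q - 1) * S := by
  obtain ⟨j, rfl⟩ : ∃ j, k = j + 1 := ⟨k - 1, by omega⟩
  rw [Nat.add_sub_cancel, show 2 * (j + 1) - 1 = j + (j + 1) by omega] at hL
  simp only [pow_add, pow_one] at hL hN
  obtain ⟨P, hP⟩ : ∃ P, q ^ j = P + 1 :=
    ⟨q ^ j - 1, (Nat.sub_add_cancel (Nat.one_le_pow _ _ (by omega))).symm⟩
  have h16 : 16 ≤ P + 1 := by
    rw [← hP]
    calc 16 ≤ 4 ^ 3 := by norm_num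
      _ ≤ q ^ 3 := Nat.pow_le_pow_left h4 3
      _ ≤ q ^ j := Nat.pow_le_pow_right (by omega) (by omega)
  obtain ⟨i, rfl⟩ : ∃ i, q = i + 4 := ⟨q - 4, by omega⟩
  rw [hP] at hL hN
  have hone : 1 ≤ (P + 1) * (i + 4) * (i + 4) := by nlinarith
  have hN' : N + ((P + 1) * (i + 4) + 1) = (P + 1) * (i + 4) * (i + 4) * ((P + 1) * (i + 4) + 1) := by
    rw [hN]
    obtain ⟨a, ha⟩ : ∃ a, (P + 1) * (i + 4) * (i + 4) = a + 1 := ⟨_, (Nat.sub_add_cancel hone).symm⟩
    rw [ha, Nat.add_sub_cancel]; ring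
  rw [show i + 4 - 1 = i + 3 by omega]
  nlinarith [Nat.mul_le_mul_left (i + 3) hS]

variable {F : Type u} [Field F] [Fintype F]

theorem min_index_plus {q : ℕ} (hF : Fintype.card F = q) (h4 : 4 ≤ q) (k : ℕ) (hk : 3 ≤ k) :
    (∀ H : Subgroup (Cfsg.POmega F (Cfsg.quadFormPlus (k + 1) F)), H ≠ ⊤ →
      (q ^ (k + 1) - 1) * (q ^ k + 1) / (q - 1) ≤ H.index) ∧
    ∃ H : Subgroup (Cfsg.POmega F (Cfsg.quadFormPlus (k + 1) F)),
      H.index = (q ^ (k + 1) - 1) * (q ^ k + 1) / (q - 1) := by
  subst hF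
  have hG : Good (plusQ (k + 1) F) := good_of_split (good_plus (by omega)) (ePlus (k + 1))
  have hd := finrank_plus (F := F) (k + 1)
  have hpos : 0 < Fintype.card F - 1 := by omega
  set π : G (plusQ (k + 1) F) →* Cfsg.POmega F (Cfsg.quadFormPlus (k + 1) F) :=
    (toPG (fun v => plusQ_apply (k + 1) v) hG).symm.toMonoidHom.comp (pr (plusQ (k + 1) F))
  have hπ : Function.Surjective π :=
    (toPG (fun v => plusQ_apply (k + 1) v) hG).symm.surjective.comp pr_surjective
  have hN : (singP (plusQ (k + 1) F) fun _ => True).card =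
      (Fintype.card F ^ (k + 1) - 1) * (Fintype.card F ^ k + 1) := by
    have h := card_singP_true (Q := plusQ (k + 1) F)
    simp only [plusQ_apply] at h
    rw [card_sing_plus _ (by omega), Nat.add_sub_cancel,
      show 2 * (k + 1) - 1 = k + 1 + k by omega, pow_add] at h
    obtain ⟨a, ha⟩ : ∃ a, Fintype.card F ^ (k + 1) = a + 1 :=
      ⟨_, (Nat.sub_add_cancel (Nat.one_le_pow _ _ Fintype.card_pos)).symm⟩
    have hle : Fintype.card F ^ k ≤ a + 1 :=
      ha ▸ Nat.pow_le_pow_right Fintype.card_pos (Nat.le_succ k)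
    rw [ha] at h ⊢
    rw [Nat.add_sub_cancel, Nat.mul_add_one]
    rw [add_mul, one_mul] at h
    omega
  haveI : Fact (ringChar F).Prime := ⟨CharP.char_is_prime F _⟩
  obtain ⟨n, -, hn⟩ := FiniteField.card F (ringChar F)
  have hdvd : ringChar F ∣ Fintype.card F := hn ▸ dvd_pow_self _ n.ne_zero
  refine ⟨fun H hH' => Nat.div_le_of_le_mul ?_, ?_⟩
  · rw [← hN]
    refine index_of_degree (fun Ω _ _ _ _ => ?_) π hπ hH'
    have hmts : ∀ (e f : Fin (k + 1) ⊕ Fin (k + 1) → F) (HP : Fr (plusQ (k + 1) F) e f) (ω : Ω),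
        TSing (plusQ (k + 1) F) (Tsp HP ω) →
        Module.finrank F (Fin (k + 1) ⊕ Fin (k + 1) → F) ≤
          2 * Module.finrank F (Tsp HP ω) + 2 →
        (singP (plusQ (k + 1) F) fun _ => True).card ≤
          (Fintype.card F - 1) * Fintype.card Ω := by
      intro e f HP ω hts hbig
      obtain rfl | hk4 : k = 3 ∨ 4 ≤ k := by omega
      · have h := min_degree_eight (Ω := Ω) hG (by omega) rfl h4 rfl
          (fun e f HP => ?_) ⟨e, f, HP, ω, hts, by omega⟩
        · refine le_trans (le_of_eq ?_) (Nat.mul_le_mul_left _ h)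
          rw [hN, ← mul_assoc (Fintype.card F - 1)]
          congr 1
          obtain ⟨i, hi⟩ : ∃ i, Fintype.card F = i + 1 := ⟨Fintype.card F - 1, by omega⟩
          rw [hi, Nat.add_sub_cancel]
          have : (i + 1) ^ (3 + 1) = i * ((i + 1 + 1) * ((i + 1) ^ 2 + 1)) + 1 := by ring
          omega
        · have h1 := card_Lset_plus (by omega) HP hG
          rw [show 2 * 3 - 1 = 3 + 2 by rfl, show (3 : ℕ) - 1 = 2 from rfl, pow_add] at h1
          obtain ⟨r, hr⟩ : ∃ r, Fintype.card F ^ 3 = r + 1 :=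
            ⟨_, (Nat.sub_add_cancel (Nat.one_le_pow _ _ Fintype.card_pos)).symm⟩
          rw [hr] at h1 ⊢
          rw [Nat.add_sub_cancel]
          nlinarith
      · have hdim : Module.finrank F (Tsp HP ω) = k := by
          have := half_of hG HP (Tsp_le HP ω) hts
          omega
        obtain ⟨u, hu, hu0⟩ : ∃ u ∈ AnnW HP ω, u ≠ 0 := by
          by_contra! h
          have hbot : Tsp HP ω = ⊥ := by
            rw [Tsp, Submodule.span_eq_bot]
            rintro _ ⟨v, hv, rfl⟩
            show (v : Fin (k + 1) ⊕ Fin (k + 1) → F) = 0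
            rw [h v hv, Submodule.coe_zero]
          rw [hbot, finrank_bot] at hdim
          omega
        obtain ⟨T, hT, hmem, -, h2⟩ := mts_translates hG HP hu hu0 hts (by omega)
        have hc := mts_cover hG HP (by omega) hu hu0 hts hT hmem
        refine (plus_num h4 hk4 (card_Lset_plus (by omega) HP hG) hN ?_)
        refine (Nat.mul_le_mul_right _ (h2 (by omega))).trans
          ((Nat.le_add_right _ _).trans (hc.trans (sum_le_card hG HP ω)))
    by_cases h2 : (2 : F) = 0
    · have hp : ringChar F = 2 :=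
        CharP.ringChar_of_prime_eq_zero Nat.prime_two (by exact_mod_cast h2)
      exact min_degree_of_mts hG (by omega) h4 (ringChar F) (Fintype.card F - 1)
        (fun c hc => (card_sqSet_two h2 hc).ge) (by rw [hp]; exact num_even h4) hmts
    · have hodd := odd_card_of_two_ne_zero (F := F) h2
      exact min_degree_of_mts hG (by omega) h4 (ringChar F) ((Fintype.card F - 1) / 2)
        (fun c hc => by have := card_sqSet hc; omega)
        (num_odd (by rw [Nat.odd_iff] at hodd; omega) hodd Fact.out hdvd) hmts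
  · obtain ⟨e, f, -, -, he, -, -, -, hef, -⟩ := hG.two
    have he0 : e ≠ 0 := fun h0 => by simp [h0, polar_zero_left] at hef
    obtain ⟨H, hH'⟩ := index_attained hG he he0 π hπ (fun z hz => center_line hG
      (AutOmega.pr_eq_one.1 ((toPG (fun v => plusQ_apply (k + 1) v) hG).symm.injective
        (hz.trans (map_one _).symm))))
    exact ⟨H, by rw [← hN, ← hH', Nat.mul_div_cancel_left _ hpos]⟩

end Cfsg.Agent.Lib.MinIndexO
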