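import Cfsg.Agent.Lib.MinIndexO.Prime
import Cfsg.Agent.Lib.MinIndexO.ExcludeThree
import Cfsg.Agent.Lib.MinIndexO.Main

/-!
The minimal degree over the fields with two and three elements.
-/

set_option autoImplicit false

namespace Cfsg.Agent.Lib.MinIndexO

open QuadraticMap hiding proj
open Cfsg.Agent.Lib.Classical.Quad Cfsg.Agent.Lib.Classical.QuadOmega
open Cfsg.Agent.Lib.AutOmegaOdd (G G_ext G_mul G_one G_inv G_inv' G_Q G_B sg sg_apply sg_add sg_zero
  sg_self sg_neg sg_smul sg_conj sg_fix sg_fix_self sg_swap Fr InW proj proj_mem decomp B_proj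
  sg_e_fix sg_e_f sg_e_inj)
open Cfsg.Agent.Lib.AutOmega (W_pair W_partner W_nondeg W_induction)

universe u v w

attribute [local instance] _root_.Classical.propDecidable

variable {F : Type u} [Field F] [Fintype F] {V : Type v} [AddCommGroup V] [Module F V] [Fintype V]
  {Q : QuadraticForm F V} {e f : V} {Ω : Type w} [MulAction (G Q) Ω]

omit [Fintype V] in
theorem two_le_prime (p : ℕ) (hq : Fintype.card F = p) : 2 ≤ p := by
  have := Fintype.one_lt_card (α := F); omega

theorem translates_card (HP : Fr Q e f) {ω : Ω} {B : Finset (WQ Q e f)} (hB : B ∈ TsetW HP ω) :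
    B.card = (AnnW HP ω).card ∧ (0 : WQ Q e f) ∈ B := by
  obtain ⟨g, c, hg, rfl⟩ := mem_TsetW.1 hB
  rw [AnnW_smul HP hg, Finset.card_image_of_injective _ (psiW_injective hg)]
  exact ⟨rfl, Finset.mem_image.2 ⟨0, zero_mem_AnnW HP ω, Subtype.ext (by simp [psiW_val])⟩⟩

/-- Lines: every conjugate of a vector is covered. -/
theorem line_cover (hG : Good Q) (HP : Fr Q e f) (hd : 7 ≤ Module.finrank F V) {ω : Ω}
    {v : WQ Q e f} (hv : v ∈ AnnW HP ω) (hv0 : v ≠ 0)
    (hline : ∀ y ∈ AnnW HP ω, ((y : WQ Q e f) : V) ∈ Submodule.span F ({(v : V)} : Set V)) :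
    Fintype.card F * (orbV v).card ≤ (Fintype.card F - 1) * ∑ B ∈ TsetW HP ω, B.card := by
  have hcov := cover_inter HP (orbV_trans hG HP hd hv0) (T := {AnnW HP ω})
    (fun B hB => mem_TsetW.2 ⟨1, 1, IsLv.one, by rw [one_smul, Finset.mem_singleton.1 hB]⟩)
    (fun B hB => by rw [Finset.mem_singleton.1 hB]; exact hv)
  rw [Finset.card_singleton, one_mul] at hcov
  refine (Nat.mul_le_mul_left _ hcov).trans ?_
  rw [Finset.mul_sum, Finset.mul_sum]
  refine Finset.sum_le_sum fun B hB => ?_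
  obtain ⟨hBc, hB0⟩ := translates_card HP hB
  have hAq : (AnnW HP ω).card ≤ Fintype.card F := by
    rw [← Finset.card_univ (α := F)]
    refine le_trans (Finset.card_le_card (t := Finset.univ.image fun c : F => c • v) fun y hy => ?_)
      Finset.card_image_le
    obtain ⟨c, hc⟩ := Submodule.mem_span_singleton.1 (hline y hy)
    exact Finset.mem_image.2 ⟨c, Finset.mem_univ _, Subtype.ext hc⟩
  have hsub : (orbV v).filter (fun u => u ∈ B) ⊆ B.erase 0 := fun u hu =>
    Finset.mem_erase.2 ⟨(mem_orbV.1 (Finset.mem_filter.1 hu).1).1, (Finset.mem_filter.1 hu).2⟩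
  have hle := Finset.card_le_card hsub
  rw [Finset.card_erase_of_mem hB0] at hle
  have hq1 : 1 ≤ Fintype.card F := Fintype.card_pos
  have hb : B.card ≤ Fintype.card F := hBc ▸ hAq
  obtain ⟨j, hj⟩ : ∃ j, Fintype.card F = j + 1 := ⟨Fintype.card F - 1, by omega⟩
  rw [hj, Nat.add_sub_cancel]
  rw [hj] at hb
  have h : 0 < B.card := Finset.card_pos.2 ⟨0, hB0⟩
  obtain ⟨i, hi⟩ : ∃ i, B.card = i + 1 := ⟨B.card - 1, by omega⟩
  rw [hi, Nat.add_sub_cancel] at hle
  rw [hi] at hb ⊢
  nlinarith [Nat.mul_le_mul_left (j + 1) hle, (show i ≤ j by omega)]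

/-- An annihilator with a nonsingular vector and further vectors. -/
theorem big_bound (hG : Good Q) (HP : Fr Q e f) (hd : 7 ≤ Module.finrank F V) (p : ℕ)
    [Fact p.Prime] [CharP F p] (hq : Fintype.card F = p) (hp3 : p ≤ 3)
    (hd2 : p = 2 → 8 ≤ Module.finrank F V) {ω : Ω}
    {v : WQ Q e f} (hv : v ∈ AnnW HP ω) (hv0 : Q (v : V) ≠ 0) {y : WQ Q e f}
    (hy : y ∈ AnnW HP ω) (hyv : (y : V) ∉ Submodule.span F ({(v : V)} : Set V))
    (hne : AnnW HP ω ≠ Finset.univ) :
    p * Fintype.card (WQ Q e f) ≤ (p - 1) * (∑ B ∈ TsetW HP ω, B.card) + 2 := by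
  have hp2 := two_le_prime p hq
  have hd7 : 7 ≤ Module.finrank F V := by omega
  obtain ⟨Z, hZ, hX, -, -, -, hlow, -⟩ := numbers hG HP hd7
  rw [hq] at hX hlow
  have hvne : v ≠ 0 := fun h => hv0 (by rw [h, Submodule.coe_zero, map_zero])
  have hsq : ∀ {t : F}, t ≠ 0 → t ^ 2 = 1 := fun ht => sq_one_small (by omega) ht
  set S := ∑ B ∈ TsetW HP ω, B.card with hS
  have horb : ∀ u : WQ Q e f, u ≠ 0 → p * (p ^ 2 - 1) * Z ≤ (orbV u).card + 1 := by
    intro u hu
    by_cases h : Q (u : V) = 0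
    · rw [orbV_sing h, ← card_lev_zero]; exact hlow 0
    · exact ((hlow _).trans (orbV_ns h)).trans (Nat.le_succ _)
  by_cases hperp : ∃ u ∈ AnnW HP ω, u ≠ 0 ∧
      ∀ z : WQ Q e f, polar Q (z : V) u = 0 → z ∈ AnnW HP ω
  · obtain ⟨u, -, hu0, hu⟩ := hperp
    have h := hyper_bound hG HP hd7 hu0 hu hne
    rw [hq, ← hS] at h
    have h1 : p * p ≤ (orbV u).card := by
      have := horb u hu0
      obtain rfl | rfl : p = 2 ∨ p = 3 := by omega
      all_goals (norm_num at this ⊢; omega)
    have h2 : p * (p * Fintype.card (WQ Q e f)) ≤ p * ((p - 1) * S) := by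
      rw [← mul_assoc, ← mul_assoc]
      exact (Nat.mul_le_mul_right _ h1).trans h
    exact (Nat.le_of_mul_le_mul_left h2 (by omega)).trans (Nat.le_add_right _ _)
  push Not at hperp
  have htrans : ∀ u ∈ AnnW HP ω, u ≠ 0 → ∀ z ∈ AnnW HP ω,
      ((z : WQ Q e f) : V) ∉ Submodule.span F ({(u : V)} : Set V) →
      ∃ T : Finset (Finset (WQ Q e f)), T ⊆ TsetW HP ω ∧ (∀ B ∈ T, u ∈ B) ∧ T.card = p := by
    intro u hu hu0 z hz hzu
    refine (witness_or_perp hG HP hd7 p hu hu0 hz hzu).resolve_right fun h => ?_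
    obtain ⟨r, hr, hr'⟩ := hperp u hu hu0
    exact hr' (h r hr)
  by_cases hsec : ∃ u ∈ AnnW HP ω, u ≠ 0 ∧ Q ((u : WQ Q e f) : V) ≠ Q (v : V)
  · obtain ⟨u, hu, hu0, huv⟩ := hsec
    have hnot : (v : V) ∉ Submodule.span F ({(u : V)} : Set V) := by
      intro hm
      obtain ⟨c, hc⟩ := Submodule.mem_span_singleton.1 hm
      have hc0 : c ≠ 0 := fun h => hvne (Subtype.ext (by rw [← hc, h, zero_smul]; rfl))
      exact huv (by rw [← hc, QuadraticMap.map_smul, smul_eq_mul, ← pow_two, hsq hc0, one_mul])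
    obtain ⟨Tu, hTu, hmu, hcu⟩ := htrans u hu hu0 v hv hnot
    obtain ⟨Tv, hTv, hmv, hcv⟩ := htrans v hv hvne y hy hyv
    have h1 := cover_inter HP (orbV_trans hG HP hd7 hu0) hTu hmu
    have h2 := cover_inter HP (orbV_trans hG HP hd7 hvne) hTv hmv
    rw [hcu] at h1
    rw [hcv] at h2
    have hdisj : Disjoint (orbV u) (orbV v) := by
      rw [Finset.disjoint_left]
      intro x hx hx'
      obtain ⟨-, s, hs, hsx⟩ := mem_orbV.1 hx
      obtain ⟨-, t, ht, htx⟩ := mem_orbV.1 hx'
      exact huv (by rw [hsq hs, one_mul] at hsx; rw [hsq ht, one_mul] at htx; rw [← hsx, htx])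
    have h3 : ∀ B ∈ TsetW HP ω, ((orbV u).filter fun x => x ∈ B).card +
        ((orbV v).filter fun x => x ∈ B).card ≤ B.card := by
      intro B _
      rw [← Finset.card_union_of_disjoint (Finset.disjoint_filter_filter hdisj)]
      refine Finset.card_le_card fun x hx => ?_
      rcases Finset.mem_union.1 hx with h | h <;> exact (Finset.mem_filter.1 h).2
    have h4 := Finset.sum_le_sum h3
    rw [Finset.sum_add_distrib, ← hS] at h4
    obtain rfl | rfl : p = 2 ∨ p = 3 := by omega
    · -- two elements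
      have hQ1 : ∀ x : WQ Q e f, Q (x : V) ≠ 0 → Q (x : V) = 1 := fun x hx => by
        obtain ⟨n, hn⟩ := natCast_surj 2 hq (Q (x : V))
        have h20 : (2 : F) = 0 := by exact_mod_cast CharP.cast_eq_zero F 2
        rcases Nat.even_or_odd n with ⟨k, rfl⟩ | ⟨k, rfl⟩
        · exact absurd (by rw [← hn]; push_cast; linear_combination (k : F) * h20) hx
        · rw [← hn]; push_cast; linear_combination (k : F) * h20
      have hu0' : Q (u : V) = 0 := by
        by_contra h; exact huv ((hQ1 u h).trans (hQ1 v hv0).symm)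
      have h5 := orbV_sing hu0'
      have h6 := orbV_ns hv0
      rw [hQ1 v hv0] at h6
      have h7 := card_lev_two (Q := Q) (e := e) (f := f) hq
      omega
    · have h5 := horb u hu0
      have h6 := horb v hvne
      norm_num at h5 h6 hX ⊢
      omega
  · push Not at hsec
    obtain rfl | rfl : p = 2 ∨ p = 3 := by omega
    · -- an anisotropic plane
      have hns : ∀ x ∈ AnnW HP ω, x ≠ 0 → Q ((x : WQ Q e f) : V) = 1 := by
        intro x hx hx0
        rw [hsec x hx hx0]
        obtain ⟨n, hn⟩ := natCast_surj 2 hq (Q (v : V))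
        have h20 : (2 : F) = 0 := by exact_mod_cast CharP.cast_eq_zero F 2
        rcases Nat.even_or_odd n with ⟨k, rfl⟩ | ⟨k, rfl⟩
        · exact absurd (by rw [← hn]; push_cast; linear_combination (k : F) * h20) hv0
        · rw [← hn]; push_cast; linear_combination (k : F) * h20
      have h := plane_bound hG HP (hd2 rfl) 2 hq rfl hv hvne hy hyv hns
      have h6 := hlow 1
      rw [← hS] at h
      norm_num at h6 hX ⊢
      omega
    · exfalso
      have hy0 : y ≠ 0 := fun h => hyv (by rw [h]; exact zero_mem _)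
      have h1 : v + y ≠ 0 := fun h => hyv (by
        rw [eq_neg_of_add_eq_zero_right h, Submodule.coe_neg]
        exact neg_mem (Submodule.mem_span_singleton_self _))
      have h2 : v - y ≠ 0 := fun h => hyv (by
        rw [← sub_eq_zero.1 h]; exact Submodule.mem_span_singleton_self _)
      have e1 := hsec _ (add_mem_AnnW hv hy) h1
      have e2 := hsec _ (sub_mem_AnnW hv hy) h2
      have e3 := hsec y hy hy0
      rw [Submodule.coe_add, QuadraticMap.map_add ⇑Q, e3] at e1
      rw [Submodule.coe_sub, sub_eq_add_neg, QuadraticMap.map_add ⇑Q, QuadraticMap.map_neg,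
        polar_neg_right, e3] at e2
      have h30 : (3 : F) = 0 := by exact_mod_cast CharP.cast_eq_zero F 3
      exact hv0 (by linear_combination (-1 : F) * e1 + (-1 : F) * e2 + Q (v : V) * h30)

/-- Totally singular annihilators cover the singular vectors. -/
theorem sing_bound (hG : Good Q) (HP : Fr Q e f) (hd : 7 ≤ Module.finrank F V) (p : ℕ)
    [Fact p.Prime] [CharP F p] (hq : Fintype.card F = p) {ω : Ω} {u : WQ Q e f}
    (hu : u ∈ AnnW HP ω) (hu0 : u ≠ 0) (hts : ∀ z ∈ AnnW HP ω, Q ((z : WQ Q e f) : V) = 0) :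
    p * (Lset Q e f).card ≤ (p - 1) * ∑ B ∈ TsetW HP ω, B.card := by
  have hd7 : 7 ≤ Module.finrank F V := by omega
  rw [← orbV_sing (hts u hu)]
  by_cases hline : ∀ z ∈ AnnW HP ω, ((z : WQ Q e f) : V) ∈ Submodule.span F ({(u : V)} : Set V)
  · have h := line_cover hG HP hd7 hu hu0 hline
    rwa [hq] at h
  push Not at hline
  obtain ⟨z, hz, hzu⟩ := hline
  rcases witness_or_perp hG HP hd7 p hu hu0 hz hzu with ⟨T, hT, hmem, hcard⟩ | hperp
  · have h := cover HP (orbV_trans hG HP hd7 hu0) hT hmem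
    rw [hcard] at h
    refine h.trans (Nat.le_mul_of_pos_left _ ?_)
    have := two_le_prime p hq; omega
  · exfalso
    obtain ⟨a, b, ha, hb, Hab, hau, hbu⟩ := exists_pair_perp' hG HP hd7 (mem_WQ.1 u.2)
      fun h => hu0 (Subtype.ext h)
    have h := hts _ (hperp (⟨a, ha⟩ + ⟨b, hb⟩) (by
      rw [Submodule.coe_add, polar_add_left, hau, hbu, add_zero]))
    rw [Submodule.coe_add, QuadraticMap.map_add ⇑Q, Hab.ee, Hab.ff, Hab.ef] at h
    simp at h

/-- A regular orbit and the translates of another point are disjoint. -/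
theorem free_add_sum (hG : Good Q) (HP : Fr Q e f) [Fintype Ω] {ω₀ ω : Ω} (h₀ : Free Q ω₀ e)
    (hne : AnnW HP ω ≠ Finset.univ) :
    Fintype.card (WQ Q e f) + ∑ B ∈ TsetW HP ω, B.card ≤ Fintype.card Ω := by
  set R := Finset.univ.filter fun y : Ω => AnnW HP y ∈ TsetW HP ω
  have h1 : ∑ B ∈ TsetW HP ω, B.card ≤ R.card := by
    rw [Finset.card_eq_sum_card_fiberwise (s := R) (f := fun y => AnnW HP y) (t := TsetW HP ω)
      fun y hy => (Finset.mem_filter.1 hy).2]
    refine Finset.sum_le_sum fun B hB => ?_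
    obtain ⟨g, c, hg, rfl⟩ := mem_TsetW.1 hB
    rw [← card_orbW hG HP (g • ω)]
    refine Finset.card_le_card fun y hy => ?_
    have hA := AnnW_orb HP hy
    exact Finset.mem_filter.2 ⟨Finset.mem_filter.2 ⟨Finset.mem_univ _, by rw [hA]; exact hB⟩, hA⟩
  have hdisj : Disjoint (orbW HP ω₀) R := by
    rw [Finset.disjoint_left]
    intro y hy hyR
    have hfy := free_orb HP h₀ hy
    have huniv : AnnW HP y = Finset.univ := by
      refine Finset.eq_univ_of_card _ ?_
      rw [← card_orbW hG HP y, card_orbW_free HP hfy]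
    obtain ⟨g, c, hg, hgy⟩ := mem_TsetW.1 (Finset.mem_filter.1 hyR).2
    rw [AnnW_smul HP hg, huniv] at hgy
    refine hne (Finset.eq_univ_of_card _ ?_)
    rw [← Finset.card_image_of_injective _ (psiW_injective hg), hgy, Finset.card_univ]
  have h2 := Finset.card_le_univ (orbW HP ω₀ ∪ R)
  rw [Finset.card_union_of_disjoint hdisj, card_orbW_free HP h₀] at h2
  omega

/-- A point fixed by all radicals is fixed by the group. -/
theorem fixed_all {ω : Ω} (h : ∀ x u : V, x ≠ 0 → Q x = 0 → polar Q x u = 0 → sg Q x u • ω = ω)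
    (g : G Q) : g • ω = ω := by
  obtain ⟨h', hh⟩ := g
  induction hh using Subgroup.closure_induction with
  | mem z hz =>
    obtain ⟨x, u, hx, hu, rfl⟩ := hz
    rcases eq_or_ne x 0 with rfl | hx0
    · show sg Q 0 u • ω = ω
      rw [show sg Q (0 : V) u = 1 from Subtype.ext (sie_zero_left u), one_smul]
    · exact h x u hx0 hx hu
  | one => exact one_smul (G Q) ω
  | mul a b hma hmb ha hb =>
    show ((⟨a, hma⟩ : G Q) * ⟨b, hmb⟩) • ω = ω
    rw [mul_smul, hb, ha]
  | inv a hma ha =>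
    show ((⟨a, hma⟩ : G Q)⁻¹) • ω = ω
    rw [inv_smul_eq_iff, ha]

/-- The degree of a nontrivial transitive action over a field with two or three elements. -/
theorem min_degree_prime (hG : Good Q) (hd : 7 ≤ Module.finrank F V) (p : ℕ) [Fact p.Prime]
    [CharP F p] (hq : Fintype.card F = p) (hp3 : p ≤ 3)
    (hspare : p = 2 → 8 ≤ Module.finrank F V)
    (hexcl : p = 2 → ∀ (ω : Ω), (∀ (y : Ω) (x : V), x ≠ 0 → Q x = 0 → Free Q y x) →
      (∀ (e f : V), Fr Q e f → ∀ y : Ω, ∃ s : WQ Q e f, sg Q e (s : V) • ω = y) → False)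
    (T₀ n₀ : ℕ)
    (hmts : ∀ (e f : V) (HP : Fr Q e f) (ω : Ω), TSing Q (Tsp HP ω) →
      Module.finrank F V ≤ 2 * Module.finrank F (Tsp HP ω) + 2 →
      T₀ ≤ (p - 1) * ∑ B ∈ TsetW HP ω, B.card)
    (hn₀ : ∀ (e f : V), Fr Q e f → ∀ c : F, c ≠ 0 → n₀ ≤ (lev Q e f c).card)
    (hbig : ∀ (e f : V), Fr Q e f → T₀ + 2 ≤ p * Fintype.card (WQ Q e f))
    (hline : ∀ (e f : V), Fr Q e f → T₀ ≤ (p - 1) * Fintype.card (WQ Q e f) + p * n₀)
    (hts : ∀ (e f : V), Fr Q e f →
      T₀ ≤ (p - 1) * Fintype.card (WQ Q e f) + p * (Lset Q e f).card ∨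
      T₀ = (p - 1) * Fintype.card (WQ Q e f) + p * (Lset Q e f).card + (p - 1))
    [Fintype Ω] [MulAction.IsPretransitive (G Q) Ω] [Nontrivial Ω] :
    T₀ ≤ (p - 1) * Fintype.card Ω := by
  have hd7 : 7 ≤ Module.finrank F V := by omega
  have hp2 := two_le_prime p hq
  by_cases hA : ∃ (e f : V) (HP : Fr Q e f) (ω : Ω), AnnW HP ω ≠ Finset.univ ∧
      ∃ v ∈ AnnW HP ω, Q ((v : WQ Q e f) : V) ≠ 0 ∧
        ∃ y ∈ AnnW HP ω, ((y : WQ Q e f) : V) ∉ Submodule.span F ({(v : V)} : Set V)
  · obtain ⟨e, f, HP, ω, hne, v, hv, hv0, y, hy, hyv⟩ := hA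
    have h := big_bound hG HP hd p hq hp3 hspare hv hv0 hy hyv hne
    have h1 := hbig e f HP
    have h2 := Nat.mul_le_mul_left (p - 1) (sum_le_card hG HP ω)
    omega
  push Not at hA
  by_cases hfree : ∃ (e f : V) (HP : Fr Q e f) (ω : Ω), AnnW HP ω = Finset.univ
  swap
  · push Not at hfree
    by_cases hmax : ∃ (e f : V) (HP : Fr Q e f) (ω : Ω), TSing Q (Tsp HP ω) ∧
        Module.finrank F V ≤ 2 * Module.finrank F (Tsp HP ω) + 2
    · obtain ⟨e, f, HP, ω, h1, h2⟩ := hmax
      exact (hmts e f HP ω h1 h2).trans (Nat.mul_le_mul_left _ (sum_le_card hG HP ω))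
    push Not at hmax
    exfalso
    obtain ⟨a, b, hab⟩ := exists_pair_ne Ω
    obtain ⟨g, hg⟩ := MulAction.exists_smul_eq (G Q) a b
    exact hab (((trivial_of_small hG hd7
      (fun e f HP => smallT_of (hmax e f HP a) fun v hv hv0 y hy =>
        hA e f HP a (hfree e f HP a) v hv hv0 y hy) g).symm).trans hg)
  obtain ⟨e₀, f₀, HP₀, ω₀, hω₀⟩ := hfree
  have hω₀' := free_of_AnnW hG HP₀ hω₀
  -- two regular orbits suffice
  by_cases htwo : ∀ y, Free Q y e₀ → y ∈ orbW HP₀ ω₀
  swap
  · push Not at htwo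
    obtain ⟨y, hy, hyo⟩ := htwo
    have hdisj : Disjoint (orbW HP₀ ω₀) (orbW HP₀ y) := by
      rw [Finset.disjoint_left]
      intro z hz hz'
      obtain ⟨a, ha⟩ := mem_orbW.1 hz
      obtain ⟨b, hb⟩ := mem_orbW.1 hz'
      refine hyo (mem_orbW.2 ⟨-b + a, ?_⟩)
      rw [Submodule.coe_add, sg_add HP₀.ee (mem_WQ.1 (-b).2).ex (mem_WQ.1 a.2).ex, mul_smul, ha,
        Submodule.coe_neg, sg_neg HP₀.ee (mem_WQ.1 b.2).ex, inv_smul_eq_iff, hb]
    have h2 := Finset.card_le_univ (orbW HP₀ ω₀ ∪ orbW HP₀ y)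
    rw [Finset.card_union_of_disjoint hdisj, card_orbW_free HP₀ hω₀', card_orbW_free HP₀ hy] at h2
    have h1 := hbig _ _ HP₀
    have h3 := Nat.mul_le_mul_left (p - 1) h2
    obtain rfl | rfl : p = 2 ∨ p = 3 := by omega
    all_goals (norm_num at h3 ⊢; omega)
  have hfreeF : ∀ {e f : V}, Fr Q e f →
      (freeF Q Ω e).card = Fintype.card (WQ Q e f) := by
    intro e f H
    rw [← card_freeF_eq hG HP₀.ee HP₀.e_ne H.ee H.e_ne, card_WQ_eq hG HP₀ H,
      ← card_orbW_free HP₀ hω₀']
    congr 1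
    ext y
    exact ⟨fun h => htwo y (mem_freeF.1 h), fun h => mem_freeF.2 (free_orb HP₀ hω₀' h)⟩
  by_cases hB : ∃ (e f : V) (HP : Fr Q e f) (ω : Ω), AnnW HP ω ≠ Finset.univ ∧
      ∃ u ∈ AnnW HP ω, u ≠ (0 : WQ Q e f)
  · obtain ⟨e, f, HP, ω, hne, u, hu, hu0⟩ := hB
    obtain ⟨ω₁, hω₁⟩ : (freeF Q Ω e).Nonempty := by
      rw [← Finset.card_pos, hfreeF HP]; exact Fintype.card_pos
    have hsum := free_add_sum hG HP (mem_freeF.1 hω₁) hne
    have hm := Nat.mul_le_mul_left (p - 1) hsum
    rw [Nat.mul_add] at hm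
    by_cases hns : ∃ v ∈ AnnW HP ω, Q ((v : WQ Q e f) : V) ≠ 0
    · obtain ⟨v, hv, hv0⟩ := hns
      have h := line_cover hG HP hd7 hv (fun h => hv0 (by rw [h, Submodule.coe_zero, map_zero]))
        (fun y hy => hA e f HP ω hne v hv hv0 y hy)
      rw [hq] at h
      have h1 := Nat.mul_le_mul_left p ((hn₀ e f HP _ hv0).trans (orbV_ns hv0))
      have h2 := hline e f HP
      omega
    · push Not at hns
      have h := sing_bound hG HP hd p hq hu hu0 hns
      rcases hts e f HP with ht | ht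
      · omega
      by_contra hlt
      push Not at hlt
      set X := Fintype.card (WQ Q e f)
      set L := (Lset Q e f).card
      set M := Fintype.card Ω
      have hlow : (p - 1) * X + p * L ≤ (p - 1) * M := by omega
      -- double counting
      have hN := card_sing (Q := Q) HP
      rw [hq] at hN
      set S := (singP Q fun x => Free Q ω₁ x).card with hS
      have hMS : M * S = (singP Q fun _ => True).card * X := by
        have h1 : ∀ z : Ω, ((singP Q fun _ => True).filter fun x => Free Q z x).card = S := by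
          intro z
          obtain ⟨g, rfl⟩ := MulAction.exists_smul_eq (G Q) ω₁ z
          rw [hS]
          refine Finset.card_bij' (fun x _ => (g⁻¹).1.1 x) (fun x _ => g.1.1 x) ?_ ?_
            (fun x _ => G_inv' g x) (fun x _ => G_inv g x)
          · intro x hx
            obtain ⟨hx1, hx2⟩ := Finset.mem_filter.1 hx
            obtain ⟨hx0, hQx, -⟩ := mem_singP.1 hx1
            refine mem_singP.2 ⟨fun h => hx0 (by rw [← G_inv' g x, h, map_zero]), by rw [G_Q, hQx], ?_⟩
            have := free_smul hQx g⁻¹ hx2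
            rwa [inv_smul_smul] at this
          · intro x hx
            obtain ⟨hx0, hQx, hx2⟩ := mem_singP.1 hx
            exact Finset.mem_filter.2 ⟨mem_singP.2
              ⟨fun h => hx0 (g.1.1.map_eq_zero_iff.1 h), by rw [G_Q, hQx], trivial⟩,
              free_smul hQx g hx2⟩
        have h2 : ∀ x ∈ singP Q (fun _ => True),
            (Finset.univ.filter fun z : Ω => Free Q z x).card = X := by
          intro x hx
          obtain ⟨hx0, hQx, -⟩ := mem_singP.1 hx
          obtain ⟨y, hy, hxy⟩ := hG.exists_partner hx0 hQx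
          have H : Fr Q x y := ⟨hQx, hy, hxy⟩
          show (freeF Q Ω x).card = X
          rw [hfreeF H, card_WQ_eq hG HP H]
        calc M * S = ∑ z : Ω, ((singP Q fun _ => True).filter fun x => Free Q z x).card := by
              simp only [h1, Finset.sum_const, Finset.card_univ, smul_eq_mul, M]
          _ = ∑ x ∈ singP Q (fun _ => True),
              (Finset.univ.filter fun z : Ω => Free Q z x).card := by
              simp only [Finset.card_filter]; exact Finset.sum_comm
          _ = _ := by rw [Finset.sum_congr rfl h2, Finset.sum_const, smul_eq_mul]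
      obtain ⟨r, hr0, hr1, hNM⟩ : ∃ r, 1 ≤ r ∧ r ≤ p - 1 ∧
          (singP Q fun _ => True).card = (p - 1) * M + r := by
        refine ⟨(singP Q fun _ => True).card - (p - 1) * M, ?_, ?_, ?_⟩
        all_goals
          rw [hN]
          obtain rfl | rfl : p = 2 ∨ p = 3 := by omega
          all_goals omega
      have hdvd : M ∣ r * X := by
        rw [hNM, add_mul] at hMS
        have h1 : M ∣ (p - 1) * M * X + r * X := ⟨S, hMS.symm⟩
        exact (Nat.dvd_add_right ⟨(p - 1) * X, by ring⟩).1 h1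
      obtain ⟨Z, hZ, hX, hL, hLq, -, -, -⟩ := numbers hG HP hd7
      rw [hq] at hX hL hLq
      have hXpos : 0 < X := Fintype.card_pos
      have hle := Nat.le_of_dvd (Nat.mul_pos (by omega) hXpos) hdvd
      obtain rfl | rfl : p = 2 ∨ p = 3 := by omega
      · obtain rfl : r = 1 := by omega
        omega
      · have hX' : X = 81 * Z := by rw [show X = 3 ^ 4 * Z from hX]; norm_num
        norm_num at hL hlow hlt hr1 hle
        obtain rfl | rfl : r = 1 ∨ r = 2 := by omega
        · omega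
        · obtain ⟨k, hk⟩ := hdvd
          rcases k with _ | _ | k
          · omega
          · omega
          · nlinarith
  push Not at hB
  exfalso
  -- every radical is regular or trivial
  have hdich : ∀ (ω : Ω) (x : V), x ≠ 0 → Q x = 0 →
      Free Q ω x ∨ ∀ u, polar Q x u = 0 → sg Q x u • ω = ω := by
    intro ω x hx0 hQx
    obtain ⟨y, hy, hxy⟩ := hG.exists_partner hx0 hQx
    have H : Fr Q x y := ⟨hQx, hy, hxy⟩
    by_cases hu : AnnW H ω = Finset.univ
    · exact Or.inl (free_of_AnnW hG H hu)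
    · refine Or.inr fun u hu' => ?_
      rw [sg_proj H hu']
      refine fix_of_perp hG H (proj_mem H u) fun t ht => ?_
      have hT : Tsp H ω = ⊥ := by
        rw [Tsp, Submodule.span_eq_bot]
        rintro _ ⟨v, hv, rfl⟩
        show (v : V) = 0
        rw [hB x y H ω hu v hv, Submodule.coe_zero]
      rw [hT, Submodule.mem_bot] at ht
      rw [ht, polar_zero_right]
  have hstep : ∀ (ω : Ω) (x z : V), x ≠ 0 → Q x = 0 → z ≠ 0 → Q z = 0 → polar Q x z = 0 →
      (∀ u, polar Q x u = 0 → sg Q x u • ω = ω) → ∀ u, polar Q z u = 0 → sg Q z u • ω = ω := by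
    intro ω x z hx0 hQx hz0 hQz hxz hfix
    rcases hdich ω z hz0 hQz with hF | h
    · by_cases hdep : ∃ c : F, z = c • x
      · obtain ⟨c, rfl⟩ := hdep
        have hc : c ≠ 0 := fun h => hz0 (by rw [h, zero_smul])
        intro u hu
        rw [polar_smul_left, smul_eq_mul, mul_eq_zero, or_iff_right hc] at hu
        rw [sg_smul hQx hu]
        exact hfix _ (by rw [polar_smul_right, hu, smul_zero])
      · push Not at hdep
        exfalso
        have h1 : sg Q z (-x) • ω = ω := by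
          rw [← sg_swap hQx hQz hxz]; exact hfix z hxz
        have h2 := hF (-x) (by rw [polar_neg_right, polar_comm, hxz, neg_zero]) h1
        obtain ⟨y, hy, hzy⟩ := hG.exists_partner hz0 hQz
        have h3 := congrArg (fun g : G Q => g.1.1 y) h2
        simp only [sg_apply hQz (show polar Q z (-x) = 0 by rw [polar_neg_right, polar_comm, hxz, neg_zero]),
          G_one, QuadraticMap.map_neg, hQx, zero_mul, zero_smul, sub_zero, polar_comm Q y z, hzy,
          one_smul] at h3
        have h4 : -x = polar Q y (-x) • z := by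
          linear_combination (norm := module) h3
        generalize polar Q y (-x) = c at h4
        rcases eq_or_ne c 0 with rfl | h0
        · rw [zero_smul, neg_eq_zero] at h4; exact hx0 h4
        · refine hdep (-c⁻¹) ?_
          rw [neg_smul, ← smul_neg, h4, inv_smul_smul₀ h0]
    · exact h
  by_cases hfx : ∃ (ω : Ω) (x : V), x ≠ 0 ∧ Q x = 0 ∧ ∀ u, polar Q x u = 0 → sg Q x u • ω = ω
  · obtain ⟨ω, x, hx0, hQx, hfix⟩ := hfx
    have hallfix : ∀ z u : V, z ≠ 0 → Q z = 0 → polar Q z u = 0 → sg Q z u • ω = ω := by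
      intro z u hz0 hQz hu
      by_cases hxz : polar Q x z = 0
      · exact hstep ω x z hx0 hQx hz0 hQz hxz hfix u hu
      · set y := (polar Q x z)⁻¹ • z
        have H : Fr Q x y := ⟨hQx, by rw [QuadraticMap.map_smul, hQz, smul_zero],
          by rw [polar_smul_right, smul_eq_mul, inv_mul_cancel₀ hxz]⟩
        obtain ⟨a, b, ha, -, Hab⟩ := W_pair hG H
        have h1 := hstep ω x a hx0 hQx Hab.e_ne Hab.ee ha.ex hfix
        have h2 : polar Q a z = 0 := by
          have := ha.xf
          rw [polar_smul_right, smul_eq_mul, mul_eq_zero, inv_eq_zero] at this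
          exact this.resolve_left hxz
        exact hstep ω a z Hab.e_ne Hab.ee hz0 hQz h2 h1 u hu
    obtain ⟨a, b, hab⟩ := exists_pair_ne Ω
    have hfixω : ∀ z : Ω, z = ω := fun z => by
      obtain ⟨g, rfl⟩ := MulAction.exists_smul_eq (G Q) ω z
      exact fixed_all hallfix g
    exact hab ((hfixω a).trans (hfixω b).symm)
  push Not at hfx
  have hallfree : ∀ (ω : Ω) (x : V), x ≠ 0 → Q x = 0 → Free Q ω x := fun ω x hx0 hQx =>
    (hdich ω x hx0 hQx).resolve_right fun h => by
      obtain ⟨u, hu, hu'⟩ := hfx ω x hx0 hQx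
      exact hu' (h u hu)
  have htr : ∀ y : Ω, ∃ s : WQ Q e₀ f₀, sg Q e₀ (s : V) • ω₀ = y :=
    fun y => mem_orbW.1 (htwo y (hallfree y e₀ HP₀.e_ne HP₀.ee))
  obtain rfl | rfl : p = 2 ∨ p = 3 := by omega
  · refine hexcl rfl ω₀ hallfree fun e f H y => (mem_orbW (HP := H)).1 ?_
    have hsub : orbW H ω₀ = freeF Q Ω e := Finset.eq_of_subset_of_card_le
      (fun z hz => mem_freeF.2 (free_orb H (hallfree ω₀ e H.e_ne H.ee) hz))
      (by rw [hfreeF H, card_orbW_free H (hallfree ω₀ e H.e_ne H.ee)])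
    rw [hsub]
    exact mem_freeF.2 (hallfree y e H.e_ne H.ee)
  · exact exclude_three hG hd hq HP₀ ω₀ hallfree htr

end Cfsg.Agent.Lib.MinIndexO
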