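import Cfsg.Agent.Lib.MinIndexO.Split

/-!
A proper annihilator with a nonsingular vector has many translates.
-/

set_option autoImplicit false

namespace Cfsg.Agent.Lib.MinIndexO

open QuadraticMap hiding proj
open Cfsg.Agent.Lib.Classical.Quad Cfsg.Agent.Lib.Classical.QuadOmega
open Cfsg.Agent.Lib.AutOmegaOdd (G G_ext G_mul G_one G_inv G_inv' G_Q G_B sg sg_apply sg_add sg_zero
  sg_self sg_neg sg_smul sg_conj sg_fix sg_fix_self sg_swap Fr InW proj proj_mem decomp B_proj
  sg_e_fix sg_e_f sg_e_inj)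
open Cfsg.Agent.Lib.AutOmega (W_pair W_partner W_nondeg W_induction)

universe u v w

attribute [local instance] _root_.Classical.propDecidable

variable {F : Type u} [Field F] [Fintype F] {V : Type v} [AddCommGroup V] [Module F V] [Fintype V]
  {Q : QuadraticForm F V} {e f : V}

/-- Vectors whose values differ by a square are conjugate under the stabiliser of the pair. -/
theorem exists_psi_map (hG : Good Q) (HP : Fr Q e f) (hd : 7 ≤ Module.finrank F V) {x y : WQ Q e f}
    (hx : x ≠ 0) (hy : y ≠ 0) {t : F} (ht : t ≠ 0) (h : Q (y : V) = t ^ 2 * Q (x : V)) :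
    ∃ (g : G Q) (c : F) (hg : IsLv Q e f g c), psiW hg x = y := by
  have ht' : t⁻¹ ≠ 0 := inv_ne_zero ht
  obtain ⟨s, hs, hse, hsf⟩ := hG.exists_map_pair HP.ee HP.ff HP.ef (x' := t⁻¹ • e) (y' := t • f)
    (by rw [QuadraticMap.map_smul, HP.ee, smul_zero]) (by rw [QuadraticMap.map_smul, HP.ff, smul_zero])
    (by rw [polar_smul_left, polar_smul_right, HP.ef]; simp [ht])
  set g1 : G Q := ⟨s, hs⟩
  have hg1 : IsLv Q e f g1 t⁻¹ := ⟨ht', hse, by rw [inv_inv]; exact hsf⟩
  have hq : Q (psiW hg1 x : V) = Q (y : V) := by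
    rw [psiW_val, inv_inv, QuadraticMap.map_smul, G_Q, h, smul_eq_mul, pow_two]
  have hne : psiW hg1 x ≠ 0 := fun h0 => hx (psiW_injective hg1 (h0.trans (Subtype.ext (by
    rw [psiW_val, Submodule.coe_zero, map_zero, smul_zero]))))
  obtain ⟨g2, h2e, h2f, h2x⟩ := trans_level hG HP hd hne hy hq
  have hg2 : IsLv Q e f g2 1 :=
    ⟨one_ne_zero, by rw [h2e, one_smul], by rw [h2f, inv_one, one_smul]⟩
  refine ⟨g2 * g1, 1 * t⁻¹, hg2.mul hg1, Subtype.ext ?_⟩
  rw [psiW_val, G_mul, one_mul, ← _root_.map_smul]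
  exact h2x

/-- Siegel transformations of the orthogonal space fix the pair. -/
theorem isLv_sg (HP : Fr Q e f) {b a : V} (hb : InW Q e f b) (ha : InW Q e f a) (hQb : Q b = 0)
    (hba : polar Q b a = 0) : IsLv Q e f (sg Q b a) 1 :=
  ⟨one_ne_zero, by rw [sg_fix hQb hba hb.ex ha.ex, one_smul],
    by rw [sg_fix hQb hba hb.fx ha.fx, inv_one, one_smul]⟩

omit [Fintype F] [Fintype V] in
theorem psiW_one_val {g : G Q} (hg : IsLv Q e f g 1) (x : WQ Q e f) :
    (psiW hg x : V) = g.1.1 (x : V) := by rw [psiW_val, inv_one, one_smul]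

/-- A pair orthogonal to a nonzero vector of the orthogonal space. -/
theorem exists_pair_perp' (hG : Good Q) (HP : Fr Q e f) (hd : 7 ≤ Module.finrank F V) {v : V}
    (hv : InW Q e f v) (hv0 : v ≠ 0) :
    ∃ a b, InW Q e f a ∧ InW Q e f b ∧ Fr Q a b ∧ polar Q a v = 0 ∧ polar Q b v = 0 := by
  by_cases h : Q v = 0
  · obtain ⟨t, ht, Hvt⟩ := W_partner hG HP hv h hv0
    have H' : Fr (QW Q e f) (⟨v, hv⟩ : WQ Q e f) ⟨t, ht⟩ :=
      ⟨Hvt.ee, Hvt.ff, by rw [polar_QW]; exact Hvt.ef⟩
    obtain ⟨a, b, ha, hb, Hab⟩ := W_pair (good_QW hG HP hd) H'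
    have ha' := ha.xe
    have hb' := hb.xe
    rw [polar_QW] at ha' hb'
    exact ⟨a, b, a.2, b.2, ⟨Hab.ee, Hab.ff, by rw [← polar_QW]; exact Hab.ef⟩, ha', hb'⟩
  · exact exists_pair_perp hG HP hd hv h

/-- The orthogonal of a nonzero vector is generated by singular vectors. -/
theorem perp_induction (hG : Good Q) (HP : Fr Q e f) (hd : 7 ≤ Module.finrank F V) {v : V}
    (hv : InW Q e f v) (hv0 : v ≠ 0) {P : V → Prop} (hadd : ∀ x y, P x → P y → P (x + y))
    (hs : ∀ x, InW Q e f x → Q x = 0 → polar Q x v = 0 → P x) :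
    ∀ z, InW Q e f z → polar Q z v = 0 → P z := by
  intro z hz hzv
  obtain ⟨a, b, ha, hb, Hab, hav, hbv⟩ := exists_pair_perp' hG HP hd hv hv0
  set r := proj Q a b z with hr
  have hrW : InW Q e f r := (hz.sub (ha.smul _)).sub (hb.smul _)
  have hrv : polar Q r v = 0 := by simp [hr, proj, polar_sub_left, polar_smul_left, hzv, hav, hbv]
  have hz' : z = (r + ((-Q r) • a + b)) + ((Q r + polar Q z b) • a + (polar Q z a - 1) • b) := by
    rw [hr, proj]; module
  rw [hz']
  refine hadd _ _ (hs _ (hrW.add ((ha.smul _).add hb)) ?_ ?_) (hadd _ _ (hs _ (ha.smul _) ?_ ?_)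
    (hs _ (hb.smul _) ?_ ?_))
  · rw [QuadraticMap.map_add ⇑Q, pair_nonsing Hab.ee Hab.ff Hab.ef, polar_add_right,
      polar_smul_right, (proj_mem Hab z).xe, (proj_mem Hab z).xf]
    simp
  · simp [polar_add_left, polar_smul_left, hrv, hav, hbv]
  · rw [QuadraticMap.map_smul, Hab.ee, smul_zero]
  · rw [polar_smul_left, hav, smul_zero]
  · rw [QuadraticMap.map_smul, Hab.ff, smul_zero]
  · rw [polar_smul_left, hbv, smul_zero]

/-- A vector off the line of a nonsingular vector is seen by a singular orthogonal vector. -/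
theorem exists_sing_perp_ne (hG : Good Q) (HP : Fr Q e f) (hd : 7 ≤ Module.finrank F V) {v y : V}
    (hv : InW Q e f v) (hv0 : v ≠ 0) (hy : InW Q e f y)
    (hyv : y ∉ Submodule.span F ({v} : Set V)) :
    ∃ b, InW Q e f b ∧ Q b = 0 ∧ polar Q b v = 0 ∧ polar Q y b ≠ 0 := by
  by_contra! h
  refine hyv (perp_perp hG HP ?_ hy fun z hz hzv => ?_)
  · rw [Submodule.span_le, Set.singleton_subset_iff]; exact hv
  rw [polar_comm]
  exact perp_induction hG HP hd hv hv0 (P := fun x => polar Q y x = 0)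
    (fun x w hx hw => by rw [polar_add_right, hx, hw, add_zero])
    (fun x hx hQx hxv => h x hx hQx hxv) z hz
    (hzv v (Submodule.mem_span_singleton_self v))

/-- The orthogonal of a nonsingular and a singular vector is not totally isotropic. -/
theorem exists_two_perp (hG : Good Q) (HP : Fr Q e f) (hd : 7 ≤ Module.finrank F V) {v b : V}
    (hv : InW Q e f v) (hb : InW Q e f b) :
    ∃ u w, InW Q e f u ∧ InW Q e f w ∧ polar Q u v = 0 ∧ polar Q u b = 0 ∧ polar Q w v = 0 ∧
      polar Q w b = 0 ∧ polar Q u w ≠ 0 := by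
  set S' := Submodule.span F ({v, b, e, f} : Set V)
  have h4 : Module.finrank F S' ≤ 4 := by
    refine le_trans (finrank_span_le_card _) ?_
    simp only [Set.toFinset_insert, Set.toFinset_singleton]
    exact Finset.card_le_four
  have h1 := finrank_perpS hG.nd S'
  obtain ⟨u, hu, hunot⟩ : ∃ u ∈ perpS Q S', u ∉ Submodule.span F ({v, b} : Set V) := by
    refine SetLike.not_le_iff_exists.1 fun hle => ?_
    have h2 := Submodule.finrank_mono hle
    have h3 : Module.finrank F (Submodule.span F ({v, b} : Set V)) ≤ 2 := by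
      refine le_trans (finrank_span_le_card _) ?_
      simp only [Set.toFinset_insert, Set.toFinset_singleton]
      exact Finset.card_le_two
    omega
  have hp := mem_perpS.1 hu
  have huW : InW Q e f u := ⟨hp e (Submodule.subset_span (by simp)),
    hp f (Submodule.subset_span (by simp))⟩
  by_contra! h
  refine hunot (perp_perp hG HP ?_ huW fun w hw hwS => ?_)
  · rw [Submodule.span_le]
    rintro x (rfl | rfl)
    exacts [hv, hb]
  rw [polar_comm]
  exact h u w huW hw (hp v (Submodule.subset_span (by simp))) (hp b (Submodule.subset_span (by simp)))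
    (hwS v (Submodule.subset_span (by simp))) (hwS b (Submodule.subset_span (by simp)))

variable {Ω : Type w} [MulAction (G Q) Ω]

/-- If no transvection moves an annihilator, it contains the orthogonal of each of its nonsingular
vectors. -/
theorem perp_sub (hG : Good Q) (HP : Fr Q e f) (hd : 7 ≤ Module.finrank F V) {ω : Ω}
    {v : WQ Q e f} (hv : v ∈ AnnW HP ω) (hv0 : (v : V) ≠ 0) {y : WQ Q e f}
    (hy : y ∈ AnnW HP ω) (hyv : (y : V) ∉ Submodule.span F ({(v : V)} : Set V))
    (hno : ∀ (b a : V) (hb : InW Q e f b) (ha : InW Q e f a) (hQb : Q b = 0)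
      (hba : polar Q b a = 0), polar Q b v = 0 → polar Q a v = 0 →
      (AnnW HP ω).image (psiW (isLv_sg HP hb ha hQb hba)) = AnnW HP ω)
    {z : WQ Q e f} (hz : polar Q (z : V) v = 0) : z ∈ AnnW HP ω := by
  set In : V → Prop := fun x => ∃ hx : x ∈ WQ Q e f, (⟨x, hx⟩ : WQ Q e f) ∈ AnnW HP ω
  have hadd : ∀ x y, In x → In y → In (x + y) := fun x y ⟨hx, hx'⟩ ⟨hy, hy'⟩ =>
    ⟨add_mem hx hy, add_mem_AnnW hx' hy'⟩
  have hsub : ∀ x y, In x → In y → In (x - y) := fun x y ⟨hx, hx'⟩ ⟨hy, hy'⟩ =>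
    ⟨sub_mem hx hy, sub_mem_AnnW hx' hy'⟩
  have himg : ∀ {b a : V}, InW Q e f b → InW Q e f a → Q b = 0 → polar Q b a = 0 →
      polar Q b (v : V) = 0 → polar Q a (v : V) = 0 → ∀ x, In x → In ((sg Q b a).1.1 x) := by
    rintro b a hb ha hQb hba hbv hav x ⟨hx, hxA⟩
    have h : psiW (isLv_sg HP hb ha hQb hba) ⟨x, hx⟩ ∈ AnnW HP ω :=
      hno b a hb ha hQb hba hbv hav ▸ Finset.mem_image_of_mem _ hxA
    refine ⟨AutOmega.sg_stab_W hQb hba hb ha hx, ?_⟩
    convert h using 1
    refine Subtype.ext ?_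
    rw [psiW_one_val]
  have rule : ∀ {b x : V}, InW Q e f b → Q b = 0 → polar Q b (v : V) = 0 → In x →
      polar Q x b ≠ 0 → ∀ k : F, In (k • b) := by
    intro b x hb hQb hbv hx hxb k
    obtain ⟨u, w, hu, hw, huv, hub, hwv, hwb, huw⟩ := exists_two_perp hG HP hd (mem_WQ.1 v.2) hb
    set l := -k / (polar Q u w * polar Q x b)
    have hbu : polar Q b (l • u) = 0 := by rw [polar_smul_right, polar_comm, hub, smul_zero]
    have hbw : polar Q b w = 0 := by rw [polar_comm, hwb]
    have h := AutOmega.sg_second hQb hbu hbw x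
    rw [show -(polar Q (l • u) w * polar Q x b) = k by
      rw [polar_smul_left, smul_eq_mul, mul_assoc, div_mul_cancel₀ _ (mul_ne_zero huw hxb),
        neg_neg]] at h
    rw [← h]
    refine hsub _ _ (hadd _ _ (himg hb ((hu.smul _).add hw) hQb ?_ hbv ?_ x hx) hx)
      (hadd _ _ (himg hb (hu.smul _) hQb hbu hbv ?_ x hx) (himg hb hw hQb hbw hbv hwv x hx))
    · rw [polar_add_right, hbu, hbw, add_zero]
    · rw [polar_add_left, polar_smul_left, huv, hwv, smul_zero, add_zero]
    · rw [polar_smul_left, huv, smul_zero]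
  obtain ⟨a₁, b₁, ha₁, -, H₁, ha₁v, hb₁v⟩ := exists_pair_perp' hG HP hd (mem_WQ.1 v.2) hv0
  have ha₁n : a₁ ∉ Submodule.span F ({(v : V)} : Set V) := by
    intro hm
    obtain ⟨c, hc⟩ := Submodule.mem_span_singleton.1 hm
    have h1 : polar Q b₁ (c • (v : V)) = 1 := by rw [hc]; exact H₁.fe
    rw [polar_smul_right, hb₁v, smul_zero] at h1
    exact zero_ne_one h1
  obtain ⟨b', hb', hQb', hb'v, hyb'⟩ :=
    exists_sing_perp_ne hG HP hd (mem_WQ.1 v.2) hv0 (mem_WQ.1 y.2) hyv
  obtain ⟨b0, hb0, hQb0, hb0v, hyb0, hb0n⟩ : ∃ b0, InW Q e f b0 ∧ Q b0 = 0 ∧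
      polar Q b0 (v : V) = 0 ∧ polar Q (y : V) b0 ≠ 0 ∧
      b0 ∉ Submodule.span F ({(v : V)} : Set V) := by
    by_cases hm : b' ∈ Submodule.span F ({(v : V)} : Set V)
    · by_cases h1 : polar Q (y : V) a₁ = 0
      · obtain ⟨c, rfl⟩ := Submodule.mem_span_singleton.1 hm
        refine ⟨a₁ + c • (v : V), ha₁.add hb', ?_, by rw [polar_add_left, ha₁v, hb'v, add_zero],
          by rw [polar_add_right, h1, zero_add]; exact hyb', fun h => ha₁n ?_⟩
        · rw [QuadraticMap.map_add ⇑Q, H₁.ee, hQb', polar_smul_right, ha₁v, smul_zero]; simp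
        · have := sub_mem h hm; rwa [add_sub_cancel_right] at this
      · exact ⟨a₁, ha₁, H₁.ee, ha₁v, h1, ha₁n⟩
    · exact ⟨b', hb', hQb', hb'v, hyb', hm⟩
  have hIn0 : In b0 := by simpa using rule hb0 hQb0 hb0v ⟨y.2, hy⟩ hyb0 1
  have hsing' : ∀ b, InW Q e f b → Q b = 0 → polar Q b (v : V) = 0 →
      b ∉ Submodule.span F ({(v : V)} : Set V) → In b := by
    intro b hb hQb hbv hbn
    by_cases hbb : polar Q b0 b ≠ 0
    · simpa using rule hb hQb hbv hIn0 hbb 1
    push Not at hbb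
    obtain ⟨w1, hw1, -, hw1v, h1⟩ :=
      exists_sing_perp_ne hG HP hd (mem_WQ.1 v.2) hv0 hb0 hb0n
    obtain ⟨w2, hw2, -, hw2v, h2⟩ :=
      exists_sing_perp_ne hG HP hd (mem_WQ.1 v.2) hv0 hb hbn
    obtain ⟨w, hw, hwv, h01, h02⟩ : ∃ w, InW Q e f w ∧ polar Q w (v : V) = 0 ∧
        polar Q b0 w ≠ 0 ∧ polar Q b w ≠ 0 := by
      by_cases h3 : polar Q b w1 = 0
      · by_cases h4 : polar Q b0 w2 = 0
        · exact ⟨w1 + w2, hw1.add hw2, by rw [polar_add_left, hw1v, hw2v, add_zero],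
            by rw [polar_add_right, h4, add_zero]; exact h1,
            by rw [polar_add_right, h3, zero_add]; exact h2⟩
        · exact ⟨w2, hw2, hw2v, h4, h2⟩
      · exact ⟨w1, hw1, hw1v, h1, h3⟩
    set s := w + (-Q w / polar Q b0 w) • b0
    have hsW : InW Q e f s := hw.add (hb0.smul _)
    have hQs : Q s = 0 := by
      rw [QuadraticMap.map_add ⇑Q, QuadraticMap.map_smul, hQb0, smul_zero, polar_smul_right,
        polar_comm Q w b0, smul_eq_mul, div_mul_cancel₀ _ h01, add_zero, add_neg_cancel]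
    have hsv : polar Q s (v : V) = 0 := by
      rw [polar_add_left, polar_smul_left, hwv, hb0v, smul_zero, add_zero]
    have h0s : polar Q b0 s ≠ 0 := by
      rw [polar_add_right, polar_smul_right, polar_self_sing hQb0, smul_zero, add_zero]; exact h01
    have hsb : polar Q s b ≠ 0 := by
      rw [polar_add_left, polar_smul_left, hbb, smul_zero, add_zero, polar_comm]; exact h02
    have hIns : In s := by simpa using rule hsW hQs hsv hIn0 h0s 1
    simpa using rule hb hQb hbv hIns hsb 1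
  have hsing : ∀ b, InW Q e f b → Q b = 0 → polar Q b (v : V) = 0 → In b := by
    intro b hb hQb hbv
    by_cases hm : b ∈ Submodule.span F ({(v : V)} : Set V)
    · have h1 : In (a₁ + b) := by
        refine hsing' _ (ha₁.add hb) ?_ (by rw [polar_add_left, ha₁v, hbv, add_zero]) fun h => ha₁n ?_
        · obtain ⟨c, rfl⟩ := Submodule.mem_span_singleton.1 hm
          rw [QuadraticMap.map_add ⇑Q, H₁.ee, hQb, polar_smul_right, ha₁v, smul_zero]; simp
        · have := sub_mem h hm; rwa [add_sub_cancel_right] at this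
      have := hsub _ _ h1 (hsing' a₁ ha₁ H₁.ee ha₁v ha₁n)
      rwa [add_sub_cancel_left] at this
    · exact hsing' b hb hQb hbv hm
  obtain ⟨hx, h⟩ := perp_induction hG HP hd (mem_WQ.1 v.2) hv0 (P := In) hadd hsing z
    (mem_WQ.1 z.2) hz
  exact h

/-- The annihilator is everything or is moved by a transvection fixing one of its vectors. -/
theorem exists_witness (hG : Good Q) (HP : Fr Q e f) (hd : 7 ≤ Module.finrank F V) {ω : Ω}
    {v : WQ Q e f} (hv : v ∈ AnnW HP ω) (hv0 : Q (v : V) ≠ 0) {y : WQ Q e f}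
    (hy : y ∈ AnnW HP ω) (hyv : (y : V) ∉ Submodule.span F ({(v : V)} : Set V))
    (hne : AnnW HP ω ≠ Finset.univ) :
    ∃ v' ∈ AnnW HP ω, Q ((v' : WQ Q e f) : V) ≠ 0 ∧ ∃ (b a : V) (hb : InW Q e f b)
      (ha : InW Q e f a) (hQb : Q b = 0) (hba : polar Q b a = 0), polar Q b v' = 0 ∧
      polar Q a v' = 0 ∧ (AnnW HP ω).image (psiW (isLv_sg HP hb ha hQb hba)) ≠ AnnW HP ω := by
  by_contra h
  push Not at h
  have key : ∀ {v' : WQ Q e f}, v' ∈ AnnW HP ω → Q (v' : V) ≠ 0 → ∀ {y' : WQ Q e f},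
      y' ∈ AnnW HP ω → (y' : V) ∉ Submodule.span F ({(v' : V)} : Set V) →
      ∀ {z : WQ Q e f}, polar Q (z : V) v' = 0 → z ∈ AnnW HP ω :=
    fun hv' hv0' _ hy' hyv' _ hz => perp_sub hG HP hd hv' (fun h0 => hv0' (by rw [h0, map_zero])) hy' hyv'
      (fun b a hb ha hQb hba h1 h2 => h _ hv' hv0' b a hb ha hQb hba h1 h2) hz
  refine hne (Finset.eq_univ_of_forall fun x => ?_)
  obtain ⟨a, b, ha, hb, Hab, hav, hbv⟩ := exists_pair_perp hG HP hd (mem_WQ.1 v.2) hv0
  set v' : WQ Q e f := ⟨a, ha⟩ + ⟨b, hb⟩ with hv'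
  have hv'c : (v' : V) = a + b := rfl
  have hv'v : polar Q (v' : V) v = 0 := by rw [hv'c, polar_add_left, hav, hbv, add_zero]
  have hv'0 : Q (v' : V) ≠ 0 := by
    rw [hv'c, QuadraticMap.map_add ⇑Q, Hab.ee, Hab.ff, Hab.ef]; simp
  have hav' : polar Q a (v' : V) = 1 := by
    rw [hv'c, polar_add_right, polar_self_sing Hab.ee, Hab.ef, zero_add]
  have hv'A : v' ∈ AnnW HP ω := key hv hv0 hy hyv hv'v
  have hvv' : (v : V) ∉ Submodule.span F ({(v' : V)} : Set V) := by
    intro hm
    obtain ⟨c, hc⟩ := Submodule.mem_span_singleton.1 hm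
    have hc' : c = 0 := by
      have h1 : polar Q a (c • (v' : V)) = 0 := by rw [hc, hav]
      rwa [polar_smul_right, hav', smul_eq_mul, mul_one] at h1
    rw [hc', zero_smul] at hc
    exact hv0 (by rw [← hc, map_zero])
  obtain ⟨w, hw, hwv⟩ := W_nondeg hG HP (mem_WQ.1 v.2) (fun h0 => hv0 (by rw [h0, map_zero]))
  set r : WQ Q e f := ⟨w, hw⟩ - polar Q w (v' : V) • ⟨a, ha⟩
  have hrc : (r : V) = w - polar Q w (v' : V) • a := rfl
  have hrv' : polar Q (r : V) v' = 0 := by
    rw [hrc, polar_sub_left, polar_smul_left, hav', smul_eq_mul, mul_one, sub_self]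
  have hrv : polar Q (r : V) v = 1 := by
    rw [hrc, polar_sub_left, polar_smul_left, hav, smul_zero, sub_zero, polar_comm, hwv]
  rw [show x = (x - polar Q (x : V) v • r) + polar Q (x : V) v • r from (sub_add_cancel _ _).symm]
  refine add_mem_AnnW (key hv hv0 hy hyv ?_) (key hv'A hv'0 hv hvv' ?_)
  · rw [Submodule.coe_sub, Submodule.coe_smul, polar_sub_left, polar_smul_left, hrv, smul_eq_mul,
      mul_one, sub_self]
  · rw [Submodule.coe_smul, polar_smul_left, hrv', smul_zero]

/-- A transvection moving an annihilator gives as many translates as the characteristic. -/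
theorem exists_translates (HP : Fr Q e f) (p : ℕ) [hp : Fact p.Prime] [CharP F p] {ω : Ω}
    {v' : WQ Q e f} (hv' : v' ∈ AnnW HP ω) {b a : V} (hb : InW Q e f b) (ha : InW Q e f a)
    (hQb : Q b = 0) (hba : polar Q b a = 0) (hbv : polar Q b (v' : V) = 0)
    (hav : polar Q a (v' : V) = 0)
    (hmove : (AnnW HP ω).image (psiW (isLv_sg HP hb ha hQb hba)) ≠ AnnW HP ω) :
    ∃ T : Finset (Finset (WQ Q e f)), T ⊆ TsetW HP ω ∧ (∀ B ∈ T, v' ∈ B) ∧ T.card = p := by
  set g := sg Q b a
  have hg : IsLv Q e f g 1 := isLv_sg HP hb ha hQb hba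
  have hfix : psiW hg v' = v' := Subtype.ext (by
    rw [psiW_one_val]; exact sg_fix hQb hba (by rw [polar_comm, hbv]) (by rw [polar_comm, hav]))
  set B : ℕ → Finset (WQ Q e f) := fun i => AnnW HP (g ^ i • ω)
  have hB : ∀ i, B (i + 1) = (B i).image (psiW hg) := fun i => by
    show AnnW HP (g ^ (i + 1) • ω) = _
    rw [pow_succ', mul_smul, AnnW_smul HP hg]
  have hinj : Function.Injective fun C : Finset (WQ Q e f) => C.image (psiW hg) :=
    Finset.image_injective (psiW_injective hg)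
  have hshift : ∀ k, B k = B 0 → ∀ n, B (n * k) = B 0 := by
    intro k hk n
    induction n with
    | zero => rw [zero_mul]
    | succ n ih =>
      have hadd : ∀ i, B (i + k) = B i := fun i => by
        induction i with
        | zero => rw [zero_add, hk]
        | succ i ih' => rw [show i + 1 + k = i + k + 1 by ring, hB, hB, ih']
      rw [Nat.succ_mul, hadd, ih]
  have hdown : ∀ i k, B (i + k) = B i → B k = B 0 := by
    intro i k
    induction i with
    | zero => rw [zero_add]; exact id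
    | succ i ih =>
      intro h
      rw [show i + 1 + k = i + k + 1 by ring, hB, hB] at h
      exact ih (hinj h)
  have hper : ∀ j, B (j % p) = B j := fun j => by
    show AnnW HP (g ^ (j % p) • ω) = AnnW HP (g ^ j • ω)
    conv_rhs => rw [← Nat.mod_add_div j p, pow_add, pow_mul, AutOmega.sg_pow_p hQb hba, one_pow,
      mul_one]
  have hlt : ∀ i j, i < j → j < p → B i ≠ B j := by
    intro i j hij hj heq
    obtain ⟨k, rfl⟩ : ∃ k, j = i + k := ⟨j - i, by omega⟩
    have hk : B k = B 0 := hdown i k heq.symm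
    have hcop : Nat.Coprime k p :=
      (hp.out.coprime_iff_not_dvd.2 fun hdvd => by
        have := Nat.le_of_dvd (by omega) hdvd
        omega).symm
    obtain ⟨n, -, hn⟩ := Nat.exists_mul_mod_eq_one_of_coprime hcop hp.out.one_lt
    have h1 : B 1 = B 0 := by rw [← hn, hper, mul_comm]; exact hshift k hk n
    refine hmove ?_
    rw [hB 0, show B 0 = AnnW HP ω by simp [B]] at h1
    exact h1
  have hdist : Set.InjOn B (Finset.range p : Set ℕ) := by
    intro i hi j hj hij
    simp only [Finset.coe_range, Set.mem_Iio] at hi hj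
    rcases lt_trichotomy i j with h | h | h
    exacts [absurd hij (hlt i j h hj), h, absurd hij.symm (hlt j i h hi)]
  have hmem : ∀ i, v' ∈ B i := fun i => by
    induction i with
    | zero => simpa [B] using hv'
    | succ i ih => rw [hB]; exact Finset.mem_image.2 ⟨v', ih, hfix⟩
  have hT : (Finset.range p).image B ⊆ TsetW HP ω := fun C hC => by
    obtain ⟨i, -, rfl⟩ := Finset.mem_image.1 hC
    refine mem_TsetW.2 ⟨g ^ i, 1, ?_, rfl⟩
    clear hC
    induction i with
    | zero => exact IsLv.one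
    | succ i ih => rw [pow_succ]; simpa using ih.mul hg
  refine ⟨(Finset.range p).image B, hT, fun C hC => ?_, ?_⟩
  · obtain ⟨i, -, rfl⟩ := Finset.mem_image.1 hC
    exact hmem i
  · rw [Finset.card_image_of_injOn hdist, Finset.card_range]

/-- A proper annihilator has as many translates through a vector as the characteristic. -/
theorem proper_bound (hG : Good Q) (HP : Fr Q e f) (hd : 7 ≤ Module.finrank F V) [Fintype Ω]
    (p : ℕ) [hp : Fact p.Prime] [CharP F p] {ω : Ω}
    {v : WQ Q e f} (hv : v ∈ AnnW HP ω) (hv0 : Q (v : V) ≠ 0) {y : WQ Q e f}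
    (hy : y ∈ AnnW HP ω) (hyv : (y : V) ∉ Submodule.span F ({(v : V)} : Set V))
    (hne : AnnW HP ω ≠ Finset.univ) :
    ∃ c : F, c ≠ 0 ∧ p * (cls Q e f c).card ≤ Fintype.card Ω := by
  obtain ⟨v', hv', hv'0, b, a, hb, ha, hQb, hba, hbv, hav, hmove⟩ :=
    exists_witness hG HP hd hv hv0 hy hyv hne
  obtain ⟨T, hT, hmem, hcard⟩ := exists_translates HP p hv' hb ha hQb hba hbv hav hmove
  refine ⟨Q (v' : V), hv'0, ?_⟩
  have h := cover HP (O := cls Q e f (Q (v' : V))) (u0 := v') (fun u hu => ?_) hT hmem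
  · rw [hcard] at h
    exact h.trans (sum_le_card hG HP ω)
  · obtain ⟨t, ht, htu⟩ := Finset.mem_image.1 (Finset.mem_filter.1 hu).2
    have ht0 := (Finset.mem_erase.1 ht).1
    refine exists_psi_map hG HP hd (fun h => hv'0 (by rw [h, Submodule.coe_zero, map_zero]))
      (fun h => ?_) ht0 htu.symm
    rw [h, Submodule.coe_zero, map_zero] at htu
    exact mul_ne_zero (pow_ne_zero _ ht0) hv'0 htu

end Cfsg.Agent.Lib.MinIndexO
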