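import Cfsg.Agent.Lib.MinIndexO.Count

/-!
The bound when some radical has a regular orbit.
-/

set_option autoImplicit false

namespace Cfsg.Agent.Lib.MinIndexO

open QuadraticMap hiding proj
open Cfsg.Agent.Lib.Classical.Quad Cfsg.Agent.Lib.Classical.QuadOmega
open Cfsg.Agent.Lib.AutOmegaOdd (G G_ext G_mul G_one G_inv G_inv' G_Q G_B sg sg_apply sg_add sg_zero
  sg_self sg_neg sg_smul sg_conj sg_fix sg_fix_self sg_swap Fr InW proj proj_mem decomp B_proj
  sg_e_fix sg_e_f sg_e_inj)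
open Cfsg.Agent.Lib.AutOmega (W_pair W_partner W_nondeg W_induction)

universe u v w

attribute [local instance] _root_.Classical.propDecidable

variable {F : Type u} [Field F] [Fintype F] {V : Type v} [AddCommGroup V] [Module F V] [Fintype V]
  {Q : QuadraticForm F V} {e f : V}

theorem card_WQ_eq (hG : Good Q) (HP : Fr Q e f) {e' f' : V} (HP' : Fr Q e' f') :
    Fintype.card (WQ Q e' f') = Fintype.card (WQ Q e f) := by
  have h1 := finrank_WQ hG HP
  have h2 := finrank_WQ hG HP'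
  rw [Module.card_eq_pow_finrank (K := F) (V := WQ Q e f),
    Module.card_eq_pow_finrank (K := F) (V := WQ Q e' f'),
    show Module.finrank F (WQ Q e' f') = Module.finrank F (WQ Q e f) by omega]

theorem Lset_card (hG : Good Q) (HP : Fr Q e f) {e' f' : V} (HP' : Fr Q e' f') :
    (Lset Q e' f').card = (Lset Q e f).card :=
  Lset_card_eq HP HP' (card_WQ_eq hG HP HP')

/-- The numbers attached to the orthogonal space. -/
theorem numbers (hG : Good Q) (HP : Fr Q e f) (hd : 7 ≤ Module.finrank F V) :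
    ∃ Z : ℕ, 0 < Z ∧ Fintype.card (WQ Q e f) = Fintype.card F ^ 4 * Z ∧
      (Lset Q e f).card + 1 + Fintype.card F * Z ≤
        (Fintype.card F ^ 3 + Fintype.card F ^ 2) * Z ∧
      Fintype.card F ≤ (Lset Q e f).card + 1 ∧
      (Lset Q e f).card < Fintype.card (WQ Q e f) ∧
      (∀ c : F, Fintype.card F * (Fintype.card F ^ 2 - 1) * Z ≤ (lev Q e f c).card) ∧
      ∀ c : F, c ≠ 0 → (Fintype.card F - 1) * (Fintype.card F * (Fintype.card F ^ 2 - 1) * Z) ≤
        2 * (cls Q e f c).card := by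
  obtain ⟨Z, hZ, hX, hlev⟩ := exists_levels hG HP hd
  have hq1 : 1 < Fintype.card F := Fintype.one_lt_card
  obtain ⟨k, hk, hk'⟩ := hlev 0
  rw [card_lev_zero] at hk'
  obtain ⟨j, hj⟩ : ∃ j, Fintype.card F = j + 2 := ⟨Fintype.card F - 2, by omega⟩
  have hlow : ∀ c : F, Fintype.card F * (Fintype.card F ^ 2 - 1) * Z ≤ (lev Q e f c).card := by
    intro c
    obtain ⟨k, -, h⟩ := hlev c
    rw [h, hj, show j + 2 - 1 = j + 1 by omega,
      show (j + 2) ^ 2 - 1 = j * j + 4 * j + 3 by rw [show (j + 2) ^ 2 = j * j + 4 * j + 4 by ring]; omega]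
    nlinarith [Nat.zero_le ((j + 2) * (j + 2) * k)]
  refine ⟨Z, hZ, hX, ?_, ?_, ?_, hlow, fun c hc => ?_⟩
  · rw [hk', hj, show j + 2 - 1 = j + 1 by omega]
    nlinarith [Nat.mul_le_mul_left ((j + 2) * (j + 2)) hk]
  · rw [hk', hj, show j + 2 - 1 = j + 1 by omega]
    nlinarith [Nat.zero_le ((j + 2) * (j + 2) * k), Nat.zero_le (j * Z), Nat.zero_le (j * j * Z),
      Nat.zero_le (j * j * j * Z)]
  · rw [hX]
    rw [hj] at hk' ⊢
    rw [show j + 2 - 1 = j + 1 by omega] at hk'
    nlinarith [Nat.mul_le_mul_left ((j + 2) * (j + 2)) hk, Nat.zero_le (j * Z),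
      Nat.zero_le (j * j * Z), Nat.zero_le (j * j * j * Z), Nat.zero_le (j * j * j * j * Z)]
  · have h1 := card_cls (Q := Q) (e := e) (f := f) (c := c) hlow
    have h2 := card_sqSet hc
    calc _ ≤ 2 * (sqSet c).card * (Fintype.card F * (Fintype.card F ^ 2 - 1) * Z) :=
          Nat.mul_le_mul_right _ h2
      _ ≤ _ := by rw [mul_assoc]; exact Nat.mul_le_mul_left _ h1

/-- Two regular orbits are enough. -/
theorem num_two {q L X Z M : ℕ} (hq : 4 ≤ q) (hL : L + 1 + q * Z ≤ (q ^ 3 + q ^ 2) * Z)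
    (hX : X = q ^ 4 * Z) (h2 : X + X ≤ M) : L + (q - 1) * (L + 1 + X) ≤ (q - 1) * M := by
  obtain ⟨j, rfl⟩ : ∃ j, q = j + 4 := ⟨q - 4, by omega⟩
  rw [show j + 4 - 1 = j + 3 by omega]
  subst hX
  nlinarith [Nat.mul_le_mul_left (j + 4) hL, Nat.mul_le_mul_left (j + 3) h2, Nat.zero_le (j * Z),
    Nat.zero_le (j * j * Z), Nat.zero_le (j * j * j * Z), Nat.zero_le (j * j * j * j * Z),
    Nat.zero_le (j * j * j * j * j * Z)]

/-- A class of nonsingular vectors exceeds the singular ones. -/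
theorem num_cls {q L Z C P E : ℕ} (hq : 4 ≤ q) (hZ : 0 < Z)
    (hL : L + 1 + q * Z ≤ (q ^ 3 + q ^ 2) * Z) (h : (q - 1) * (q * (q ^ 2 - 1) * Z) ≤ 2 * C)
    (hC : C ≤ P) (hk : E + P < L + 1) : False := by
  obtain ⟨j, rfl⟩ : ∃ j, q = j + 4 := ⟨q - 4, by omega⟩
  rw [show j + 4 - 1 = j + 3 by omega, show (j + 4) ^ 2 - 1 = j * j + 8 * j + 15 by
    rw [show (j + 4) ^ 2 = j * j + 8 * j + 16 by ring]; omega] at h
  nlinarith [Nat.zero_le (j * Z), Nat.zero_le (j * j * Z), Nat.zero_le (j * j * j * Z),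
    Nat.zero_le (j * j * j * j * Z)]

/-- Few bad vectors are impossible. -/
theorem num_pairs {q L X Z S B : ℕ} (hq : 4 ≤ q) (hZ : 0 < Z) (hLq : q ≤ L + 1)
    (hL : L + 1 + q * Z ≤ (q ^ 3 + q ^ 2) * Z) (hX : X = q ^ 4 * Z)
    (hS : (q - 1) * (L + X) ≤ S) (hB : B ≤ L + (q - 1))
    (h : S * L ≤ B * (L + (q - 1) * (L + 1))) : False := by
  obtain ⟨j, rfl⟩ : ∃ j, q = j + 4 := ⟨q - 4, by omega⟩
  rw [show j + 4 - 1 = j + 3 by omega] at hS hB h
  have h5 : (j + 3) * (L + X) * L ≤ (L + L) * (L + (j + 3) * (L + 1)) :=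
    le_trans (Nat.mul_le_mul_right _ hS) (le_trans h (Nat.mul_le_mul_right _ (by omega)))
  have h6 : (j + 3) * (L + X) ≤ 2 * (L + (j + 3) * (L + 1)) :=
    Nat.le_of_mul_le_mul_right (h5.trans (le_of_eq (by ring))) (by omega)
  subst hX
  nlinarith [Nat.mul_le_mul_left (j + 5) hL, Nat.zero_le (j * Z), Nat.zero_le (j * j * Z),
    Nat.zero_le (j * j * j * Z), Nat.zero_le (j * j * j * j * Z),
    Nat.zero_le (j * j * j * j * j * Z)]

variable {Ω : Type w} [MulAction (G Q) Ω]

/-- A regular orbit gives the bound. -/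
theorem regular_bound [Fintype Ω] [MulAction.IsPretransitive (G Q) Ω] (hG : Good Q)
    (hd : 7 ≤ Module.finrank F V) (h4 : 4 ≤ Fintype.card F) (HP : Fr Q e f) {ω0 : Ω}
    (hω0 : Free Q ω0 e) :
    (singP Q fun _ => True).card ≤ (Fintype.card F - 1) * Fintype.card Ω := by
  set q := Fintype.card F with hq
  set X := Fintype.card (WQ Q e f) with hXd
  set L := (Lset Q e f).card with hLd
  set M := Fintype.card Ω with hM
  obtain ⟨Z, hZ, hX, hL1, hLq, hLX, -, hcls⟩ := numbers hG HP hd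
  rw [← hq] at hX hL1 hLq hcls
  rw [← hXd] at hX hLX
  rw [← hLd] at hL1 hLq hLX
  have hN := card_sing (Q := Q) HP
  rw [← hLd, ← hXd, ← hq] at hN
  by_cases huniq : ∀ y, Free Q y e → y ∈ orbW HP ω0
  swap
  · -- two regular orbits
    push Not at huniq
    obtain ⟨y, hy, hyo⟩ := huniq
    have hdisj : Disjoint (orbW HP ω0) (orbW HP y) := by
      rw [Finset.disjoint_left]
      intro z hz hz'
      obtain ⟨a, ha⟩ := mem_orbW.1 hz
      obtain ⟨b, hb⟩ := mem_orbW.1 hz'
      refine hyo (mem_orbW.2 ⟨-b + a, ?_⟩)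
      rw [Submodule.coe_add, sg_add HP.ee (mem_WQ.1 (-b).2).ex (mem_WQ.1 a.2).ex, mul_smul, ha,
        Submodule.coe_neg, sg_neg HP.ee (mem_WQ.1 b.2).ex, inv_smul_eq_iff, hb]
    have h2 : X + X ≤ M := by
      have := Finset.card_le_univ (orbW HP ω0 ∪ orbW HP y)
      rwa [Finset.card_union_of_disjoint hdisj, card_orbW_free HP hω0, card_orbW_free HP hy] at this
    rw [hN]
    exact num_two h4 hL1 hX h2
  have hfreeE : (freeF Q Ω e).card = X := by
    rw [hXd, ← card_orbW_free HP hω0]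
    congr 1
    ext y
    exact ⟨fun h => huniq y (mem_freeF.1 h), fun h => mem_freeF.2 (free_orb HP hω0 h)⟩
  have hfree : ∀ {x y : V}, Fr Q x y → (freeF Q Ω x).card = X := fun H => by
    rw [← card_freeF_eq hG HP.ee HP.e_ne H.ee H.e_ne, hfreeE]
  have huniq' : ∀ {x y : V} (H : Fr Q x y) {ω : Ω}, Free Q ω x →
      ∀ z, Free Q z x → z ∈ orbW H ω := by
    intro x y H ω hω z hz
    have heq : orbW H ω = freeF Q Ω x := Finset.eq_of_subset_of_card_le
      (fun z hz => mem_freeF.2 (free_orb H hω hz))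
      (by rw [hfree H, card_orbW_free H hω, card_WQ_eq hG HP H])
    rw [heq]; exact mem_freeF.2 hz
  obtain ⟨v0, hv0⟩ := exists_fixed hG HP h4 hω0 huniq
  set ω := sg Q e (v0 : V) • ω0
  have hω : Free Q ω e := free_orb HP hω0 (mem_orbW.2 ⟨v0, rfl⟩)
  set S := (singP Q fun x => Free Q ω x).card with hS
  -- double counting
  have hMS : M * S = (singP Q fun _ => True).card * X := by
    have h1 : ∀ z : Ω, ((singP Q fun _ => True).filter fun x => Free Q z x).card = S := by
      intro z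
      obtain ⟨g, rfl⟩ := MulAction.exists_smul_eq (G Q) ω z
      rw [hS]
      refine Finset.card_bij' (fun x _ => (g⁻¹).1.1 x) (fun x _ => g.1.1 x) ?_ ?_
        (fun x _ => G_inv' g x) (fun x _ => G_inv g x)
      · intro x hx
        obtain ⟨hx1, hx2⟩ := Finset.mem_filter.1 hx
        obtain ⟨hx0, hQx, -⟩ := mem_singP.1 hx1
        refine mem_singP.2 ⟨?_, by rw [G_Q, hQx], ?_⟩
        · exact fun h => hx0 (by rw [← G_inv' g x, h, map_zero])
        · have := free_smul hQx g⁻¹ hx2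
          rwa [inv_smul_smul] at this
      · intro x hx
        obtain ⟨hx0, hQx, hx2⟩ := mem_singP.1 hx
        exact Finset.mem_filter.2 ⟨mem_singP.2
          ⟨fun h => hx0 (g.1.1.map_eq_zero_iff.1 h), by rw [G_Q, hQx], trivial⟩,
          free_smul hQx g hx2⟩
    have h2 : ∀ x ∈ singP Q (fun _ => True),
        (Finset.univ.filter fun z : Ω => Free Q z x).card = X := by
      intro x hx
      obtain ⟨hx0, hQx, -⟩ := mem_singP.1 hx
      obtain ⟨y, hy, hxy⟩ := hG.exists_partner hx0 hQx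
      exact hfree ⟨hQx, hy, hxy⟩
    calc M * S = ∑ z : Ω, ((singP Q fun _ => True).filter fun x => Free Q z x).card := by
          simp only [h1, Finset.sum_const, Finset.card_univ, smul_eq_mul, hM]
      _ = ∑ x ∈ singP Q (fun _ => True), (Finset.univ.filter fun z : Ω => Free Q z x).card := by
          simp only [Finset.card_filter]; exact Finset.sum_comm
      _ = _ := by rw [Finset.sum_congr rfl h2, Finset.sum_const, smul_eq_mul]
  -- the bad vectors
  obtain ⟨P, hPd⟩ : ∃ P : V → Prop, ∀ x, P x ↔ ¬(Q x = 0 ∧ Free Q ω x) :=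
    ⟨fun x => ¬(Q x = 0 ∧ Free Q ω x), fun _ => Iff.rfl⟩
  have hPinv : ∀ (c : F) (x : V), c ≠ 0 → (P (c • x) ↔ P x) := by
    intro c x hc
    simp only [hPd, QuadraticMap.map_smul, smul_eq_mul, mul_eq_zero, hc, or_self, false_or]
    exact not_congr (and_congr_right fun hx => free_scalar ω hx hc)
  set bd := (singP Q P).card with hbd
  have hsum : S + bd = (singP Q fun _ => True).card := by
    rw [hS, hbd, ← Finset.card_filter_add_card_filter_not (s := singP Q fun _ => True)
      (fun x => Free Q ω x)]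
    congr 2 <;> ext x <;> simp [singP, hPd] <;> tauto
  have hfix : ∀ (g : G Q) (c : F), IsLv Q e f g c → g • ω = ω := hv0
  have hformula := card_singP HP P hPinv
  rw [← hbd, Finset.filter_true_of_mem (s := Lset Q e f) (p := fun u : WQ Q e f => P (u : V))
    (fun (u : WQ Q e f) hu => (hPd _).2 fun h => fixed_singular hG HP hd hfix hu h.2),
    ← hLd, ← hq] at hformula
  set Ec := ((lev Q e f 0).filter fun r : WQ Q e f => P (e + (r : V)))
  set P1 := (Finset.univ.filter fun w : WQ Q e f => P (pt Q e f (w : V)))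
  have hiff : ∀ {g : G Q}, g • ω = ω → ∀ {x : V}, Q x = 0 → (P (g.1.1 x) ↔ P x) := by
    intro g hg x hx
    simp only [hPd, G_Q, hx, true_and]
    have := free_smul_iff (ω := ω) hx g
    rw [hg] at this
    exact not_congr this
  have hQpt : ∀ w : WQ Q e f, Q (pt Q e f (w : V)) = 0 := fun w => by
    rw [pt, ← sg_e_f HP (mem_WQ.1 w.2), G_Q, HP.ff]
  have hQe : ∀ r : WQ Q e f, Q (r : V) = 0 → Q (e + (r : V)) = 0 := fun r hr => by
    rw [QuadraticMap.map_add ⇑Q, HP.ee, hr, (mem_WQ.1 r.2).ex]; simp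
  -- the invariance of the two sets
  have hEsub : Ec ⊆ Lset Q e f := by
    intro r hr
    obtain ⟨hr0, hrP⟩ := Finset.mem_filter.1 hr
    refine mem_Lset.2 ⟨fun h => (hPd _).1 hrP ?_, (Finset.mem_filter.1 hr0).2⟩
    rw [h, Submodule.coe_zero, add_zero]
    exact ⟨HP.ee, hω⟩
  have hEall : ∀ r ∈ Ec, Lset Q e f ⊆ Ec := by
    intro r hr r' hr'
    obtain ⟨hr0', hQr'⟩ := mem_Lset.1 hr'
    obtain ⟨hr0, hQr⟩ := mem_Lset.1 (hEsub hr)
    obtain ⟨g, c, hg, hgr⟩ := exists_psi_map hG HP hd hr0 hr0' (t := 1) one_ne_zero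
      (by rw [hQr, hQr', mul_zero])
    refine Finset.mem_filter.2 ⟨Finset.mem_filter.2 ⟨Finset.mem_univ _, hQr'⟩, ?_⟩
    have h := (hiff (hfix g c hg) (hQe r hQr)).2 (Finset.mem_filter.1 hr).2
    rwa [map_add, hg.2.1, show g.1.1 (r : V) = c • (r' : V) by
      rw [← hgr, psiW_val, smul_inv_smul₀ hg.1], ← smul_add, hPinv c _ hg.1] at h
  have hP1cl : ∀ w ∈ P1, ∀ w' : WQ Q e f, w ≠ 0 → w' ≠ 0 → ∀ t : F, t ≠ 0 →
      Q (w' : V) = t ^ 2 * Q (w : V) → w' ∈ P1 := by
    intro w hw w' hw0 hw0' t ht hQ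
    obtain ⟨g, c, hg, hgw⟩ := exists_psi_map hG HP.symm hd
      (x := ⟨(w : V), (mem_WQ.1 w.2).symm⟩) (y := ⟨(w' : V), (mem_WQ.1 w'.2).symm⟩)
      (fun h => hw0 (Subtype.ext (congrArg (fun z : WQ Q f e => (z : V)) h)))
      (fun h => hw0' (Subtype.ext (congrArg (fun z : WQ Q f e => (z : V)) h))) ht hQ
    have hg' : IsLv Q e f g c⁻¹ := ⟨inv_ne_zero hg.1, hg.2.2, by rw [inv_inv]; exact hg.2.1⟩
    have hgw' : g.1.1 (w : V) = c • (w' : V) := by
      have := congrArg (fun z : WQ Q f e => (z : V)) hgw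
      rw [psiW_val, inv_smul_eq_iff₀ hg.1] at this
      exact this
    refine Finset.mem_filter.2 ⟨Finset.mem_univ _, ?_⟩
    have h := (hiff (hfix g _ hg') (hQpt w)).2 (Finset.mem_filter.1 hw).2
    rw [show g.1.1 (pt Q e f (w : V)) = c • pt Q e f (w' : V) by
      have hQw : Q (w : V) = c ^ 2 * Q (w' : V) := by
        rw [← G_Q g (w : V), hgw', QuadraticMap.map_smul, smul_eq_mul, pow_two]
      simp only [pt, map_sub, map_add, _root_.map_smul, hgw', hg'.2.1, hg'.2.2, inv_inv, hQw,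
        smul_sub, smul_add, smul_smul]
      match_scalars <;> field_simp [hg.1], hPinv c _ hg.1] at h
    exact h
  by_cases hbig : L + 1 ≤ Ec.card + P1.card
  · -- many bad vectors
    have hS' : S ≤ (q - 1) * X := by
      have h1 := Nat.mul_le_mul_left (q - 1) hbig
      rw [hN] at hsum
      simp only [Nat.mul_add] at hsum h1 hformula
      omega
    refine Nat.le_of_mul_le_mul_right ?_ (show 0 < X by rw [hX]; positivity)
    rw [← hMS, mul_comm (q - 1), mul_assoc]
    exact Nat.mul_le_mul_left _ hS'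
  exfalso
  push Not at hbig
  have hns : ∀ w ∈ P1, Q ((w : WQ Q e f) : V) = 0 := by
    intro w hw
    by_contra hw0
    have hsub : cls Q e f (Q (w : V)) ⊆ P1 := by
      intro w' hw'
      obtain ⟨t, ht, htu⟩ := Finset.mem_image.1 (Finset.mem_filter.1 hw').2
      have ht0 := (Finset.mem_erase.1 ht).1
      refine hP1cl w hw w' (fun h => hw0 (by rw [h, Submodule.coe_zero, map_zero])) (fun h => ?_) t
        ht0 htu.symm
      rw [h, Submodule.coe_zero, map_zero] at htu
      exact mul_ne_zero (pow_ne_zero _ ht0) hw0 htu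
    exact num_cls h4 hZ hL1 (hcls _ hw0) (Finset.card_le_card hsub) hbig
  have hEcard : Ec.card = 0 ∨ Ec.card = L := by
    rcases Ec.eq_empty_or_nonempty with h | ⟨r, hr⟩
    · left; rw [h, Finset.card_empty]
    · right; exact le_antisymm (Finset.card_le_card hEsub) (Finset.card_le_card (hEall r hr))
  have hP1card : P1.card ≤ 1 ∨ L ≤ P1.card := by
    by_cases h : ∃ w ∈ P1, w ≠ 0
    · obtain ⟨w, hw, hw0⟩ := h
      refine Or.inr (Finset.card_le_card fun w' hw' => ?_)
      obtain ⟨hw0', hQ'⟩ := mem_Lset.1 hw'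
      exact hP1cl w hw w' hw0 hw0' 1 one_ne_zero (by rw [hns w hw, hQ', mul_zero])
    · push Not at h
      exact Or.inl (le_trans (Finset.card_le_card (t := {0}) fun w hw =>
        Finset.mem_singleton.2 (h w hw)) (by simp))
  have hcase : Ec.card + P1.card = L ∨ Ec.card + P1.card ≤ 1 := by omega
  rcases hcase with hk | hk
  · -- divisibility
    have hSv : S = (q - 1) * (X + 1) := by
      rw [hk] at hformula
      rw [hN] at hsum
      simp only [Nat.mul_add] at hsum hformula ⊢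
      omega
    obtain ⟨k, hk0, hXq⟩ : ∃ k, k ≠ 0 ∧ X = q ^ k := by
      refine ⟨Module.finrank F (WQ Q e f), ?_, Module.card_eq_pow_finrank⟩
      have := finrank_WQ hG HP
      omega
    have hcop1 : Nat.Coprime (X + 1) X :=
      Nat.coprime_self_add_left.2 (Nat.coprime_one_left X)
    have hcopq : Nat.Coprime (q - 1) q := by
      have : Nat.Coprime (q - 1) (q - 1 + 1) := Nat.coprime_self_add_right.2 (Nat.coprime_one_right _)
      rwa [show q - 1 + 1 = q by omega] at this
    have hcopX : Nat.Coprime S X := by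
      rw [hSv, hXq]
      exact Nat.Coprime.mul_left (hcopq.pow_right k) (hXq ▸ hcop1)
    have h1 : S ∣ (singP Q fun _ => True).card :=
      hcopX.dvd_of_dvd_mul_right ⟨M, by rw [← hMS]; ring⟩
    have h2 : (singP Q fun _ => True).card = S + L * q := by
      rw [hN, hSv]
      obtain ⟨j, hj⟩ : ∃ j, q = j + 1 := ⟨q - 1, by omega⟩
      rw [hj, Nat.add_sub_cancel]
      ring
    rw [h2, Nat.dvd_add_self_left] at h1
    have hcopSq : Nat.Coprime S q := Nat.Coprime.coprime_dvd_right (hXq ▸ dvd_pow_self q hk0) hcopX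
    have h3 := Nat.le_of_dvd (by omega) (hcopSq.dvd_of_dvd_mul_right h1)
    have h4' : 1 * (X + 1) ≤ (q - 1) * (X + 1) := Nat.mul_le_mul_right _ (by omega)
    omega
  · -- double counting of orthogonal pairs
    have hbd' : bd ≤ L + (q - 1) := by
      rw [hformula]
      exact Nat.add_le_add_left (by simpa using Nat.mul_le_mul_left (q - 1) hk) _
    have hlow : ∀ x ∈ singP Q (fun x => Free Q ω x),
        L ≤ ((singP Q P).filter fun z => polar Q z x = 0).card := by
      intro x hx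
      obtain ⟨hx0, hQx, hxF⟩ := mem_singP.1 hx
      obtain ⟨y, hy, hxy⟩ := hG.exists_partner hx0 hQx
      have H : Fr Q x y := ⟨hQx, hy, hxy⟩
      obtain ⟨v, hv⟩ := exists_fixed hG H h4 hxF (huniq' H hxF)
      set g := sg Q x (v : V)
      rw [hLd, ← Lset_card hG HP H]
      refine Finset.card_le_card_of_injOn (fun u : WQ Q x y => (g⁻¹).1.1 (u : V)) (fun u hu => ?_)
        (fun u _ u' _ h => Subtype.ext ((g⁻¹).1.1.injective h))
      obtain ⟨hu0, hQu⟩ := mem_Lset.1 hu
      refine Finset.mem_filter.2 ⟨mem_singP.2 ⟨fun h => hu0 ?_,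
        by rw [G_Q, hQu], (hPd _).2 fun hfree => fixed_singular hG H hd hv hu ?_⟩, ?_⟩
      · refine Subtype.ext ?_
        rw [← G_inv' g (u : V)]
        show g.1.1 _ = 0
        rw [show (g⁻¹).1.1 (u : V) = 0 from h, map_zero]
      · have := free_smul (by rw [G_Q, hQu]) g hfree.2
        rwa [G_inv'] at this
      · rw [← G_B g, G_inv', show g.1.1 x = x from sg_fix_self hQx (mem_WQ.1 v.2).ex]
        exact (mem_WQ.1 u.2).xe
    have hup : ∀ z ∈ singP Q P,
        ((singP Q fun x => Free Q ω x).filter fun x => polar Q z x = 0).card ≤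
          L + (q - 1) * (L + 1) := by
      intro z hz
      obtain ⟨hz0, hQz, -⟩ := mem_singP.1 hz
      obtain ⟨y, hy, hzy⟩ := hG.exists_partner hz0 hQz
      have H : Fr Q z y := ⟨hQz, hy, hzy⟩
      rw [hLd, ← Lset_card hG HP H, ← card_sing_perp H]
      refine Finset.card_le_card fun x hx => ?_
      obtain ⟨hx1, hx2⟩ := Finset.mem_filter.1 hx
      obtain ⟨hx0, hQx, -⟩ := mem_singP.1 hx1
      exact mem_singP.2 ⟨hx0, hQx, by rw [polar_comm]; exact hx2⟩
    have hdc : S * L ≤ bd * (L + (q - 1) * (L + 1)) := by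
      have h1 := Finset.card_nsmul_le_sum _ _ _ hlow
      have h2 := Finset.sum_le_card_nsmul _ _ _ hup
      simp only [Finset.card_filter] at h1 h2
      rw [Finset.sum_comm] at h1
      exact h1.trans h2
    have hSlow : (q - 1) * (L + X) ≤ S := by
      rw [hN] at hsum
      simp only [Nat.mul_add] at hsum ⊢
      omega
    exact num_pairs h4 hZ hLq hL1 hX hSlow hbd' hdc

end Cfsg.Agent.Lib.MinIndexO
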