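import Cfsg.Agent.Lib.MinIndexO.Orbits
import Cfsg.Agent.Lib.Classical.QuadOmega.Singular
import Cfsg.Agent.Lib.Classical.QuadOmega.General

/-!
If every annihilator is totally singular or on a nonsingular line, the action is trivial.
-/

set_option autoImplicit false

namespace Cfsg.Agent.Lib.MinIndexO

open QuadraticMap hiding proj
open Cfsg.Agent.Lib.Classical.Quad Cfsg.Agent.Lib.Classical.QuadOmega
open Cfsg.Agent.Lib.AutOmegaOdd (G G_ext G_mul G_one G_inv G_inv' G_Q G_B sg sg_apply sg_add sg_zero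
  sg_self sg_neg sg_smul sg_conj sg_fix sg_fix_self sg_swap Fr InW proj proj_mem decomp B_proj
  sg_e_fix sg_e_f sg_e_inj)
open Cfsg.Agent.Lib.AutOmega (W_pair W_partner W_nondeg W_induction)
open Cfsg.Agent.Lib.MinIndexSU (psi psi_one psi_sub)

universe u v w

attribute [local instance] _root_.Classical.propDecidable

variable {F : Type u} [Field F] [Fintype F] {V : Type v} [AddCommGroup V] [Module F V] [Fintype V]
  {Q : QuadraticForm F V} {e f : V}

/-- A pair orthogonal to a nonsingular vector of the orthogonal space. -/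
theorem exists_pair_perp (hG : Good Q) (HP : Fr Q e f) (hd : 7 ≤ Module.finrank F V) {v : V}
    (hv : InW Q e f v) (hv0 : Q v ≠ 0) :
    ∃ a b, InW Q e f a ∧ InW Q e f b ∧ Fr Q a b ∧ polar Q a v = 0 ∧ polar Q b v = 0 := by
  obtain ⟨a, b, c, d, ha, hb, hc, hd', hab, hcd, hac, had, hbc, hbd⟩ := (good_QW hG HP hd).two
  simp only [polar_QW, QW_apply] at ha hb hc hd' hab hcd hac had hbc hbd
  set x : WQ Q e f := Q v • a + b
  have hx : Q (x : V) = Q v := by
    simp only [x, Submodule.coe_add, Submodule.coe_smul]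
    exact pair_nonsing ha hb hab _
  have hx0 : x ≠ 0 := fun h => hv0 (by rw [← hx, h, Submodule.coe_zero, map_zero])
  obtain ⟨g, hge, hgf, hgx⟩ := trans_level hG HP hd (y := ⟨v, hv⟩) hx0
    (fun h => hv0 (by rw [show v = 0 from congrArg Subtype.val h, map_zero])) hx
  have hxc : polar Q (x : V) (c : V) = 0 := by
    simp only [x, Submodule.coe_add, Submodule.coe_smul, polar_add_left, polar_smul_left, hac, hbc,
      smul_zero, add_zero]
  have hxd : polar Q (x : V) (d : V) = 0 := by
    simp only [x, Submodule.coe_add, Submodule.coe_smul, polar_add_left, polar_smul_left, had, hbd,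
      smul_zero, add_zero]
  have hmem : ∀ y : WQ Q e f, InW Q e f (g.1.1 (y : V)) := fun y => by
    have hg : IsLv Q e f g 1 := ⟨one_ne_zero, by rw [hge, one_smul], by rw [hgf, inv_one, one_smul]⟩
    exact hg.mem (mem_WQ.1 y.2)
  refine ⟨g.1.1 (c : V), g.1.1 (d : V), hmem c, hmem d,
    ⟨by rw [G_Q, hc], by rw [G_Q, hd'], by rw [G_B, hcd]⟩, ?_, ?_⟩
  · rw [show v = g.1.1 (x : V) from hgx.symm, G_B, polar_comm, hxc]
  · rw [show v = g.1.1 (x : V) from hgx.symm, G_B, polar_comm, hxd]

/-- A subspace of the orthogonal space is its double orthogonal. -/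
theorem perp_perp (hG : Good Q) (HP : Fr Q e f) {S : Submodule F V} (hS : S ≤ WQ Q e f) {x : V}
    (hx : InW Q e f x)
    (h : ∀ a, InW Q e f a → (∀ s ∈ S, polar Q a s = 0) → polar Q a x = 0) : x ∈ S := by
  set S' := S ⊔ Submodule.span F ({e, f} : Set V) with hS'
  have hle : S' ≤ perpS Q (perpS Q S') := fun s hs => mem_perpS.2 fun a ha => by
    rw [polar_comm]; exact mem_perpS.1 ha s hs
  have h1 := finrank_perpS hG.nd S'
  have h2 := finrank_perpS hG.nd (perpS Q S')
  have heq : S' = perpS Q (perpS Q S') := Submodule.eq_of_le_of_finrank_le hle (by omega)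
  have hxS : x ∈ S' := by
    rw [heq, mem_perpS]
    intro a ha
    rw [polar_comm]
    refine h a ⟨mem_perpS.1 ha e ?_, mem_perpS.1 ha f ?_⟩
      fun s hs => mem_perpS.1 ha s (Submodule.mem_sup_left hs)
    · exact Submodule.mem_sup_right (Submodule.subset_span (Set.mem_insert _ _))
    · exact Submodule.mem_sup_right (Submodule.subset_span (Set.mem_insert_of_mem _ rfl))
  obtain ⟨s, hs, r, hr, rfl⟩ := Submodule.mem_sup.1 hxS
  obtain ⟨α, β, rfl⟩ := Submodule.mem_span_pair.1 hr
  have hsW := mem_WQ.1 (hS hs)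
  have hα : α = 0 := by
    simpa [polar_add_left, polar_smul_left, hsW.xf, HP.ef, polar_self_sing HP.ff] using hx.xf
  have hβ : β = 0 := by
    simpa [polar_add_left, polar_smul_left, hsW.xe, HP.fe, polar_self_sing HP.ee] using hx.xe
  simpa [hα, hβ] using hs

/-- A nonsingular vector orthogonal to a totally singular subspace and a further vector. -/
theorem exists_ns_perp (hG : Good Q) (HP : Fr Q e f)
    {T : Submodule F V} (hT2 : 2 * Module.finrank F T + 2 < Module.finrank F V) (hT : T ≤ WQ Q e f) (hTs : TSing Q T) {b t : V} (hb : InW Q e f b)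
    (ht : t ∈ T) (htb : polar Q t b ≠ 0) :
    ∃ a, InW Q e f a ∧ (∀ s ∈ T, polar Q a s = 0) ∧ polar Q a b = 0 ∧ Q a ≠ 0 := by
  by_contra! h
  set S' := T ⊔ Submodule.span F ({e, f} : Set V)
  have hmem : ∀ a, a ∈ perpS Q S' → InW Q e f a ∧ ∀ s ∈ T, polar Q a s = 0 := fun a ha =>
    ⟨⟨mem_perpS.1 ha e (Submodule.mem_sup_right (Submodule.subset_span (Set.mem_insert _ _))),
      mem_perpS.1 ha f (Submodule.mem_sup_right (Submodule.subset_span (Set.mem_insert_of_mem _ rfl)))⟩,
      fun s hs => mem_perpS.1 ha s (Submodule.mem_sup_left hs)⟩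
  have hsing : TSing Q (perpS Q S') := by
    intro a ha
    obtain ⟨haW, haT⟩ := hmem a ha
    set l := polar Q a b / polar Q t b
    have h0 : Q (a - l • t) = 0 := h _ (haW.sub ((mem_WQ.1 (hT ht)).smul _))
      (fun s hs => by rw [polar_sub_left, polar_smul_left, haT s hs, hTs.polar_eq ht hs]; simp)
      (by rw [polar_sub_left, polar_smul_left, smul_eq_mul, div_mul_cancel₀ _ htb, sub_self])
    rwa [sub_eq_add_neg, ← neg_smul, QuadraticMap.map_add ⇑Q, QuadraticMap.map_smul,
      polar_smul_right, haT t ht, hTs t ht, smul_zero, smul_zero, add_zero, add_zero] at h0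
  have hle : perpS Q S' ≤ WQ Q e f := fun a ha => (hmem a ha).1
  have hTle : T ≤ perpS Q S' := fun s hs => mem_perpS.2 fun z hz => by
    obtain ⟨s', hs', r, hr, rfl⟩ := Submodule.mem_sup.1 hz
    obtain ⟨α, β, rfl⟩ := Submodule.mem_span_pair.1 hr
    simp [polar_add_right, polar_smul_right, hTs.polar_eq hs hs', (mem_WQ.1 (hT hs)).xe,
      (mem_WQ.1 (hT hs)).xf]
  have h1 := finrank_perpS hG.nd S'
  have h2 : 2 * Module.finrank F (perpS Q S') + 2 ≤ Module.finrank F V := by
    set S'' := perpS Q S' ⊔ Submodule.span F {e}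
    have he : e ∉ perpS Q S' := fun h0 => one_ne_zero (HP.ef.symm.trans (hle h0).xf)
    have hlt : perpS Q S' < S'' := lt_of_le_of_ne le_sup_left fun h0 => he (h0 ▸
      Submodule.mem_sup_right (Submodule.mem_span_singleton_self e))
    have k1 := Submodule.finrank_lt_finrank_of_lt hlt
    have k3 := Nd.two_mul_finrank_le hG.nd S'' fun x hx y hy => by
      obtain ⟨a', ha', r, hr, rfl⟩ := Submodule.mem_sup.1 hx
      obtain ⟨c', hc', r', hr', rfl⟩ := Submodule.mem_sup.1 hy
      obtain ⟨β, rfl⟩ := Submodule.mem_span_singleton.1 hr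
      obtain ⟨δ, rfl⟩ := Submodule.mem_span_singleton.1 hr'
      simp [polar_add_left, polar_add_right, polar_smul_left, polar_smul_right,
        hsing.polar_eq ha' hc', (hle ha').xe, (hle hc').ex, polar_self_sing HP.ee]
    omega
  have h3 := Submodule.finrank_mono hTle
  have h4 : Module.finrank F S' ≤ Module.finrank F T + 2 := by
    refine (Submodule.finrank_add_le_finrank_add_finrank _ _).trans (Nat.add_le_add_left ?_ _)
    refine le_trans (finrank_span_le_card _) ?_
    simp only [Set.toFinset_insert, Set.toFinset_singleton]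
    exact Finset.card_le_two
  omega

/-! ### The intrinsic spans -/

variable {Ω : Type w} [MulAction (G Q) Ω]

variable (Q) in
/-- The annihilator at a point, on the whole space. -/
def Atil (ω : Ω) (x : V) : Set V :=
  {v | polar Q x v = 0 ∧ ∀ u, polar Q x u = 0 → sg Q x u • ω = ω → psi F (polar Q v u) = 1}

variable (Q) in
/-- Its span. -/
noncomputable def Lsp (ω : Ω) (x : V) : Submodule F V := Submodule.span F (Atil Q ω x)

/-- The span of the annihilator. -/
noncomputable def Tsp (HP : Fr Q e f) (ω : Ω) : Submodule F V :=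
  Submodule.span F ((fun v : WQ Q e f => (v : V)) '' (AnnW HP ω : Set (WQ Q e f)))

/-- The type of a small annihilator. -/
def SmallT (HP : Fr Q e f) (ω : Ω) : Prop :=
  (TSing Q (Tsp HP ω) ∧ 2 * Module.finrank F (Tsp HP ω) + 2 < Module.finrank F V) ∨
    ∃ v, InW Q e f v ∧ Q v ≠ 0 ∧ Tsp HP ω = Submodule.span F {v}

omit [Fintype F] [Fintype V] [MulAction (G Q) Ω] in
theorem sg_proj (HP : Fr Q e f) {u : V} (hu : polar Q e u = 0) :
    sg Q e u = sg Q e (proj Q e f u) := by
  have hu' : polar Q u e = 0 := by rw [polar_comm, hu]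
  conv_lhs => rw [decomp (Q := Q) e f u, hu', zero_smul, add_zero]
  rw [sg_add HP.ee (by rw [polar_smul_right, polar_self_sing HP.ee, smul_zero]) (proj_mem HP u).ex,
    sg_self HP.ee, one_mul]

theorem Tsp_le (HP : Fr Q e f) (ω : Ω) : Tsp HP ω ≤ WQ Q e f :=
  Submodule.span_le.2 fun _ ⟨v, _, hv⟩ => hv ▸ v.2

theorem Tsp_le_Lsp (HP : Fr Q e f) (ω : Ω) : Tsp HP ω ≤ Lsp Q ω e := by
  refine Submodule.span_mono ?_
  rintro _ ⟨v, hv, rfl⟩
  refine ⟨(mem_WQ.1 v.2).ex, fun u hu hfix => ?_⟩
  rw [sg_proj HP hu] at hfix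
  have h := mem_AnnW.1 hv ⟨_, proj_mem HP u⟩ hfix
  rwa [kapW_apply, B_proj (mem_WQ.1 v.2)] at h

theorem Lsp_perp (ω : Ω) {x v : V} (hv : v ∈ Lsp Q ω x) : polar Q x v = 0 := by
  induction hv using Submodule.span_induction with
  | mem z hz => exact hz.1
  | zero => exact polar_zero_right Q x
  | add a b _ _ ha hb => rw [polar_add_right, ha, hb, add_zero]
  | smul c a _ ha => rw [polar_smul_right, ha, smul_zero]

theorem self_mem_Lsp (ω : Ω) {x : V} (hx : Q x = 0) : x ∈ Lsp Q ω x :=
  Submodule.subset_span ⟨polar_self_sing hx, fun u hu _ => by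
    rw [hu, AddChar.map_zero_eq_one]⟩

theorem mem_Tsp_of_Lsp (HP : Fr Q e f) (ω : Ω) {x : V} (hx : InW Q e f x)
    (h : x ∈ Lsp Q ω e) : x ∈ Tsp HP ω := by
  have key : ∀ z ∈ Lsp Q ω e, proj Q e f z ∈ Tsp HP ω := by
    intro z hz
    induction hz using Submodule.span_induction with
    | mem z hz =>
      refine Submodule.subset_span ⟨⟨_, proj_mem HP z⟩, ?_, rfl⟩
      refine mem_AnnW.2 fun k hk => ?_
      rw [kapW_apply]
      show psi F (polar Q (proj Q e f z) k) = 1
      rw [polar_comm, B_proj (mem_WQ.1 k.2), polar_comm]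
      exact hz.2 _ (mem_WQ.1 k.2).ex hk
    | zero => simp [proj]
    | add a b _ _ ha hb =>
      have h : proj Q e f (a + b) = proj Q e f a + proj Q e f b := by
        simp only [proj, polar_add_left]; module
      rw [h]; exact add_mem ha hb
    | smul c a _ ha =>
      have h : proj Q e f (c • a) = c • proj Q e f a := by
        simp only [proj, polar_smul_left, smul_eq_mul]; module
      rw [h]; exact Submodule.smul_mem _ c ha
  have h1 := key x h
  rwa [show proj Q e f x = x by simp [proj, hx.xe, hx.xf]] at h1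

theorem Lsp_smul_le (ω : Ω) {x : V} (hx : Q x = 0) {c : F} (hc : c ≠ 0) :
    Lsp Q ω (c • x) ≤ Lsp Q ω x := by
  refine Submodule.span_le.2 fun v hv => ?_
  obtain ⟨h1, h2⟩ := hv
  rw [polar_smul_left, smul_eq_mul, mul_eq_zero, or_iff_right hc] at h1
  have h3 : c⁻¹ • v ∈ Lsp Q ω x := by
    refine Submodule.subset_span ⟨by rw [polar_smul_right, h1, smul_zero], fun u hu hfix => ?_⟩
    have hu' : polar Q (c • x) (c⁻¹ • u) = 0 := by
      rw [polar_smul_left, polar_smul_right, hu, smul_zero, smul_zero]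
    have h4 := h2 _ hu' (by
      rw [sg_smul hx (by rw [polar_smul_right, hu, smul_zero]), smul_smul, mul_inv_cancel₀ hc,
        one_smul]
      exact hfix)
    rwa [polar_smul_left, ← polar_smul_right]
  have := Submodule.smul_mem _ c h3
  rwa [smul_smul, mul_inv_cancel₀ hc, one_smul] at this

/-! ### Opposite points -/

/-- A radical element of the opposite point moves the stabiliser into itself. -/
theorem step (HP : Fr Q e f) {ω : Ω} {a b : V} (ha : InW Q e f a) (hb : InW Q e f b)
    (hQb : Q b = 0) (hab : polar Q a b = 0) (hfa : sg Q e a • ω = ω) (hfb : sg Q f b • ω = ω)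
    {k : V} (hk : InW Q e f k) (hfk : sg Q e k • ω = ω) :
    sg Q e ((sg Q b (-a)).1.1 k) • ω = ω := by
  have hba : polar Q b a = 0 := by rw [polar_comm, hab]
  set ga := sg Q e a with hga
  set gb := sg Q f b with hgb
  have hh : (ga * gb * ga⁻¹ * gb⁻¹) • ω = ω := by
    have h1 : ga⁻¹ • ω = ω := inv_smul_eq_iff.2 hfa.symm
    have h2 : gb⁻¹ • ω = ω := inv_smul_eq_iff.2 hfb.symm
    rw [mul_smul, mul_smul, mul_smul, h2, h1, hfb, hfa]
  have hgab : ga.1.1 b = b := by
    rw [hga, sg_fix HP.ee ha.ex hb.xe (by rw [polar_comm, hab])]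
  have e1 : ga * gb * ga⁻¹ = sg Q (f + a - Q a • e) b := by
    rw [hgb, sg_conj HP.ff hb.fx, hgab, hga, sg_e_f HP ha]
  set f1 := f + a - Q a • e with hf1
  have hf1Q : Q f1 = 0 := by rw [hf1, ← sg_e_f HP ha, G_Q, HP.ff]
  have hf1b : polar Q f1 b = 0 := by
    rw [hf1, polar_sub_left, polar_add_left, polar_smul_left, hb.fx, hab, hb.ex]; simp
  have hbe : polar Q b e = 0 := hb.xe
  have hbf : polar Q b f = 0 := hb.xf
  have e2 : ga * gb * ga⁻¹ * gb⁻¹ = sg Q b (-a) * sg Q e (-(Q a) • b) := by
    rw [e1, hgb, sg_swap hf1Q hQb hf1b, sg_swap HP.ff hQb hb.fx, ← sg_neg hQb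
      (by rw [polar_neg_right, hbf, neg_zero]), ← sg_add hQb
      (by rw [polar_neg_right, polar_comm, hf1b, neg_zero])
      (by rw [neg_neg, hbf]),
      show -f1 + - -f = -a + Q a • e by rw [hf1]; abel,
      sg_add hQb (by rw [polar_neg_right, hba, neg_zero]) (by rw [polar_smul_right, hbe, smul_zero]),
      sg_swap hQb (s := Q a • e) (by rw [QuadraticMap.map_smul, HP.ee, smul_zero])
        (by rw [polar_smul_right, hbe, smul_zero]),
      sg_smul HP.ee (by rw [polar_neg_right, hb.ex, neg_zero]), smul_neg, ← neg_smul]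
  rw [e2] at hh
  set g := sg Q b (-a) with hg
  set u := -(Q a) • b
  have hu : InW Q e f u := hb.smul _
  have hna : polar Q b (-a) = 0 := by rw [polar_neg_right, hba, neg_zero]
  have hge : g.1.1 e = e := sg_fix hQb hna hb.ex (by rw [polar_neg_right, ha.ex, neg_zero])
  have e3 : g * sg Q e u * sg Q e k * (g * sg Q e u)⁻¹ = sg Q e (g.1.1 k) := by
    have hcomm : sg Q e u * sg Q e k = sg Q e k * sg Q e u := by
      rw [← sg_add HP.ee hu.ex hk.ex, ← sg_add HP.ee hk.ex hu.ex, add_comm]
    have hc := sg_conj HP.ee hk.ex g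
    rw [hge] at hc
    rw [mul_assoc g, hcomm, ← hc]
    group
  rw [← e3, mul_smul, mul_smul, inv_smul_eq_iff.2 hh.symm, hfk, hh]

/-- The translated annihilator. -/
theorem step_T (HP : Fr Q e f) {ω : Ω} {a b : V} (ha : InW Q e f a) (hb : InW Q e f b)
    (hQb : Q b = 0) (hab : polar Q a b = 0) (hfa : sg Q e a • ω = ω) (hfb : sg Q f b • ω = ω)
    {t : V} (ht : t ∈ Tsp HP ω) : (sg Q b (-a)).1.1 t ∈ Tsp HP ω := by
  have hba : polar Q b (-a) = 0 := by rw [polar_neg_right, polar_comm, hab, neg_zero]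
  induction ht using Submodule.span_induction with
  | mem z hz =>
    obtain ⟨v, hv, rfl⟩ := hz
    have hW : InW Q e f ((sg Q b (-a)).1.1 (v : V)) :=
      AutOmega.sg_stab_W hQb hba hb ha.neg (mem_WQ.1 v.2)
    refine Submodule.subset_span ⟨⟨_, hW⟩, mem_AnnW.2 fun k hk => ?_, rfl⟩
    have hb2 : polar Q b a = 0 := by rw [polar_comm, hab]
    have hW' : InW Q e f ((sg Q b a).1.1 (k : V)) :=
      AutOmega.sg_stab_W hQb hb2 hb ha (mem_WQ.1 k.2)
    have hk' := step HP ha.neg hb hQb (by rw [polar_neg_left, hab, neg_zero])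
      (by rw [sg_neg HP.ee ha.ex]; exact inv_smul_eq_iff.2 hfa.symm) hfb (mem_WQ.1 k.2) hk
    rw [neg_neg] at hk'
    have h := mem_AnnW.1 hv ⟨_, hW'⟩ hk'
    rw [kapW_apply] at h ⊢
    convert h using 2
    show polar Q ((sg Q b (-a)).1.1 (v : V)) k = polar Q (v : V) ((sg Q b a).1.1 (k : V))
    have e : (k : V) = (sg Q b (-a)).1.1 ((sg Q b a).1.1 (k : V)) := by
      rw [sg_neg hQb hb2, G_inv]
    conv_lhs => rw [e]
    rw [G_B]
  | zero => simp
  | add x y _ _ hx hy => rw [map_add]; exact add_mem hx hy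
  | smul c x _ hx => rw [map_smul]; exact Submodule.smul_mem _ c hx

theorem fix_of_perp (hG : Good Q) (HP : Fr Q e f) {ω : Ω} {a : V} (ha : InW Q e f a)
    (h : ∀ t ∈ Tsp HP ω, polar Q a t = 0) : sg Q e a • ω = ω :=
  mem_Kst.1 (mem_Kst_of_perp hG HP (w := ⟨a, ha⟩) fun v hv => by
    rw [kapW_apply]
    show psi F (polar Q (v : V) a) = 1
    rw [polar_comm, h _ (Submodule.subset_span ⟨v, hv, rfl⟩), AddChar.map_zero_eq_one])

/-- Singular vectors of the opposite stabiliser are orthogonal to a small annihilator. -/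
theorem opp_perp (hG : Good Q) (HP : Fr Q e f) (hd : 7 ≤ Module.finrank F V)
    {ω : Ω} (hsm : SmallT HP ω) {b : V} (hb : InW Q e f b) (hQb : Q b = 0)
    (hfb : sg Q f b • ω = ω) {t : V} (ht : t ∈ Tsp HP ω) : polar Q t b = 0 := by
  have hTW := Tsp_le HP ω
  have happly : ∀ {a : V}, polar Q b a = 0 → ∀ s : V, (sg Q b (-a)).1.1 s =
      s + polar Q s b • (-a) - polar Q s (-a) • b - (Q a * polar Q s b) • b := fun {a} h s => by
    rw [sg_apply hQb (by rw [polar_neg_right, h, neg_zero]), QuadraticMap.map_neg]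
  by_contra htb
  rcases hsm with ⟨hts, hT2⟩ | ⟨v, hv, hv0, hT⟩
  · obtain ⟨a, ha, haT, hab, ha0⟩ := exists_ns_perp hG HP hT2 hTW hts hb ht htb
    have hmem := sub_mem (step_T HP ha hb hQb hab (fix_of_perp hG HP ha haT) hfb ht) ht
    have h0 := hts.polar_eq ht hmem
    rw [happly (by rw [polar_comm, hab]), polar_neg_right, polar_comm Q t a, haT t ht, neg_zero,
      zero_smul, sub_zero] at h0
    have e : t + polar Q t b • -a - (Q a * polar Q t b) • b - t =
        polar Q t b • -a - (Q a * polar Q t b) • b := by abel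
    rw [e, polar_sub_right, polar_smul_right, polar_smul_right, polar_neg_right, polar_comm Q t a,
      haT t ht, neg_zero, smul_zero, zero_sub, neg_eq_zero, smul_eq_mul, mul_eq_zero,
      mul_eq_zero] at h0
    rcases h0 with (h | h) | h
    exacts [ha0 h, htb h, htb h]
  · obtain ⟨c, rfl⟩ := Submodule.mem_span_singleton.1 (hT ▸ ht)
    have hvb : polar Q v b ≠ 0 := fun h => htb (by rw [polar_smul_left, h, smul_zero])
    set S' := Submodule.span F ({v, b, e, f} : Set V)
    have h4 : Module.finrank F S' ≤ 4 := by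
      refine le_trans (finrank_span_le_card _) ?_
      simp only [Set.toFinset_insert, Set.toFinset_singleton]
      exact Finset.card_le_four
    have h1 := finrank_perpS hG.nd S'
    obtain ⟨a, ha, hanot⟩ : ∃ a ∈ perpS Q S', a ∉ Submodule.span F ({v, b} : Set V) := by
      refine SetLike.not_le_iff_exists.1 fun hle => ?_
      have h2 := Submodule.finrank_mono hle
      have h3 : Module.finrank F (Submodule.span F ({v, b} : Set V)) ≤ 2 := by
        refine le_trans (finrank_span_le_card _) ?_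
        simp only [Set.toFinset_insert, Set.toFinset_singleton]
        exact Finset.card_le_two
      omega
    have hp := mem_perpS.1 ha
    have haW : InW Q e f a := ⟨hp e (Submodule.subset_span (by simp)),
      hp f (Submodule.subset_span (by simp))⟩
    have hav : polar Q a v = 0 := hp v (Submodule.subset_span (by simp))
    have hab : polar Q a b = 0 := hp b (Submodule.subset_span (by simp))
    have hfa : sg Q e a • ω = ω := fix_of_perp hG HP haW fun s hs => by
      obtain ⟨d, rfl⟩ := Submodule.mem_span_singleton.1 (hT ▸ hs)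
      rw [polar_smul_right, hav, smul_zero]
    have hvT : v ∈ Tsp HP ω := by rw [hT]; exact Submodule.mem_span_singleton_self v
    have hmem := step_T HP haW hb hQb hab hfa hfb hvT
    rw [happly (by rw [polar_comm, hab]), polar_neg_right, polar_comm Q v a, hav, neg_zero,
      zero_smul, sub_zero, hT, Submodule.mem_span_singleton] at hmem
    obtain ⟨d, hd'⟩ := hmem
    refine hanot (Submodule.mem_span_pair.2 ⟨(1 - d) / polar Q v b, -(Q a), ?_⟩)
    have e : polar Q v b • a = (1 - d) • v + (-(Q a * polar Q v b)) • b := by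
      linear_combination (norm := module) hd'
    calc ((1 - d) / polar Q v b) • v + -(Q a) • b
        = (polar Q v b)⁻¹ • ((1 - d) • v + (-(Q a * polar Q v b)) • b) := by
          match_scalars <;> field_simp
      _ = a := by rw [← e, smul_smul, inv_mul_cancel₀ hvb, one_smul]

theorem ts_le (hG : Good Q) (HP : Fr Q e f) (hd : 7 ≤ Module.finrank F V)
    {ω : Ω} (hsm : SmallT HP ω) (hsm' : SmallT HP.symm ω) (hts : TSing Q (Tsp HP ω)) :
    Tsp HP ω ≤ Tsp HP.symm ω := by
  intro t ht
  have htW := mem_WQ.1 (Tsp_le HP ω ht)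
  have htT' : ∀ s ∈ Tsp HP.symm ω, polar Q t s = 0 := fun s hs => by
    rw [polar_comm]
    exact opp_perp hG HP.symm hd hsm' htW.symm (hts t ht)
      (fix_of_perp hG HP htW fun r hr => hts.polar_eq ht hr) hs
  refine perp_perp hG HP.symm (Tsp_le HP.symm ω) htW.symm fun z hz hzT => ?_
  by_contra hzt
  set l := -(Q z) / polar Q z t
  have hbW : InW Q e f (z + l • t) := hz.symm.add (htW.smul l)
  have hQb : Q (z + l • t) = 0 := by
    rw [QuadraticMap.map_add ⇑Q, QuadraticMap.map_smul, hts t ht, smul_zero, polar_smul_right,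
      smul_eq_mul, add_zero, div_mul_cancel₀ _ hzt, add_neg_cancel]
  have hfb : sg Q f (z + l • t) • ω = ω := fix_of_perp hG HP.symm hbW.symm fun s hs => by
    rw [polar_add_left, polar_smul_left, hzT s hs, htT' s hs, smul_zero, add_zero]
  have h := opp_perp hG HP hd hsm hbW hQb hfb ht
  rw [polar_add_right, polar_smul_right, polar_self_sing (hts t ht), smul_zero, add_zero,
    polar_comm] at h
  exact hzt h

/-- Opposite annihilators coincide. -/
theorem Tsp_eq (hG : Good Q) (HP : Fr Q e f) (hd : 7 ≤ Module.finrank F V)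
    {ω : Ω} (hsm : SmallT HP ω) (hsm' : SmallT HP.symm ω) :
    Tsp HP ω ≤ Tsp HP.symm ω := by
  rcases hsm with ⟨hts, hT2⟩ | ⟨v, hv, hv0, hT⟩
  · exact ts_le hG HP hd (Or.inl ⟨hts, hT2⟩) hsm' hts
  have hsm : SmallT HP ω := Or.inr ⟨v, hv, hv0, hT⟩
  have hvT : v ∈ Tsp HP ω := by rw [hT]; exact Submodule.mem_span_singleton_self v
  rcases hsm' with ⟨hts', hT2'⟩ | ⟨v', hv', hv0', hT'⟩
  · exfalso
    have hbot : ∀ s ∈ Tsp HP.symm ω, s = 0 := fun s hs => by
      have h := ts_le hG HP.symm hd (Or.inl ⟨hts', hT2'⟩) hsm hts' hs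
      obtain ⟨c, rfl⟩ := Submodule.mem_span_singleton.1 (hT ▸ h)
      have h2 := hts' _ hs
      rw [QuadraticMap.map_smul, smul_eq_mul, mul_eq_zero, or_iff_left hv0, mul_eq_zero,
        or_self] at h2
      rw [h2, zero_smul]
    obtain ⟨w, hw, h1⟩ := W_nondeg hG HP hv (fun h => hv0 (by rw [h, map_zero]))
    refine one_ne_zero (h1.symm.trans (W_induction hG HP (P := fun x => polar Q v x = 0)
      (fun x y _ _ hx hy => by rw [polar_add_right, hx, hy, add_zero]) (fun b hb hQb => ?_) w hw))
    exact opp_perp hG HP hd hsm hb hQb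
      (fix_of_perp hG HP.symm hb.symm fun s hs => by rw [hbot s hs, polar_zero_right]) hvT
  have hK : ∀ b, InW Q e f b → Q b = 0 → polar Q b v' = 0 → polar Q v b = 0 := fun b hb hQb hbv =>
    opp_perp hG HP hd hsm hb hQb (fix_of_perp hG HP.symm hb.symm fun s hs => by
      obtain ⟨c, rfl⟩ := Submodule.mem_span_singleton.1 (hT' ▸ hs)
      rw [polar_smul_right, hbv, smul_zero]) hvT
  rw [hT, Submodule.span_le, Set.singleton_subset_iff, SetLike.mem_coe, hT']
  refine perp_perp hG HP ?_ hv fun z hz hzv => ?_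
  · rw [Submodule.span_le, Set.singleton_subset_iff]; exact hv'.symm
  have hzv' : polar Q z v' = 0 := hzv v' (Submodule.mem_span_singleton_self v')
  obtain ⟨a, b, ha, hb, Hab, hav, hbv⟩ := exists_pair_perp hG HP hd hv'.symm hv0'
  have h1 := hK a ha Hab.ee hav
  have h2 := hK b hb Hab.ff hbv
  set z' := proj Q a b z with hz'
  have hz'W : InW Q e f z' := (hz.sub (ha.smul _)).sub (hb.smul _)
  have hz'v : polar Q z' v' = 0 := by
    simp [hz', proj, polar_sub_left, polar_smul_left, hzv', hav, hbv]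
  have h3 := hK (z' + ((-Q z') • a + b)) (hz'W.add ((ha.smul _).add hb))
    (by rw [QuadraticMap.map_add ⇑Q, pair_nonsing Hab.ee Hab.ff Hab.ef, polar_add_right,
      polar_smul_right, (proj_mem Hab z).xe, (proj_mem Hab z).xf]; simp)
    (by simp [polar_add_left, polar_smul_left, hz'v, hav, hbv])
  have h4 : polar Q v z' = 0 := by
    simpa [polar_add_right, polar_smul_right, h1, h2] using h3
  rw [polar_comm, decomp (Q := Q) a b z, polar_add_right, polar_add_right, polar_smul_right,
    polar_smul_right, h1, h2, ← hz', h4]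
  simp

/-- Small annihilators everywhere make the action trivial. -/
theorem trivial_of_small (hG : Good Q) (hd : 7 ≤ Module.finrank F V)
    {ω : Ω} (hsm : ∀ (e f : V) (HP : Fr Q e f), SmallT HP ω) (g : G Q) : g • ω = ω := by
  have hle : ∀ (e f : V) (HP : Fr Q e f), Tsp HP ω ≤ Tsp HP.symm ω := fun e f HP =>
    Tsp_eq hG HP hd (hsm _ _ HP) (hsm _ _ HP.symm)
  have hzero : ∀ (e f : V) (HP : Fr Q e f), ∀ t ∈ Tsp HP ω, t = 0 := by
    intro e f HP t ht
    by_contra ht0
    have htW := mem_WQ.1 (Tsp_le HP ω ht)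
    obtain ⟨w, hw, hw0, htw, hwT⟩ : ∃ w, InW Q e f w ∧ Q w ≠ 0 ∧ polar Q t w ≠ 0 ∧
        w ∉ Tsp HP ω := by
      rcases hsm e f HP with ⟨hts, -⟩ | ⟨v, hv, hv0, hT⟩
      · obtain ⟨w, hw, h1⟩ := W_nondeg hG HP htW ht0
        by_cases h0 : Q w = 0
        · have hq : Q (w + t) = 1 := by
            rw [QuadraticMap.map_add ⇑Q, h0, hts t ht, polar_comm, h1]; simp
          refine ⟨w + t, hw.add htW, by rw [hq]; exact one_ne_zero, ?_,
            fun h => by rw [hts _ h] at hq; exact zero_ne_one hq⟩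
          rw [polar_add_right, h1, polar_self_sing (hts t ht), add_zero]; exact one_ne_zero
        · exact ⟨w, hw, h0, by rw [h1]; exact one_ne_zero, fun h => h0 (hts w h)⟩
      · obtain ⟨c, rfl⟩ := Submodule.mem_span_singleton.1 (hT ▸ ht)
        have hc : c ≠ 0 := fun h => ht0 (by rw [h, zero_smul])
        obtain ⟨a, b, ha, hb, Hab, hav, hbv⟩ := exists_pair_perp hG HP hd hv hv0
        obtain ⟨w0, hw0, h1⟩ := W_nondeg hG HP hv (fun h => hv0 (by rw [h, map_zero]))
        set z := proj Q a b w0 with hz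
        have hzW : InW Q e f z := (hw0.sub (ha.smul _)).sub (hb.smul _)
        have hvz : polar Q v z = 1 := by
          rw [hz, B_proj (x := v) ⟨by rw [polar_comm, hav], by rw [polar_comm, hbv]⟩, h1]
        set w := z + ((1 - Q z) • a + b) with hwd
        have hwa : polar Q w a = 1 := by
          rw [hwd, polar_add_left, polar_add_left, polar_smul_left, (proj_mem Hab w0).xe,
            polar_self_sing Hab.ee, Hab.fe]; simp
        have hqw : Q w = 1 := by
          rw [hwd, QuadraticMap.map_add ⇑Q, pair_nonsing Hab.ee Hab.ff Hab.ef, polar_add_right,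
            polar_smul_right, (proj_mem Hab w0).xe, (proj_mem Hab w0).xf]; simp
        refine ⟨w, hzW.add ((ha.smul _).add hb), by rw [hqw]; exact one_ne_zero, ?_, fun h => ?_⟩
        · rw [polar_smul_left, hwd, polar_add_right, polar_add_right, polar_smul_right, hvz,
            polar_comm Q v a, hav, polar_comm Q v b, hbv]
          simpa using hc
        · obtain ⟨d, hd'⟩ := Submodule.mem_span_singleton.1 (hT ▸ h)
          rw [← hd', polar_smul_left, polar_comm Q v a, hav, smul_zero] at hwa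
          exact zero_ne_one hwa
    set β := polar Q t w with hβ
    set f2 := f + w - Q w • e with hf2
    have hf2Q : Q f2 = 0 := by rw [hf2, ← sg_e_f HP hw, G_Q, HP.ff]
    have he2 : polar Q e f2 = 1 := by
      rw [hf2, polar_sub_right, polar_add_right, polar_smul_right, HP.ef, hw.ex,
        polar_self_sing HP.ee]; simp
    have H2 : Fr Q e f2 := ⟨HP.ee, hf2Q, he2⟩
    have hff2 : polar Q f f2 = -(Q w) := by
      rw [hf2, polar_sub_right, polar_add_right, polar_smul_right, polar_self_sing HP.ff, hw.fx,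
        HP.fe]; simp
    set c := -(Q w)⁻¹ with hc
    have hc0 : c ≠ 0 := neg_ne_zero.2 (inv_ne_zero hw0)
    have H3 : Fr Q f (c • f2) := ⟨HP.ff, by rw [QuadraticMap.map_smul, hf2Q, smul_zero], by
      rw [polar_smul_right, hff2, hc, smul_eq_mul]; field_simp⟩
    have htf2 : polar Q t f2 = β := by
      rw [hf2, polar_sub_right, polar_add_right, polar_smul_right, htW.xf, htW.xe, hβ]; simp
    -- the first vector
    have hA : t - β • e ∈ Lsp Q ω f2 := by
      have hW : InW Q e f2 (t - β • e) := ⟨by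
        rw [polar_sub_left, polar_smul_left, htW.xe, polar_self_sing HP.ee]; simp, by
        rw [polar_sub_left, polar_smul_left, htf2, he2]; simp⟩
      exact Tsp_le_Lsp H2.symm ω (hle e f2 H2 (mem_Tsp_of_Lsp H2 ω hW
        (sub_mem (Tsp_le_Lsp HP ω ht) (Submodule.smul_mem _ _ (self_mem_Lsp ω HP.ee)))))
    -- the second vector
    have hB : t + (β / Q w) • f ∈ Lsp Q ω f2 := by
      have hW : InW Q f (c • f2) (t + (β / Q w) • f) := ⟨by
        rw [polar_add_left, polar_smul_left, htW.xf, polar_self_sing HP.ff]; simp, by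
        rw [polar_smul_right, polar_add_left, polar_smul_left, htf2, hff2, smul_eq_mul]
        rw [smul_eq_mul, mul_eq_zero]; right; field_simp; ring⟩
      exact Lsp_smul_le ω hf2Q hc0 (Tsp_le_Lsp H3.symm ω (hle f _ H3 (mem_Tsp_of_Lsp H3 ω hW
        (add_mem (Tsp_le_Lsp HP.symm ω (hle e f HP ht))
          (Submodule.smul_mem _ _ (self_mem_Lsp ω HP.ff))))))
    have hC : (2 * Q w) • e - w ∈ Lsp Q ω e := by
      have h1 : (2 * Q w) • e - w ∈ Lsp Q ω f2 := by
        have h := sub_mem (Submodule.smul_mem _ (Q w / β) (sub_mem hB hA)) (self_mem_Lsp ω hf2Q)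
        convert h using 1
        rw [hf2]
        match_scalars <;> field_simp <;> ring
      have hW : InW Q f2 e ((2 * Q w) • e - w) := ⟨by
        have hwf2 : polar Q w f2 = 2 * Q w := by
          rw [hf2, polar_sub_right, polar_add_right, polar_smul_right, hw.xf, hw.xe, polar_self]
          simp
        rw [polar_sub_left, polar_smul_left, he2, hwf2]; simp, by
        rw [polar_sub_left, polar_smul_left, polar_self_sing HP.ee, hw.xe]; simp⟩
      exact Tsp_le_Lsp H2 ω (hle f2 e H2.symm (mem_Tsp_of_Lsp H2.symm ω hW h1))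
    refine hwT (mem_Tsp_of_Lsp HP ω hw ?_)
    have h := sub_mem (Submodule.smul_mem _ (2 * Q w) (self_mem_Lsp ω HP.ee)) hC
    rwa [sub_sub_cancel] at h
  have hfix : ∀ (x u : V), Q x = 0 → polar Q x u = 0 → sg Q x u • ω = ω := by
    intro x u hx hu
    rcases eq_or_ne x 0 with rfl | hx0
    · rw [show sg Q (0 : V) u = 1 from Subtype.ext (sie_zero_left u), one_smul]
    obtain ⟨y, hy, hxy⟩ := hG.exists_partner hx0 hx
    have HP : Fr Q x y := ⟨hx, hy, hxy⟩
    rw [sg_proj HP hu]
    exact fix_of_perp hG HP (proj_mem HP u) fun t ht => by rw [hzero x y HP t ht, polar_zero_right]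
  obtain ⟨h, hh⟩ := g
  induction hh using Subgroup.closure_induction with
  | mem z hz =>
    obtain ⟨x, u, hx, hu, rfl⟩ := hz
    exact hfix x u hx hu
  | one => exact one_smul (G Q) ω
  | mul a b hma hmb ha hb =>
    show ((⟨a, hma⟩ : G Q) * ⟨b, hmb⟩) • ω = ω
    rw [mul_smul, hb, ha]
  | inv a hma ha =>
    show ((⟨a, hma⟩ : G Q)⁻¹) • ω = ω
    rw [inv_smul_eq_iff, ha]

end Cfsg.Agent.Lib.MinIndexO
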