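import Cfsg.Agent.Lib.MinIndexO.Small

/-!
Numbers of vectors with a given value in the orthogonal space of a pair.
-/

set_option autoImplicit false

namespace Cfsg.Agent.Lib.MinIndexO

open QuadraticMap hiding proj
open Cfsg.Agent.Lib.Classical.Quad Cfsg.Agent.Lib.Classical.QuadOmega
open Cfsg.Agent.Lib.AutOmegaOdd (G G_ext G_mul G_one G_inv G_inv' G_Q G_B sg sg_apply sg_add sg_zero
  sg_self sg_neg sg_smul sg_conj sg_fix sg_fix_self sg_swap Fr InW proj proj_mem decomp B_proj
  sg_e_fix sg_e_f sg_e_inj)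
open Cfsg.Agent.Lib.AutOmega (W_pair W_partner W_nondeg W_induction)

universe u v w

attribute [local instance] _root_.Classical.propDecidable

variable {F : Type u} [Field F] [Fintype F] {V : Type v} [AddCommGroup V] [Module F V] [Fintype V]
  {Q : QuadraticForm F V} {e f a b : V}

/-- The vectors of a subspace with given value. -/
noncomputable def levS (Q : QuadraticForm F V) (S : Submodule F V) (c : F) : Finset V :=
  Finset.univ.filter fun x => x ∈ S ∧ Q x = c

/-- The vectors of a subspace. -/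
noncomputable def allS (S : Submodule F V) : Finset V := Finset.univ.filter fun x => x ∈ S

omit [Fintype V] in
theorem card_mul_eq (t : F) :
    (Finset.univ.filter fun p : F × F => p.1 * p.2 = t).card =
      (Fintype.card F - 1) + if t = 0 then Fintype.card F else 0 := by
  have h : ∀ α : F, (Finset.univ.filter fun β : F => α * β = t).card =
      if α = 0 then (if t = 0 then Fintype.card F else 0) else 1 := by
    intro α
    split_ifs with hα ht
    · subst hα ht; simp
    · subst hα
      exact Finset.card_eq_zero.2 (Finset.filter_eq_empty_iff.2 fun β _ => by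
        rw [zero_mul]; exact Ne.symm ht)
    · refine Finset.card_eq_one.2 ⟨α⁻¹ * t, ?_⟩
      ext β
      simp only [Finset.mem_filter, Finset.mem_univ, true_and, Finset.mem_singleton]
      exact (eq_inv_mul_iff_mul_eq₀ hα).symm
  rw [Finset.card_filter, Fintype.sum_prod_type]
  simp only [← Finset.card_filter, h]
  rw [← Finset.add_sum_erase _ _ (Finset.mem_univ (0 : F)), if_pos rfl,
    Finset.sum_congr rfl fun α hα => if_neg (Finset.mem_erase.1 hα).1, Finset.sum_const,
    Finset.card_erase_of_mem (Finset.mem_univ _), Finset.card_univ, smul_eq_mul, mul_one, add_comm]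

theorem mem_sub {S : Submodule F V} {x : V} :
    x ∈ S ⊓ WQ Q a b ↔ x ∈ S ∧ InW Q a b x := Submodule.mem_inf

omit [Fintype F] [Fintype V] in
theorem recompose (Hab : Fr Q a b) {w : V} (hw : InW Q a b w) (α β : F) :
    polar Q (α • a + β • b + w) b = α ∧ polar Q (α • a + β • b + w) a = β ∧
      Q (α • a + β • b + w) = α * β + Q w := by
  refine ⟨?_, ?_, ?_⟩
  · simp [polar_add_left, polar_smul_left, Hab.ef, polar_self_sing Hab.ff, hw.xf]
  · simp [polar_add_left, polar_smul_left, Hab.fe, polar_self_sing Hab.ee, hw.xe]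
  · rw [QuadraticMap.map_add ⇑Q, QuadraticMap.map_add ⇑Q, QuadraticMap.map_smul,
      QuadraticMap.map_smul, polar_smul_left, polar_smul_right, polar_add_left, polar_smul_left,
      polar_smul_left, Hab.ee, Hab.ff, Hab.ef, hw.ex, hw.fx]
    simp [mul_comm]

/-- Splitting off a pair. -/
theorem card_levS {S : Submodule F V} (Hab : Fr Q a b) (ha : a ∈ S) (hb : b ∈ S) (c : F) :
    (levS Q S c).card = (Fintype.card F - 1) * (allS (S ⊓ WQ Q a b)).card +
      Fintype.card F * (levS Q (S ⊓ WQ Q a b) c).card := by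
  have h1 : (levS Q S c).card = (((allS (S ⊓ WQ Q a b)) ×ˢ (Finset.univ : Finset (F × F))).filter
      fun p => p.2.1 * p.2.2 = c - Q p.1).card := by
    refine Finset.card_bij' (fun x _ => (proj Q a b x, (polar Q x b, polar Q x a)))
      (fun p _ => p.2.1 • a + p.2.2 • b + p.1) ?_ ?_ ?_ ?_
    · intro x hx
      obtain ⟨hxS, hxc⟩ := (Finset.mem_filter.1 hx).2
      have hp := proj_mem Hab x
      refine Finset.mem_filter.2 ⟨Finset.mem_product.2 ⟨Finset.mem_filter.2 ⟨Finset.mem_univ _,
        mem_sub.2 ⟨sub_mem (sub_mem hxS (S.smul_mem _ ha)) (S.smul_mem _ hb), hp⟩⟩,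
        Finset.mem_univ _⟩, ?_⟩
      have h := (recompose Hab hp (polar Q x b) (polar Q x a)).2.2
      rw [← decomp (Q := Q) a b x, hxc] at h
      exact eq_sub_of_add_eq h.symm
    · intro p hp
      obtain ⟨hp1, hp2⟩ := Finset.mem_filter.1 hp
      obtain ⟨hpS, hpW⟩ := mem_sub.1 (Finset.mem_filter.1 (Finset.mem_product.1 hp1).1).2
      refine Finset.mem_filter.2 ⟨Finset.mem_univ _,
        add_mem (add_mem (S.smul_mem _ ha) (S.smul_mem _ hb)) hpS, ?_⟩
      rw [(recompose Hab hpW _ _).2.2, hp2, sub_add_cancel]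
    · intro x _
      exact (decomp (Q := Q) a b x).symm
    · intro p hp
      obtain ⟨hp1, -⟩ := Finset.mem_filter.1 hp
      obtain ⟨-, hpW⟩ := mem_sub.1 (Finset.mem_filter.1 (Finset.mem_product.1 hp1).1).2
      obtain ⟨h1, h2, -⟩ := recompose Hab hpW p.2.1 p.2.2
      refine Prod.ext ?_ (Prod.ext h1 h2)
      show proj Q a b _ = p.1
      rw [proj, h1, h2]
      abel
  rw [h1, Finset.card_filter, Finset.sum_product]
  simp only [← Finset.card_filter, card_mul_eq, Finset.sum_add_distrib, Finset.sum_const,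
    smul_eq_mul]
  rw [mul_comm (allS (S ⊓ WQ Q a b)).card, ← Finset.sum_filter, Finset.sum_const, smul_eq_mul,
    mul_comm _ (Fintype.card F)]
  congr 2
  refine congrArg Finset.card ?_
  ext w
  simp only [levS, allS, Finset.mem_filter, Finset.mem_univ, true_and, sub_eq_zero, eq_comm (a := c)]

theorem card_allS {S : Submodule F V} (Hab : Fr Q a b) (ha : a ∈ S) (hb : b ∈ S) :
    (allS S).card = Fintype.card F ^ 2 * (allS (S ⊓ WQ Q a b)).card := by
  rw [pow_two, ← Fintype.card_prod, mul_comm, ← Finset.card_univ, ← Finset.card_product]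
  refine Finset.card_bij' (fun x _ => (proj Q a b x, (polar Q x b, polar Q x a)))
      (fun p _ => p.2.1 • a + p.2.2 • b + p.1) ?_ ?_ ?_ ?_
  · intro x hx
    exact Finset.mem_product.2 ⟨Finset.mem_filter.2 ⟨Finset.mem_univ _,
      mem_sub.2 ⟨sub_mem (sub_mem (Finset.mem_filter.1 hx).2 (S.smul_mem _ ha)) (S.smul_mem _ hb),
        proj_mem Hab x⟩⟩, Finset.mem_univ _⟩
  · intro p hp
    obtain ⟨hpS, -⟩ := mem_sub.1 (Finset.mem_filter.1 (Finset.mem_product.1 hp).1).2
    exact Finset.mem_filter.2 ⟨Finset.mem_univ _,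
      add_mem (add_mem (S.smul_mem _ ha) (S.smul_mem _ hb)) hpS⟩
  · intro x _
    exact (decomp (Q := Q) a b x).symm
  · intro p hp
    obtain ⟨-, hpW⟩ := mem_sub.1 (Finset.mem_filter.1 (Finset.mem_product.1 hp).1).2
    obtain ⟨h1, h2, -⟩ := recompose Hab hpW p.2.1 p.2.2
    refine Prod.ext ?_ (Prod.ext h1 h2)
    show proj Q a b _ = p.1
    rw [proj, h1, h2]
    abel

theorem levS_le (S : Submodule F V) (c : F) : (levS Q S c).card ≤ (allS S).card :=
  Finset.card_le_card fun x hx => Finset.mem_filter.2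
    ⟨Finset.mem_univ _, (Finset.mem_filter.1 hx).2.1⟩

/-! ### The orthogonal space -/

/-- The vectors of the orthogonal space with given value. -/
noncomputable def lev (Q : QuadraticForm F V) (e f : V) (c : F) : Finset (WQ Q e f) :=
  Finset.univ.filter fun x => Q (x : V) = c

theorem card_lev (e f : V) (c : F) : (lev Q e f c).card = (levS Q (WQ Q e f) c).card := by
  refine Finset.card_bij (fun x _ => (x : V)) (fun x hx => ?_) (fun x _ y _ h => Subtype.ext h)
    fun x hx => ?_
  · exact Finset.mem_filter.2 ⟨Finset.mem_univ _, x.2, (Finset.mem_filter.1 hx).2⟩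
  · obtain ⟨hxS, hxc⟩ := (Finset.mem_filter.1 hx).2
    exact ⟨⟨x, hxS⟩, Finset.mem_filter.2 ⟨Finset.mem_univ _, hxc⟩, rfl⟩

/-- Two splittings. -/
theorem exists_levels (hG : Good Q) (HP : Fr Q e f) (hd : 7 ≤ Module.finrank F V) :
    ∃ Z : ℕ, 0 < Z ∧ Fintype.card (WQ Q e f) = Fintype.card F ^ 4 * Z ∧
      ∀ c : F, ∃ k ≤ Z, (lev Q e f c).card = (Fintype.card F - 1) * (Fintype.card F ^ 2 * Z) +
        Fintype.card F * ((Fintype.card F - 1) * Z + Fintype.card F * k) := by
  obtain ⟨a, b, c, d, ha, hb, hc, hd', hab, hcd, hac, had, hbc, hbd⟩ := (good_QW hG HP hd).two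
  simp only [polar_QW, QW_apply] at ha hb hc hd' hab hcd hac had hbc hbd
  have H1 : Fr Q (a : V) b := ⟨ha, hb, hab⟩
  have H2 : Fr Q (c : V) d := ⟨hc, hd', hcd⟩
  set S := WQ Q e f ⊓ WQ Q (a : V) b
  have hcS : (c : V) ∈ S := mem_sub.2 ⟨c.2, by rw [polar_comm, hac], by rw [polar_comm, hbc]⟩
  have hdS : (d : V) ∈ S := mem_sub.2 ⟨d.2, by rw [polar_comm, had], by rw [polar_comm, hbd]⟩
  refine ⟨(allS (S ⊓ WQ Q (c : V) d)).card, ?_, ?_, fun t => ?_⟩
  · exact Finset.card_pos.2 ⟨0, Finset.mem_filter.2 ⟨Finset.mem_univ _, zero_mem _⟩⟩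
  · rw [Fintype.card_subtype, show (Finset.univ.filter fun x => x ∈ WQ Q e f) = allS (WQ Q e f) from
      rfl, card_allS H1 a.2 b.2, card_allS H2 hcS hdS]
    ring
  · exact ⟨(levS Q (S ⊓ WQ Q (c : V) d) t).card, levS_le _ _, by
      rw [card_lev, card_levS H1 a.2 b.2, card_allS H2 hcS hdS, card_levS H2 hcS hdS]⟩

/-- The nonzero multiples by squares of a value. -/
noncomputable def sqSet (c : F) : Finset F :=
  ((Finset.univ : Finset F).erase 0).image fun t => t ^ 2 * c

theorem card_sqSet {c : F} (hc : c ≠ 0) : Fintype.card F - 1 ≤ 2 * (sqSet c).card := by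
  rw [← Finset.card_univ, ← Finset.card_erase_of_mem (Finset.mem_univ (0 : F))]
  refine Finset.card_le_mul_card_image _ 2 fun y _ => ?_
  by_cases h : ∃ t : F, t ^ 2 * c = y
  · obtain ⟨t, rfl⟩ := h
    refine le_trans (Finset.card_le_card (t := {t, -t}) fun s hs => ?_) Finset.card_le_two
    have hs' := mul_right_cancel₀ hc (Finset.mem_filter.1 hs).2
    rw [Finset.mem_insert, Finset.mem_singleton]
    exact sq_eq_sq_iff_eq_or_eq_neg.1 hs'
  · rw [Finset.card_eq_zero.2 (Finset.filter_eq_empty_iff.2 fun s _ hs => h ⟨s, hs⟩)]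
    exact Nat.zero_le _

theorem card_sqSet_two (h2 : (2 : F) = 0) {c : F} (hc : c ≠ 0) :
    (sqSet c).card = Fintype.card F - 1 := by
  rw [sqSet, Finset.card_image_of_injOn, Finset.card_erase_of_mem (Finset.mem_univ _),
    Finset.card_univ]
  intro s _ t _ h
  rcases sq_eq_sq_iff_eq_or_eq_neg.1 (mul_right_cancel₀ hc h) with h' | h'
  · exact h'
  · rw [h', neg_eq_iff_add_eq_zero, ← two_mul, h2, zero_mul]

/-- The nonzero vectors whose value is a square multiple. -/
noncomputable def cls (Q : QuadraticForm F V) (e f : V) (c : F) : Finset (WQ Q e f) :=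
  Finset.univ.filter fun x => Q (x : V) ∈ sqSet c

theorem card_cls {c : F} {n : ℕ}
    (h : ∀ d : F, n ≤ (lev Q e f d).card) :
    (sqSet c).card * n ≤ (cls Q e f c).card := by
  rw [Finset.card_eq_sum_card_fiberwise (s := cls Q e f c) (f := fun x : WQ Q e f => Q (x : V)) (t := sqSet c)
    (fun x hx => (Finset.mem_filter.1 hx).2)]
  rw [← smul_eq_mul]
  refine Finset.card_nsmul_le_sum _ _ _ fun d hd => le_trans (h d) (le_of_eq ?_)
  refine congrArg Finset.card ?_
  ext x
  simp only [lev, cls, Finset.mem_filter, Finset.mem_univ, true_and]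
  exact ⟨fun hx => ⟨hx ▸ hd, hx⟩, fun hx => hx.2⟩

end Cfsg.Agent.Lib.MinIndexO
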